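import Mathlib
import Cfsg.Agent.Helper5.SympCard

set_option autoImplicit false

/-!
# Pairs of complementary totally isotropic subspaces of the standard symplectic space (helper30)

`bgSp_card_pairs`: over a finite field, (number of ordered pairs of complementary totally isotropic
subspaces of `F^(2d)`) * `|GL_d(F)|` = `|Sp_{2d}(F)|`.
-/

namespace Cfsg.Agent.Helper30

open Matrix

section bgSpPairs

variable {F : Type*} [Field F] {d : ℕ}

/-- the standard Lagrangian spanned by the `inl` coordinate vectors -/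
def bgSpE (d : ℕ) (F : Type*) [Field F] : Submodule F (Fin d ⊕ Fin d → F) where
  carrier := {v | ∀ j, v (Sum.inr j) = 0}
  add_mem' := by
    intro a b ha hb j
    rw [Pi.add_apply, ha j, hb j, add_zero]
  zero_mem' := fun j => rfl
  smul_mem' := by
    intro c a ha j
    rw [Pi.smul_apply, ha j, smul_zero]

/-- the standard Lagrangian spanned by the `inr` coordinate vectors -/
def bgSpF (d : ℕ) (F : Type*) [Field F] : Submodule F (Fin d ⊕ Fin d → F) where
  carrier := {v | ∀ i, v (Sum.inl i) = 0}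
  add_mem' := by
    intro a b ha hb j
    rw [Pi.add_apply, ha j, hb j, add_zero]
  zero_mem' := fun j => rfl
  smul_mem' := by
    intro c a ha j
    rw [Pi.smul_apply, ha j, smul_zero]

theorem bgSpE_mem (v : Fin d ⊕ Fin d → F) : v ∈ bgSpE d F ↔ ∀ j, v (Sum.inr j) = 0 := Iff.rfl

theorem bgSpF_mem (v : Fin d ⊕ Fin d → F) : v ∈ bgSpF d F ↔ ∀ i, v (Sum.inl i) = 0 := Iff.rfl

theorem bgSpE_ti (u v : Fin d ⊕ Fin d → F) (hu : u ∈ bgSpE d F) (hv : v ∈ bgSpE d F) :
    Cfsg.sympForm d F u v = 0 := by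
  rw [Helper13.sympForm_apply]
  apply Finset.sum_eq_zero
  intro i _
  rw [hu i, hv i]
  ring

theorem bgSpF_ti (u v : Fin d ⊕ Fin d → F) (hu : u ∈ bgSpF d F) (hv : v ∈ bgSpF d F) :
    Cfsg.sympForm d F u v = 0 := by
  rw [Helper13.sympForm_apply]
  apply Finset.sum_eq_zero
  intro i _
  rw [hu i, hv i]
  ring

theorem bgSpE_single (i : Fin d) : (Pi.single (Sum.inl i) (1 : F) : Fin d ⊕ Fin d → F) ∈ bgSpE d F := by
  intro j
  simp

theorem bgSpF_single (j : Fin d) : (Pi.single (Sum.inr j) (1 : F) : Fin d ⊕ Fin d → F) ∈ bgSpF d F := by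
  intro i
  simp

theorem bgSpE_eq_span : bgSpE d F =
    Submodule.span F (Set.range (fun i : Fin d => (Pi.single (Sum.inl i) (1 : F) : Fin d ⊕ Fin d → F))) := by
  apply le_antisymm
  · intro v hv
    have h1 : v = ∑ i : Fin d, v (Sum.inl i) • (Pi.single (Sum.inl i) (1 : F) : Fin d ⊕ Fin d → F) := by
      funext a
      rw [Finset.sum_apply]
      rcases a with a | a
      · simp [Pi.single_apply]
      · simp [hv a]
    rw [h1]
    exact Submodule.sum_mem _ (fun i _ => Submodule.smul_mem _ _ (Submodule.subset_span ⟨i, rfl⟩))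
  · rw [Submodule.span_le]
    rintro _ ⟨i, rfl⟩
    exact bgSpE_single i

theorem bgSpF_eq_span : bgSpF d F =
    Submodule.span F (Set.range (fun i : Fin d => (Pi.single (Sum.inr i) (1 : F) : Fin d ⊕ Fin d → F))) := by
  apply le_antisymm
  · intro v hv
    have h1 : v = ∑ i : Fin d, v (Sum.inr i) • (Pi.single (Sum.inr i) (1 : F) : Fin d ⊕ Fin d → F) := by
      funext a
      rw [Finset.sum_apply]
      rcases a with a | a
      · simp [hv a]
      · simp [Pi.single_apply]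
    rw [h1]
    exact Submodule.sum_mem _ (fun i _ => Submodule.smul_mem _ _ (Submodule.subset_span ⟨i, rfl⟩))
  · rw [Submodule.span_le]
    rintro _ ⟨i, rfl⟩
    exact bgSpF_single i

theorem bgSp_isCompl_std : IsCompl (bgSpE d F) (bgSpF d F) := by
  constructor
  · rw [Submodule.disjoint_def]
    intro v hE hF
    funext a
    rcases a with a | a
    · exact hF a
    · exact hE a
  · rw [codisjoint_iff, eq_top_iff]
    intro v _
    rw [Submodule.mem_sup]
    refine ⟨fun a => Sum.elim (fun i => v (Sum.inl i)) (fun _ => 0) a, fun j => rfl,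
      fun a => Sum.elim (fun _ => 0) (fun j => v (Sum.inr j)) a, fun i => rfl, ?_⟩
    funext a
    rcases a with a | a <;> simp

/-- the linear automorphism attached to a symplectic matrix -/
noncomputable def bgSpLin (g : Matrix.symplecticGroup (Fin d) F) :
    (Fin d ⊕ Fin d → F) ≃ₗ[F] (Fin d ⊕ Fin d → F) :=
  LinearEquiv.ofLinearMap (Matrix.toLin' g.1) (Matrix.toLin' (g⁻¹ : Matrix.symplecticGroup (Fin d) F).1)
    (by
      apply LinearMap.ext
      intro x
      rw [LinearMap.comp_apply, Matrix.toLin'_apply, Matrix.toLin'_apply, LinearMap.id_apply]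
      exact Helper5.sp_mulVec_inv g x)
    (by
      apply LinearMap.ext
      intro x
      rw [LinearMap.comp_apply, Matrix.toLin'_apply, Matrix.toLin'_apply, LinearMap.id_apply]
      exact Helper5.sp_inv_mulVec g x)

theorem bgSpLin_apply (g : Matrix.symplecticGroup (Fin d) F) (x : Fin d ⊕ Fin d → F) :
    bgSpLin g x = (g : Matrix (Fin d ⊕ Fin d) (Fin d ⊕ Fin d) F) *ᵥ x := rfl

/-- dual vectors are unique -/
theorem bgSp_dual_unique (U W : Submodule F (Fin d ⊕ Fin d → F)) (hUW : U ⊔ W = ⊤)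
    (hW : ∀ u ∈ W, ∀ v ∈ W, Cfsg.sympForm d F u v = 0) (w : Fin d ⊕ Fin d → F) (hw : w ∈ W)
    (h : ∀ u ∈ U, Cfsg.sympForm d F u w = 0) : w = 0 := by
  apply Helper5.sympForm_nondeg_right
  intro v
  have hv : v ∈ U ⊔ W := by rw [hUW]; trivial
  obtain ⟨u, hu, w', hw', rfl⟩ := Submodule.mem_sup.mp hv
  rw [Helper13.sympForm_add_left, h u hu, hW w' hw' w hw, add_zero]

/-- a matrix whose columns have the Gram matrix `J` is symplectic -/
theorem bgSp_mem_of_cols (A : Matrix (Fin d ⊕ Fin d) (Fin d ⊕ Fin d) F)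
    (h : ∀ a b, Cfsg.sympForm d F (A *ᵥ Pi.single a 1) (A *ᵥ Pi.single b 1) =
      Matrix.J (Fin d) F a b) : A ∈ Matrix.symplecticGroup (Fin d) F := by
  rw [SymplecticGroup.mem_iff']
  ext a b
  have h1 := h a b
  rw [Helper13.sympForm_def, Helper13.dotProduct_mulVec_mulVec] at h1
  simpa using h1

theorem bgSp_cols_of_mem (g : Matrix.symplecticGroup (Fin d) F) (a b : Fin d ⊕ Fin d) :
    Cfsg.sympForm d F ((g : Matrix (Fin d ⊕ Fin d) (Fin d ⊕ Fin d) F) *ᵥ Pi.single a 1)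
      ((g : Matrix (Fin d ⊕ Fin d) (Fin d ⊕ Fin d) F) *ᵥ Pi.single b 1) =
      Matrix.J (Fin d) F a b := by
  rw [Helper5.sp_sympForm, Helper13.sympForm_def]
  simp

/-- a totally isotropic subspace has dimension at most `d` -/
theorem bgSp_finrank_ti_le (U : Submodule F (Fin d ⊕ Fin d → F))
    (hU : ∀ u ∈ U, ∀ v ∈ U, Cfsg.sympForm d F u v = 0) : Module.finrank F U ≤ d := by
  have h1 := LinearMap.BilinForm.finrank_orthogonal
    (Helper5.sympBil_nondegenerate (m := d) (F := F)) U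
  have h2 : U ≤ (Helper5.sympBil d F).orthogonal U := by
    intro u hu
    rw [LinearMap.BilinForm.mem_orthogonal_iff]
    intro n hn
    exact hU n hn u hu
  have h3 := Submodule.finrank_mono h2
  have h4 : Module.finrank F (Fin d ⊕ Fin d → F) = 2 * d := by
    rw [Module.finrank_fintype_fun_eq_card, Fintype.card_sum, Fintype.card_fin]
    ring
  omega

/-- the pairs of complementary totally isotropic subspaces -/
abbrev bgSpPairs (d : ℕ) (F : Type*) [Field F] : Type _ :=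
  {P : Submodule F (Fin d ⊕ Fin d → F) × Submodule F (Fin d ⊕ Fin d → F) //
    IsCompl P.1 P.2 ∧ (∀ u ∈ P.1, ∀ v ∈ P.1, Cfsg.sympForm d F u v = 0) ∧
      (∀ u ∈ P.2, ∀ v ∈ P.2, Cfsg.sympForm d F u v = 0)}

theorem bgSp_finrank_pair (P : bgSpPairs d F) :
    Module.finrank F P.1.1 = d ∧ Module.finrank F P.1.2 = d := by
  have hc : IsCompl P.1.1 P.1.2 := P.2.1
  have h1 := Submodule.finrank_add_eq_of_isCompl hc
  have h4 : Module.finrank F (Fin d ⊕ Fin d → F) = 2 * d := by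
    rw [Module.finrank_fintype_fun_eq_card, Fintype.card_sum, Fintype.card_fin]
    ring
  have h2 := bgSp_finrank_ti_le P.1.1 P.2.2.1
  have h3 := bgSp_finrank_ti_le P.1.2 P.2.2.2
  constructor <;> omega

theorem bgSp_map_ti (g : Matrix.symplecticGroup (Fin d) F) (E : Submodule F (Fin d ⊕ Fin d → F))
    (hE : ∀ u ∈ E, ∀ v ∈ E, Cfsg.sympForm d F u v = 0) :
    ∀ u ∈ E.map (bgSpLin g).toLinearMap, ∀ v ∈ E.map (bgSpLin g).toLinearMap,
      Cfsg.sympForm d F u v = 0 := by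
  rintro _ ⟨x, hx, rfl⟩ _ ⟨y, hy, rfl⟩
  show Cfsg.sympForm d F (bgSpLin g x) (bgSpLin g y) = 0
  rw [bgSpLin_apply, bgSpLin_apply, Helper5.sp_sympForm]
  exact hE x hx y hy

/-- the pair attached to a symplectic matrix -/
noncomputable def bgSpPairOf (g : Matrix.symplecticGroup (Fin d) F) : bgSpPairs d F :=
  ⟨((bgSpE d F).map (bgSpLin g).toLinearMap, (bgSpF d F).map (bgSpLin g).toLinearMap),
    (Submodule.orderIsoMapComap (bgSpLin g)).isCompl bgSp_isCompl_std,
    bgSp_map_ti g _ (fun u hu v hv => bgSpE_ti u v hu hv),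
    bgSp_map_ti g _ (fun u hu v hv => bgSpF_ti u v hu hv)⟩

theorem bgSpPairOf_fst (g : Matrix.symplecticGroup (Fin d) F) :
    (bgSpPairOf g).1.1 = (bgSpE d F).map (bgSpLin g).toLinearMap := rfl

theorem bgSpPairOf_snd (g : Matrix.symplecticGroup (Fin d) F) :
    (bgSpPairOf g).1.2 = (bgSpF d F).map (bgSpLin g).toLinearMap := rfl

theorem bgSp_J_apply_ll (i i' : Fin d) : Matrix.J (Fin d) F (Sum.inl i) (Sum.inl i') = 0 := by
  simp [Matrix.J]

theorem bgSp_J_apply_rr (i i' : Fin d) : Matrix.J (Fin d) F (Sum.inr i) (Sum.inr i') = 0 := by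
  simp [Matrix.J]

theorem bgSp_J_apply_rl (j i : Fin d) :
    Matrix.J (Fin d) F (Sum.inr j) (Sum.inl i) = - Matrix.J (Fin d) F (Sum.inl i) (Sum.inr j) := by
  simp [Matrix.J, Matrix.one_apply, eq_comm]

theorem bgSp_fiber_inj (P : bgSpPairs d F) (g g' : Matrix.symplecticGroup (Fin d) F)
    (hg : bgSpPairOf g = P) (hg' : bgSpPairOf g' = P)
    (h1 : ∀ i : Fin d, (g : Matrix (Fin d ⊕ Fin d) (Fin d ⊕ Fin d) F) *ᵥ Pi.single (Sum.inl i) 1 =
        (g' : Matrix (Fin d ⊕ Fin d) (Fin d ⊕ Fin d) F) *ᵥ Pi.single (Sum.inl i) 1) : g = g' := by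
  classical
  have hc : IsCompl P.1.1 P.1.2 := P.2.1
  have hW : ∀ u ∈ P.1.2, ∀ v ∈ P.1.2, Cfsg.sympForm d F u v = 0 := P.2.2.2
  have hfibE : (bgSpE d F).map (bgSpLin g).toLinearMap = P.1.1 := congrArg (fun P => P.1.1) hg
  have hfibF : (bgSpF d F).map (bgSpLin g).toLinearMap = P.1.2 := congrArg (fun P => P.1.2) hg
  have hfibF' : (bgSpF d F).map (bgSpLin g').toLinearMap = P.1.2 := congrArg (fun P => P.1.2) hg'
  have h2 : ∀ x ∈ bgSpE d F, (g : Matrix (Fin d ⊕ Fin d) (Fin d ⊕ Fin d) F) *ᵥ x =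
      (g' : Matrix (Fin d ⊕ Fin d) (Fin d ⊕ Fin d) F) *ᵥ x := by
    intro x hx
    rw [bgSpE_eq_span] at hx
    have h3 : Set.EqOn (Matrix.toLin' (g : Matrix (Fin d ⊕ Fin d) (Fin d ⊕ Fin d) F))
        (Matrix.toLin' (g' : Matrix (Fin d ⊕ Fin d) (Fin d ⊕ Fin d) F))
        (Set.range (fun i : Fin d => (Pi.single (Sum.inl i) (1 : F) : Fin d ⊕ Fin d → F))) := by
      rintro _ ⟨i, rfl⟩
      rw [Matrix.toLin'_apply, Matrix.toLin'_apply]
      exact h1 i
    have h4 := LinearMap.eqOn_span h3 hx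
    rwa [Matrix.toLin'_apply, Matrix.toLin'_apply] at h4
  have h5 : ∀ j : Fin d, (g : Matrix (Fin d ⊕ Fin d) (Fin d ⊕ Fin d) F) *ᵥ Pi.single (Sum.inr j) 1 =
      (g' : Matrix (Fin d ⊕ Fin d) (Fin d ⊕ Fin d) F) *ᵥ Pi.single (Sum.inr j) 1 := by
    intro j
    rw [← sub_eq_zero]
    have hm1 : (g : Matrix (Fin d ⊕ Fin d) (Fin d ⊕ Fin d) F) *ᵥ Pi.single (Sum.inr j) 1 ∈ P.1.2 := by
      rw [← hfibF]
      exact Submodule.mem_map_of_mem (bgSpF_single j)
    have hm2 : (g' : Matrix (Fin d ⊕ Fin d) (Fin d ⊕ Fin d) F) *ᵥ Pi.single (Sum.inr j) 1 ∈ P.1.2 := by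
      rw [← hfibF']
      exact Submodule.mem_map_of_mem (bgSpF_single j)
    apply bgSp_dual_unique P.1.1 P.1.2 hc.sup_eq_top hW _ (Submodule.sub_mem _ hm1 hm2)
    intro u hu
    rw [← hfibE] at hu
    obtain ⟨x, hx, rfl⟩ := hu
    have hx' : (bgSpLin g).toLinearMap x = (g : Matrix (Fin d ⊕ Fin d) (Fin d ⊕ Fin d) F) *ᵥ x := rfl
    rw [hx', Helper13.sympForm_sub_right, Helper5.sp_sympForm, h2 x hx,
      Helper5.sp_sympForm, sub_self]
  apply Subtype.ext
  apply Matrix.ext_of_mulVec_single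
  intro a
  rcases a with a | a
  · exact h1 a
  · exact h5 a

theorem bgSp_fiber_surj (P : bgSpPairs d F) (s' : Fin d → (Fin d ⊕ Fin d → F))
    (hli' : LinearIndependent F s') (hs' : ∀ i, s' i ∈ P.1.1) :
    ∃ g : Matrix.symplecticGroup (Fin d) F, bgSpPairOf g = P ∧
      ∀ i : Fin d, (g : Matrix (Fin d ⊕ Fin d) (Fin d ⊕ Fin d) F) *ᵥ Pi.single (Sum.inl i) 1 = s' i := by
  classical
  obtain ⟨hdU, hdW⟩ := bgSp_finrank_pair P
  have hc : IsCompl P.1.1 P.1.2 := P.2.1
  have hU : ∀ u ∈ P.1.1, ∀ v ∈ P.1.1, Cfsg.sympForm d F u v = 0 := P.2.2.1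
  have hW : ∀ u ∈ P.1.2, ∀ v ∈ P.1.2, Cfsg.sympForm d F u v = 0 := P.2.2.2
  have hle : Submodule.span F (Set.range s') ≤ P.1.1 := by
    rw [Submodule.span_le]
    rintro _ ⟨i, rfl⟩
    exact hs' i
  have hfr : Module.finrank F (Submodule.span F (Set.range s')) = d := by
    rw [finrank_span_eq_card hli', Fintype.card_fin]
  have hspan : Submodule.span F (Set.range s') = P.1.1 :=
    Submodule.eq_of_le_of_finrank_eq hle (by rw [hfr, hdU])
  -- the dual family
  let ψ : ↥P.1.2 →ₗ[F] (Fin d → F) :=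
    LinearMap.pi (fun i => ((Helper5.sympBil d F) (s' i)).comp P.1.2.subtype)
  have hψ : ∀ (w : ↥P.1.2) (i : Fin d), ψ w i = Cfsg.sympForm d F (s' i) (w : Fin d ⊕ Fin d → F) :=
    fun w i => rfl
  have hinj : Function.Injective ψ := by
    rw [injective_iff_map_eq_zero]
    intro w hw0
    apply Subtype.ext
    apply bgSp_dual_unique P.1.1 P.1.2 hc.sup_eq_top hW _ w.2
    intro u hu
    rw [← hspan] at hu
    induction hu using Submodule.span_induction with
    | mem x hx =>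
      obtain ⟨i, rfl⟩ := hx
      have := congrFun hw0 i
      rw [hψ] at this
      exact this
    | zero => exact Helper13.sympForm_zero_left _
    | add x y _ _ hx hy => rw [Helper13.sympForm_add_left, hx, hy, add_zero]
    | smul c x _ hx => rw [Helper13.sympForm_smul_left, hx, mul_zero]
  have hsurj : Function.Surjective ψ :=
    (LinearMap.injective_iff_surjective_of_finrank_eq_finrank
      (by rw [hdW, Module.finrank_fin_fun])).mp hinj
  have hex : ∀ j : Fin d, ∃ w : ↥P.1.2, ∀ i, Cfsg.sympForm d F (s' i) (w : Fin d ⊕ Fin d → F) =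
      Matrix.J (Fin d) F (Sum.inl i) (Sum.inr j) := by
    intro j
    obtain ⟨w, hw⟩ := hsurj (fun i => Matrix.J (Fin d) F (Sum.inl i) (Sum.inr j))
    exact ⟨w, fun i => by rw [← hψ, hw]⟩
  choose t ht using hex
  obtain ⟨A, hA⟩ : ∃ A : Matrix (Fin d ⊕ Fin d) (Fin d ⊕ Fin d) F, ∀ b,
      A *ᵥ Pi.single b 1 = Sum.elim s' (fun j => (t j : Fin d ⊕ Fin d → F)) b := by
    refine ⟨Matrix.of (fun a b => Sum.elim s' (fun j => (t j : Fin d ⊕ Fin d → F)) b a), ?_⟩
    intro b
    rw [Matrix.mulVec_single_one]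
    rfl
  have hAmem : A ∈ Matrix.symplecticGroup (Fin d) F := by
    apply bgSp_mem_of_cols
    intro a b
    rw [hA, hA]
    rcases a with i | j <;> rcases b with i' | j'
    · rw [bgSp_J_apply_ll]
      exact hU _ (hs' i) _ (hs' i')
    · exact ht j' i
    · rw [bgSp_J_apply_rl, ← ht j i']
      exact Helper13.sympForm_swap _ _
    · rw [bgSp_J_apply_rr]
      exact hW _ (t j).2 _ (t j').2
  have hlin : ∀ x, (bgSpLin (⟨A, hAmem⟩ : Matrix.symplecticGroup (Fin d) F)).toLinearMap x = A *ᵥ x :=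
    fun x => rfl
  have hgE : (bgSpE d F).map (bgSpLin (⟨A, hAmem⟩ : Matrix.symplecticGroup (Fin d) F)).toLinearMap
      = P.1.1 := by
    rw [bgSpE_eq_span, Submodule.map_span, ← hspan]
    congr 1
    ext v
    constructor
    · rintro ⟨_, ⟨i, rfl⟩, rfl⟩
      exact ⟨i, by rw [hlin, hA]; rfl⟩
    · rintro ⟨i, rfl⟩
      exact ⟨_, ⟨i, rfl⟩, by rw [hlin, hA]; rfl⟩
  have hgF : (bgSpF d F).map (bgSpLin (⟨A, hAmem⟩ : Matrix.symplecticGroup (Fin d) F)).toLinearMap
      = P.1.2 := by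
    have hle2 : (bgSpF d F).map (bgSpLin (⟨A, hAmem⟩ : Matrix.symplecticGroup (Fin d) F)).toLinearMap
        ≤ P.1.2 := by
      rw [bgSpF_eq_span, Submodule.map_span, Submodule.span_le]
      rintro _ ⟨_, ⟨j, rfl⟩, rfl⟩
      rw [hlin, hA]
      exact (t j).2
    have hc2 : IsCompl ((bgSpE d F).map (bgSpLin (⟨A, hAmem⟩ : Matrix.symplecticGroup (Fin d) F)).toLinearMap)
        ((bgSpF d F).map (bgSpLin (⟨A, hAmem⟩ : Matrix.symplecticGroup (Fin d) F)).toLinearMap) :=
      (bgSpPairOf (⟨A, hAmem⟩ : Matrix.symplecticGroup (Fin d) F)).2.1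
    rw [hgE] at hc2
    have h6 : P.1.2 ⊓ P.1.1 = ⊥ := by
      rw [inf_comm]
      exact hc.inf_eq_bot
    have h7 : (bgSpF d F).map (bgSpLin (⟨A, hAmem⟩ : Matrix.symplecticGroup (Fin d) F)).toLinearMap
        ⊔ P.1.1 = ⊤ := by
      rw [sup_comm]
      exact hc2.sup_eq_top
    apply eq_of_le_of_inf_le_of_sup_le hle2 (z := P.1.1)
    · rw [h6]
      exact bot_le
    · rw [h7]
      exact le_top
  exact ⟨⟨A, hAmem⟩, Subtype.ext (Prod.ext hgE hgF), fun i => hA (Sum.inl i)⟩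

theorem bgSp_cols_linearIndependent (g : Matrix.symplecticGroup (Fin d) F) :
    LinearIndependent F (fun i : Fin d =>
      (g : Matrix (Fin d ⊕ Fin d) (Fin d ⊕ Fin d) F) *ᵥ Pi.single (Sum.inl i) (1 : F)) := by
  classical
  have h := (Pi.basisFun F (Fin d ⊕ Fin d)).linearIndependent.comp Sum.inl Sum.inl_injective
  have h2 : (⇑(Pi.basisFun F (Fin d ⊕ Fin d)) ∘ Sum.inl) =
      fun i : Fin d => (Pi.single (Sum.inl i) (1 : F) : Fin d ⊕ Fin d → F) := by
    funext i
    simp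
  rw [h2] at h
  exact h.map' (bgSpLin g).toLinearMap (LinearEquiv.ker _)

variable [Fintype F]

theorem bgSp_card_fiber (P : bgSpPairs d F) :
    Nat.card {g : Matrix.symplecticGroup (Fin d) F // bgSpPairOf g = P} =
      ∏ i : Fin d, (Fintype.card F ^ d - Fintype.card F ^ (i : ℕ)) := by
  classical
  obtain ⟨hdU, hdW⟩ := bgSp_finrank_pair P
  have hcard := card_linearIndependent (K := F) (V := ↥P.1.1) (k := d) (by rw [hdU])
  rw [hdU] at hcard
  rw [← hcard]
  have hmem : ∀ (g : {g : Matrix.symplecticGroup (Fin d) F // bgSpPairOf g = P}) (i : Fin d),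
      (g.1 : Matrix (Fin d ⊕ Fin d) (Fin d ⊕ Fin d) F) *ᵥ Pi.single (Sum.inl i) (1 : F) ∈ P.1.1 := by
    intro g i
    have hfibE : (bgSpE d F).map (bgSpLin g.1).toLinearMap = P.1.1 :=
      congrArg (fun P => P.1.1) g.2
    rw [← hfibE]
    exact Submodule.mem_map_of_mem (bgSpE_single i)
  have hli : ∀ (g : {g : Matrix.symplecticGroup (Fin d) F // bgSpPairOf g = P}),
      LinearIndependent F (fun i : Fin d =>
        (⟨(g.1 : Matrix (Fin d ⊕ Fin d) (Fin d ⊕ Fin d) F) *ᵥ Pi.single (Sum.inl i) (1 : F),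
          hmem g i⟩ : ↥P.1.1)) := by
    intro g
    apply LinearIndependent.of_comp P.1.1.subtype
    exact bgSp_cols_linearIndependent g.1
  have hbij : Function.Bijective (fun g : {g : Matrix.symplecticGroup (Fin d) F // bgSpPairOf g = P} =>
      (⟨fun i : Fin d => (⟨(g.1 : Matrix (Fin d ⊕ Fin d) (Fin d ⊕ Fin d) F) *ᵥ
        Pi.single (Sum.inl i) (1 : F), hmem g i⟩ : ↥P.1.1), hli g⟩ :
          {s : Fin d → ↥P.1.1 // LinearIndependent F s})) := by
    constructor
    · intro g g' hgg'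
      apply Subtype.ext
      apply bgSp_fiber_inj P g.1 g'.1 g.2 g'.2
      intro i
      have h1 := congrArg (fun s : {s : Fin d → ↥P.1.1 // LinearIndependent F s} =>
        ((s.1 i : ↥P.1.1) : Fin d ⊕ Fin d → F)) hgg'
      exact h1
    · rintro ⟨s, hs⟩
      obtain ⟨g, hg, hgs⟩ := bgSp_fiber_surj P (fun i => (s i : Fin d ⊕ Fin d → F))
        (hs.map' P.1.1.subtype (Submodule.ker_subtype _)) (fun i => (s i).2)
      refine ⟨⟨g, hg⟩, ?_⟩
      apply Subtype.ext
      funext i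
      apply Subtype.ext
      exact hgs i
  exact Nat.card_eq_of_bijective _ hbij

/-- **Counting pairs of complementary totally isotropic subspaces.** -/
theorem bgSp_card_pairs (d : ℕ) :
    Nat.card {P : Submodule F (Fin d ⊕ Fin d → F) × Submodule F (Fin d ⊕ Fin d → F) //
      IsCompl P.1 P.2 ∧ (∀ u ∈ P.1, ∀ v ∈ P.1, Cfsg.sympForm d F u v = 0) ∧
        (∀ u ∈ P.2, ∀ v ∈ P.2, Cfsg.sympForm d F u v = 0)} *
      ∏ i : Fin d, (Fintype.card F ^ d - Fintype.card F ^ (i : ℕ)) =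
    Nat.card (Matrix.symplecticGroup (Fin d) F) := by
  classical
  have hfin : Finite (bgSpPairs d F) := inferInstance
  have hft : Fintype (bgSpPairs d F) := Fintype.ofFinite _
  rw [← Nat.card_congr (Equiv.sigmaFiberEquiv (bgSpPairOf (d := d) (F := F))), Nat.card_sigma,
    Finset.sum_congr rfl (fun P _ => bgSp_card_fiber P), Finset.sum_const, Finset.card_univ,
    smul_eq_mul, Nat.card_eq_fintype_card]

end bgSpPairs

end Cfsg.Agent.Helper30
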