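import Mathlib
import Cfsg.Agent.Helper42.SpModels
import Cfsg.Agent.Helper30.BGSpPairs

set_option autoImplicit false

/-!
# An anisotropic torus element of `Sp_{2d}(q)` fixing no pair of complementary Lagrangians (helper30)
-/

namespace Cfsg.Agent.Helper30

open Matrix Cfsg.Agent.Helper42 Cfsg.Agent.Helper42.SpForm Cfsg.Agent.Helper42.SpGroup
  Cfsg.Agent.Helper42.SpModels

section bgSpTorus

universe u v w

variable {F : Type u} [Field F]

/-- orbit counting for multiplication by an element of prime order -/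
theorem bgSp_orbit_count {K : Type v} [Field K] [Algebra F K] (r : ℕ) [Fact r.Prime] (ω : K)
    (hω : ω ^ r = 1) (hω1 : ω ≠ 1) (A : Submodule F K) [Finite A] (hA : ∀ a ∈ A, ω * a ∈ A) :
    Nat.card A ≡ 1 [MOD r] := by
  classical
  have hft : Fintype ↥A := Fintype.ofFinite _
  let f : Function.End ↥A := fun a => ⟨ω * a.1, hA a.1 a.2⟩
  have hfpow : ∀ (n : ℕ) (a : ↥A), (((f ^ n) a : ↥A) : K) = ω ^ n * a.1 := by
    intro n
    induction n with
    | zero =>
      intro a
      rw [pow_zero, pow_zero, one_mul]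
      rfl
    | succ n ih =>
      intro a
      have h1 : (f ^ (n + 1)) a = (f ^ n) (f a) := by
        rw [pow_succ]
        rfl
      rw [h1, ih, pow_succ]
      show ω ^ n * (ω * a.1) = ω ^ n * ω * a.1
      ring
  have hf : f ^ r ^ 1 = 1 := by
    rw [pow_one]
    funext a
    apply Subtype.ext
    rw [hfpow, hω, one_mul]
    rfl
  have h1 := Equiv.Perm.card_fixedPoints_modEq (f := f) (p := r) (n := 1) hf
  have h2 : Fintype.card ↥(Function.fixedPoints f) = 1 := by
    rw [Fintype.card_eq_one_iff]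
    refine ⟨⟨0, ?_⟩, ?_⟩
    · show f 0 = 0
      apply Subtype.ext
      show ω * ((0 : ↥A) : K) = ((0 : ↥A) : K)
      rw [Submodule.coe_zero, mul_zero]
    · rintro ⟨a, ha⟩
      apply Subtype.ext
      show a = 0
      have h3 : ω * a.1 = a.1 := congrArg Subtype.val ha
      have h4 : (ω - 1) * a.1 = 0 := by rw [sub_mul, one_mul, h3, sub_self]
      rcases mul_eq_zero.mp h4 with h5 | h5
      · exact absurd (sub_eq_zero.mp h5) hω1
      · exact Subtype.ext h5
  rw [h2] at h1
  rw [Nat.card_eq_fintype_card]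
  exact h1

/-- a totally isotropic subspace of a nondegenerate alternating space has at most half the
dimension -/
theorem bgSp_ti_finrank_le {V : Type v} [AddCommGroup V] [Module F V] [FiniteDimensional F V]
    (B : LinearMap.BilinForm F V) (halt : ∀ v, B v v = 0) (hnd : ∀ v, (∀ w, B v w = 0) → v = 0)
    (A : Submodule F V) (hA : ∀ x ∈ A, ∀ y ∈ A, B x y = 0) :
    2 * Module.finrank F A ≤ Module.finrank F V := by
  have hB : B.Nondegenerate :=
    ⟨fun v h => hnd v h, fun w h => hnd w (fun v => by rw [skew_of_alt B halt, h v, neg_zero])⟩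
  have h1 := LinearMap.BilinForm.finrank_orthogonal hB A
  have h2 : A ≤ B.orthogonal A := by
    intro u hu
    rw [LinearMap.BilinForm.mem_orthogonal_iff]
    intro n hn
    exact hA n hn u hu
  have h3 := Submodule.finrank_mono h2
  have h4 := Submodule.finrank_le A
  omega

/-- the torus element of the model space leaves no pair of totally isotropic subspaces spanning
the space invariant -/
theorem bgSp_no_invariant_pair [Fintype F] {K : Type v} {V₂ : Type w} [Field K] [Algebra F K]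
    [FiniteDimensional F K] [AddCommGroup V₂] [Module F V₂]
    (B₁ : LinearMap.BilinForm F K) (B₂ : LinearMap.BilinForm F V₂)
    (halt₁ : ∀ v, B₁ v v = 0) (hnd₁ : ∀ v, (∀ w, B₁ v w = 0) → v = 0)
    (e : ℕ) (hdim : Module.finrank F K = 2 * e)
    (r : ℕ) [Fact r.Prime] (hr2 : r ≠ 2) (hre : r ∣ Fintype.card F ^ e + 1)
    (ω : K) (hωr : ω ^ r = 1) (hω1 : ω ≠ 1)
    (U' W' : Submodule F (K × V₂)) (hsup : U' ⊔ W' = ⊤)
    (hU : ∀ x ∈ U', ∀ y ∈ U', sumForm B₁ B₂ x y = 0)
    (hW : ∀ x ∈ W', ∀ y ∈ W', sumForm B₁ B₂ x y = 0)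
    (hUT : ∀ x ∈ U', ((LinearMap.mulLeft F ω).prodMap (LinearMap.id : V₂ →ₗ[F] V₂)) x ∈ U')
    (hWT : ∀ x ∈ W', ((LinearMap.mulLeft F ω).prodMap (LinearMap.id : V₂ →ₗ[F] V₂)) x ∈ W') :
    False := by
  classical
  have hKfin : Finite K := Module.finite_of_finite F
  set A : Submodule F K := U'.comap (LinearMap.inl F K V₂) with hAdef
  set Bs : Submodule F K := W'.comap (LinearMap.inl F K V₂) with hBdef
  have hAmem : ∀ a, a ∈ A ↔ (a, (0 : V₂)) ∈ U' := fun a => Iff.rfl
  have hBmem : ∀ a, a ∈ Bs ↔ (a, (0 : V₂)) ∈ W' := fun a => Iff.rfl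
  have hAti : ∀ x ∈ A, ∀ y ∈ A, B₁ x y = 0 := by
    intro x hx y hy
    have h1 := hU _ ((hAmem x).mp hx) _ ((hAmem y).mp hy)
    rw [sumForm_apply] at h1
    simpa using h1
  have hBti : ∀ x ∈ Bs, ∀ y ∈ Bs, B₁ x y = 0 := by
    intro x hx y hy
    have h1 := hW _ ((hBmem x).mp hx) _ ((hBmem y).mp hy)
    rw [sumForm_apply] at h1
    simpa using h1
  have key : ∀ (S : Submodule F (K × V₂)),
      (∀ x ∈ S, ((LinearMap.mulLeft F ω).prodMap (LinearMap.id : V₂ →ₗ[F] V₂)) x ∈ S) →
      ∀ x ∈ S, (((ω - 1) * x.1, (0 : V₂)) : K × V₂) ∈ S := by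
    intro S hS x hx
    have h1 := S.sub_mem (hS x hx) hx
    have h2 : ((LinearMap.mulLeft F ω).prodMap (LinearMap.id : V₂ →ₗ[F] V₂)) x - x =
        ((ω - 1) * x.1, (0 : V₂)) := by
      apply Prod.ext
      · simp [sub_mul]
      · simp
    rwa [h2] at h1
  have hAinv : ∀ a ∈ A, ω * a ∈ A := by
    intro a ha
    have h1 := hUT _ ((hAmem a).mp ha)
    rw [hAmem]
    simpa using h1
  have hω0 : ω - 1 ≠ 0 := sub_ne_zero.mpr hω1
  have hsupAB : A ⊔ Bs = ⊤ := by
    rw [eq_top_iff]
    intro k _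
    have hmem : (((ω - 1)⁻¹ * k, (0 : V₂)) : K × V₂) ∈ U' ⊔ W' := by
      rw [hsup]
      trivial
    obtain ⟨u, hu, w, hw, huw⟩ := Submodule.mem_sup.mp hmem
    rw [Submodule.mem_sup]
    refine ⟨(ω - 1) * u.1, (hAmem _).mpr (key U' hUT u hu), (ω - 1) * w.1,
      (hBmem _).mpr (key W' hWT w hw), ?_⟩
    have h1 : u.1 + w.1 = (ω - 1)⁻¹ * k := congrArg Prod.fst huw
    rw [← mul_add, h1, ← mul_assoc, mul_inv_cancel₀ hω0, one_mul]
  have hfA := bgSp_ti_finrank_le B₁ halt₁ hnd₁ A hAti
  have hfB := bgSp_ti_finrank_le B₁ halt₁ hnd₁ Bs hBti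
  have hsum := Submodule.finrank_sup_add_finrank_inf_eq A Bs
  rw [hsupAB, finrank_top] at hsum
  have hAe : Module.finrank F A = e := by omega
  have hcardA : Nat.card A = Fintype.card F ^ e := by
    rw [← hAe, Module.natCard_eq_pow_finrank (K := F) (V := ↥A), Nat.card_eq_fintype_card]
  have horb := bgSp_orbit_count r ω hωr hω1 A hAinv
  rw [hcardA] at horb
  have hq1 : 1 ≤ Fintype.card F ^ e := Nat.one_le_pow _ _ Fintype.card_pos
  have h1 : r ∣ Fintype.card F ^ e - 1 := (Nat.modEq_iff_dvd' hq1).mp horb.symm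
  have h2 : r ∣ 2 := by
    have h3 := Nat.dvd_sub hre h1
    have h4 : Fintype.card F ^ e + 1 - (Fintype.card F ^ e - 1) = 2 := by omega
    rwa [h4] at h3
  exact hr2 ((Nat.prime_dvd_prime_iff_eq Fact.out Nat.prime_two).mp h2)

theorem bgSp_stdForm_eq (n : ℕ) (u v : Fin n ⊕ Fin n → F) :
    stdForm n u v = Cfsg.sympForm n F u v := by
  rw [stdForm, Matrix.toBilin'_apply']
  rfl

/-- an element of odd prime order `r` dividing `q^e + 1` (`1 ≤ e ≤ d`) of `Sp_{2d}(q)` which neither
fixes nor interchanges the members of a pair of complementary totally isotropic subspaces -/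
theorem bgSp_exists_derangement [Fintype F] (p : ℕ) [Fact p.Prime] [CharP F p] (h2 : (2 : F) ≠ 0)
    (d e : ℕ) (he : 1 ≤ e) (hed : e ≤ d) (r : ℕ) [Fact r.Prime] (hr2 : r ≠ 2)
    (hre : r ∣ Fintype.card F ^ e + 1) :
    ∃ g : Matrix.symplecticGroup (Fin d) F, g ^ r = 1 ∧
      (∀ z : F, (g : Matrix (Fin d ⊕ Fin d) (Fin d ⊕ Fin d) F) ≠
        z • (1 : Matrix (Fin d ⊕ Fin d) (Fin d ⊕ Fin d) F)) ∧
      ¬ ∃ U W : Submodule F (Fin d ⊕ Fin d → F), IsCompl U W ∧
        (∀ u ∈ U, ∀ v ∈ U, Cfsg.sympForm d F u v = 0) ∧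
        (∀ u ∈ W, ∀ v ∈ W, Cfsg.sympForm d F u v = 0) ∧
        ((U.map (Matrix.toLin' (g : Matrix (Fin d ⊕ Fin d) (Fin d ⊕ Fin d) F)) = U ∧
          W.map (Matrix.toLin' (g : Matrix (Fin d ⊕ Fin d) (Fin d ⊕ Fin d) F)) = W) ∨
         (U.map (Matrix.toLin' (g : Matrix (Fin d ⊕ Fin d) (Fin d ⊕ Fin d) F)) = W ∧
          W.map (Matrix.toLin' (g : Matrix (Fin d ⊕ Fin d) (Fin d ⊕ Fin d) F)) = U)) := by
  classical
  have hne : NeZero (2 * e) := ⟨by omega⟩
  obtain ⟨σ, c, γ, hσ, hc, hc0, hγ, hord⟩ := exists_unit_data F p e he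
  have hKfin : Finite (FiniteField.Extension F p (2 * e)) := Module.finite_of_finite F
  have hKft : Fintype (FiniteField.Extension F p (2 * e)) := Fintype.ofFinite _
  have hγ0 : γ ≠ 0 := by
    rintro rfl
    rw [zero_mul] at hγ
    exact zero_ne_one hγ
  have hγfin : IsOfFinOrder γ := by
    rw [isOfFinOrder_iff_pow_eq_one]
    refine ⟨Fintype.card (FiniteField.Extension F p (2 * e)) - 1, ?_,
      FiniteField.pow_card_sub_one_eq_one γ hγ0⟩
    have := Fintype.one_lt_card (α := FiniteField.Extension F p (2 * e))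
    omega
  have hmpos : 0 < orderOf γ := hγfin.orderOf_pos
  have hqm : (Fintype.card F ^ e + 1) ∣ orderOf γ := hord _ (pow_orderOf_eq_one γ)
  obtain ⟨k, hk⟩ := dvd_trans hre hqm
  have hr1 := (Fact.out : r.Prime).one_lt
  have hk0 : 0 < k := by
    rcases Nat.eq_zero_or_pos k with h0 | h0
    · rw [h0, mul_zero] at hk
      omega
    · exact h0
  obtain ⟨ω, hωdef⟩ : ∃ ω : FiniteField.Extension F p (2 * e), ω = γ ^ k := ⟨_, rfl⟩
  have hωr : ω ^ r = 1 := by
    have hkr : k * r = orderOf γ := by rw [hk, Nat.mul_comm]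
    rw [hωdef, ← pow_mul, hkr]
    exact pow_orderOf_eq_one γ
  have hω1 : ω ≠ 1 := by
    intro h
    rw [hωdef] at h
    have h1 := Nat.le_of_dvd hk0 (orderOf_dvd_of_pow_eq_one h)
    nlinarith
  have hωσ : ω * σ ω = 1 := by
    rw [hωdef, map_pow, ← mul_pow, hγ, one_pow]
  have halt₁ := unitForm_alt F (FiniteField.Extension F p (2 * e)) σ c hσ hc h2
  have hnd₁ := unitForm_nondeg F (FiniteField.Extension F p (2 * e)) σ c hσ hc0
  have hpres₁ := preserves_mulLeft F (FiniteField.Extension F p (2 * e)) σ c ω hωσ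
  obtain ⟨T, hTdef⟩ : ∃ T : Module.End F (FiniteField.Extension F p (2 * e) ×
      (Fin (d - e) ⊕ Fin (d - e) → F)), T = (LinearMap.mulLeft F ω).prodMap
        (LinearMap.id : (Fin (d - e) ⊕ Fin (d - e) → F) →ₗ[F] (Fin (d - e) ⊕ Fin (d - e) → F)) :=
    ⟨_, rfl⟩
  have hT : Preserves (sumForm (unitForm F (FiniteField.Extension F p (2 * e)) σ c)
      (stdForm (d - e))) T := by
    rw [hTdef]
    exact preserves_prodMap hpres₁ (preserves_one _)
  have hTr : T ^ r = 1 := by
    rw [hTdef]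
    have h1 := prodMap_pow' (LinearMap.mulLeft F ω)
      (1 : Module.End F (Fin (d - e) ⊕ Fin (d - e) → F)) r
    rw [mulLeft_pow', hωr, one_pow] at h1
    have h3 : (LinearMap.mulLeft F ω).prodMap
        (LinearMap.id : (Fin (d - e) ⊕ Fin (d - e) → F) →ₗ[F] (Fin (d - e) ⊕ Fin (d - e) → F)) ^ r
        = (LinearMap.mulLeft F (1 : FiniteField.Extension F p (2 * e))).prodMap
          (1 : Module.End F (Fin (d - e) ⊕ Fin (d - e) → F)) := h1
    rw [h3]
    exact (prodMap_eq_one_iff _ _).mpr ⟨(mulLeft_eq_one_iff F _ _).mpr rfl, rfl⟩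
  obtain ⟨Φ, hΦ⟩ := exists_equiv_std d
    (FiniteField.Extension F p (2 * e) × (Fin (d - e) ⊕ Fin (d - e) → F))
    (sumForm (unitForm F (FiniteField.Extension F p (2 * e)) σ c) (stdForm (d - e)))
    (sumForm_alt _ _ halt₁ (stdForm_self (d - e)))
    (sumForm_nondeg _ _ hnd₁ (stdForm_nondeg (d - e)))
    (by
      rw [Module.finrank_prod, FiniteField.finrank_extension, Module.finrank_fintype_fun_eq_card,
        Fintype.card_sum, Fintype.card_fin]
      omega)
  obtain ⟨G, hGapp⟩ : ∃ G : Module.End F (Fin d ⊕ Fin d → F), ∀ x, G x = Φ (T (Φ.symm x)) :=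
    ⟨Φ.toLinearMap ∘ₗ T ∘ₗ Φ.symm.toLinearMap, fun x => rfl⟩
  have hG : Preserves (stdForm d) G := by
    intro x y
    rw [hGapp, hGapp, hΦ, hT, ← hΦ, Φ.apply_symm_apply, Φ.apply_symm_apply]
  have hpow : ∀ (j : ℕ) (x : Fin d ⊕ Fin d → F), (G ^ j) x = Φ ((T ^ j) (Φ.symm x)) := by
    intro j
    induction j with
    | zero =>
      intro x
      simp
    | succ j ih =>
      intro x
      rw [pow_succ, Module.End.mul_apply, ih, hGapp, Φ.symm_apply_apply, pow_succ,
        Module.End.mul_apply]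
  have hGr : ∀ x, (G ^ r) x = x := by
    intro x
    rw [hpow, hTr, Module.End.one_apply, Φ.apply_symm_apply]
  have hGl : Matrix.toLin' ((ofEnd G hG : Matrix.symplecticGroup (Fin d) F) :
      Matrix (Fin d ⊕ Fin d) (Fin d ⊕ Fin d) F) = G := toEnd_ofEnd G hG
  refine ⟨ofEnd G hG, ?_, ?_, ?_⟩
  · apply toEnd_injective
    rw [toEnd_pow, toEnd_ofEnd, toEnd_one]
    apply LinearMap.ext
    intro x
    rw [hGr, Module.End.one_apply]
  · intro z hz
    have hGz : ∀ x, G x = z • x := by
      intro x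
      rw [← hGl, hz, Matrix.toLin'_apply, Matrix.smul_mulVec, Matrix.one_mulVec]
    have hTz : ∀ y, T y = z • y := by
      intro y
      have h1 := hGz (Φ y)
      rw [hGapp, Φ.symm_apply_apply, ← map_smul] at h1
      exact Φ.injective h1
    have h3 := congrArg Prod.fst (hTz (1, 0))
    rw [hTdef] at h3
    have hωz : ω = algebraMap F (FiniteField.Extension F p (2 * e)) z := by
      simpa [Algebra.smul_def] using h3
    have hzr : z ^ r = 1 := by
      apply (algebraMap F (FiniteField.Extension F p (2 * e))).injective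
      rw [map_pow, ← hωz, hωr, map_one]
    have hz1 : z ≠ 1 := by
      rintro rfl
      exact hω1 (by rw [hωz, map_one])
    have hz0 : z ≠ 0 := by
      rintro rfl
      rw [zero_pow (Fact.out : r.Prime).ne_zero] at hzr
      exact zero_ne_one hzr
    have hordz : orderOf (Units.mk0 z hz0) = r := by
      apply orderOf_eq_prime
      · apply Units.ext
        rw [Units.val_pow_eq_pow_val, Units.val_mk0, hzr, Units.val_one]
      · intro h
        exact hz1 (by simpa using congrArg Units.val h)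
    have hdiv : r ∣ Fintype.card F - 1 := by
      rw [← hordz, ← Fintype.card_units]
      exact orderOf_dvd_card
    have h5 : r ∣ Fintype.card F ^ e - 1 := by
      exact dvd_trans hdiv (Nat.sub_one_dvd_pow_sub_one (Fintype.card F) e)
    have hq1 : 1 ≤ Fintype.card F ^ e := Nat.one_le_pow _ _ Fintype.card_pos
    have h7 : r ∣ 2 := by
      have h8 := Nat.dvd_sub hre h5
      have h9 : Fintype.card F ^ e + 1 - (Fintype.card F ^ e - 1) = 2 := by omega
      rwa [h9] at h8
    exact hr2 ((Nat.prime_dvd_prime_iff_eq Fact.out Nat.prime_two).mp h7)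
  · rintro ⟨U, W, hc, hU, hW, hcase⟩
    rw [hGl] at hcase
    have hinv : (∀ u ∈ U, G u ∈ U) ∧ (∀ w ∈ W, G w ∈ W) := by
      rcases hcase with ⟨h1, h2⟩ | ⟨h1, h2⟩
      · constructor
        · intro u hu
          have h3 : G u ∈ U.map G := Submodule.mem_map_of_mem hu
          rwa [h1] at h3
        · intro w hw
          have h3 : G w ∈ W.map G := Submodule.mem_map_of_mem hw
          rwa [h2] at h3
      · have hUW : ∀ u ∈ U, G u ∈ W := by
          intro u hu
          have h3 : G u ∈ U.map G := Submodule.mem_map_of_mem hu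
          rwa [h1] at h3
        have hWU : ∀ w ∈ W, G w ∈ U := by
          intro w hw
          have h3 : G w ∈ W.map G := Submodule.mem_map_of_mem hw
          rwa [h2] at h3
        obtain ⟨j, hj⟩ : ∃ j, r + 1 = 2 * j := by
          rcases (Fact.out : r.Prime).eq_two_or_odd with h | h
          · exact absurd h hr2
          · exact ⟨(r + 1) / 2, by omega⟩
        have hev : ∀ (S S' : Submodule F (Fin d ⊕ Fin d → F)), (∀ u ∈ S, G u ∈ S') →
            (∀ w ∈ S', G w ∈ S) → ∀ i : ℕ, ∀ u ∈ S, (G ^ (2 * i)) u ∈ S := by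
          intro S S' h1 h2 i
          induction i with
          | zero =>
            intro u hu
            simpa using hu
          | succ i ih =>
            intro u hu
            have h3 : 2 * (i + 1) = 2 * i + 1 + 1 := by ring
            rw [h3, pow_succ, pow_succ, Module.End.mul_apply, Module.End.mul_apply]
            exact ih _ (h2 _ (h1 _ hu))
        have hG1 : ∀ x, (G ^ (r + 1)) x = G x := by
          intro x
          rw [pow_succ, Module.End.mul_apply, hGr]
        constructor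
        · intro u hu
          rw [← hG1, hj]
          exact hev U W hUW hWU j u hu
        · intro w hw
          rw [← hG1, hj]
          exact hev W U hWU hUW j w hw
    apply bgSp_no_invariant_pair (unitForm F (FiniteField.Extension F p (2 * e)) σ c)
      (stdForm (d - e)) halt₁ hnd₁ e (FiniteField.finrank_extension F p (2 * e)) r hr2 hre ω hωr hω1
      (U.comap Φ.toLinearMap) (W.comap Φ.toLinearMap)
    · rw [eq_top_iff]
      intro y _
      have h1 : Φ y ∈ U ⊔ W := by
        rw [hc.sup_eq_top]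
        trivial
      obtain ⟨u, hu, w, hw, huw⟩ := Submodule.mem_sup.mp h1
      rw [Submodule.mem_sup]
      refine ⟨Φ.symm u, ?_, Φ.symm w, ?_, ?_⟩
      · show Φ (Φ.symm u) ∈ U
        rw [Φ.apply_symm_apply]
        exact hu
      · show Φ (Φ.symm w) ∈ W
        rw [Φ.apply_symm_apply]
        exact hw
      · apply Φ.injective
        rw [map_add, Φ.apply_symm_apply, Φ.apply_symm_apply, huw]
    · intro x hx y hy
      rw [← hΦ, bgSp_stdForm_eq]
      exact hU _ hx _ hy
    · intro x hx y hy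
      rw [← hΦ, bgSp_stdForm_eq]
      exact hW _ hx _ hy
    · intro x hx
      show Φ (((LinearMap.mulLeft F ω).prodMap LinearMap.id) x) ∈ U
      have h1 := hinv.1 (Φ x) hx
      rwa [hGapp, Φ.symm_apply_apply, hTdef] at h1
    · intro x hx
      show Φ (((LinearMap.mulLeft F ω).prodMap LinearMap.id) x) ∈ W
      have h1 := hinv.2 (Φ x) hx
      rwa [hGapp, Φ.symm_apply_apply, hTdef] at h1

end bgSpTorus

end Cfsg.Agent.Helper30
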