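-- helper30: definitions shared by the pieces of CALL S2701 (involutory graph automorphisms of
-- PSL_n(F), n even, characteristic 2).
import Mathlib

set_option autoImplicit false

namespace Cfsg.Agent.Helper30.GA2

open Matrix

/-- the matrix `1 + E` (`E` the all-ones matrix) -/
def nE (ι : Type*) [Fintype ι] [DecidableEq ι] (F : Type*) [Field F] : Matrix ι ι F :=
  1 + Matrix.of fun _ _ => (1 : F)

theorem nE_apply {ι : Type*} [Fintype ι] [DecidableEq ι] {F : Type*} [Field F] (i j : ι) :
    nE ι F i j = (1 : Matrix ι ι F) i j + 1 := rfl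

theorem nE_sub_one {ι : Type*} [Fintype ι] [DecidableEq ι] {F : Type*} [Field F] :
    nE ι F - 1 = Matrix.of fun _ _ => (1 : F) := by
  unfold nE
  rw [add_sub_cancel_left]

end Cfsg.Agent.Helper30.GA2
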