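import Cfsg.Agent.Helper30.BGPlus
import Cfsg.Agent.Helper45.DicksonRank
import Cfsg.Agent.Helper5.OrthMinus2

set_option autoImplicit false

/-!
# Non-singular points of a quadratic form in characteristic two; the minus-type count (helper30)
-/

namespace Cfsg.Agent.Helper30

open Matrix Cfsg

section General

variable {ι : Type} [Fintype ι] [DecidableEq ι] {F : Type*} [Field F]
  (Q : QuadraticForm F (ι → F))

omit [Fintype ι] [DecidableEq ι] in
theorem bgQ_smul (c : F) (v : ι → F) : Q (c • v) = c * c * Q v := by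
  have h := QuadraticMap.map_smul Q c v
  rw [smul_eq_mul] at h
  exact h

/-- a scalar isometry is trivial (characteristic two) -/
theorem bgQ_scalar [CharP F 2] (hex : ∃ v, Q v ≠ 0) (g : GL ι F)
    (hg : g ∈ isometryGroup F ⇑Q) (z : F) (hz : (g : Matrix ι ι F) = z • 1) : z = 1 := by
  obtain ⟨v, hv⟩ := hex
  have h1 := (Helper44.mem_isometryGroup_iff F ⇑Q g).mp hg v
  rw [hz, Matrix.smul_mulVec, Matrix.one_mulVec, bgQ_smul] at h1
  have h3 : z * z = 1 := by
    have h4 : (z * z - 1) * Q v = 0 := by rw [sub_mul, h1, one_mul, sub_self]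
    rcases mul_eq_zero.mp h4 with h5 | h5
    · exact sub_eq_zero.mp h5
    · exact absurd h5 hv
  exact bgPlus_sq_one z h3

/-- an isometry stabilising a non-singular point fixes its non-singular vectors -/
theorem bgQ_fix_of_point [CharP F 2] (g : GL ι F) (hg : g ∈ isometryGroup F ⇑Q)
    (W : Submodule F (ι → F)) (hW : Module.finrank F ↥W = 1) (v : ι → F) (hv : v ∈ W)
    (hQ : Q v ≠ 0) (hinv : W.map (Matrix.toLin' (g : Matrix ι ι F)) ≤ W) :
    (g : Matrix ι ι F) *ᵥ v = v := by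
  have hv0 : v ≠ 0 := by
    rintro rfl
    exact hQ (QuadraticMap.map_zero Q)
  have hspan : Submodule.span F {v} = W := by
    apply Submodule.eq_of_le_of_finrank_eq
    · rw [Submodule.span_le]
      intro x hx
      rw [Set.mem_singleton_iff] at hx
      rw [hx]
      exact hv
    · rw [finrank_span_singleton hv0, hW]
  have h1 : (g : Matrix ι ι F) *ᵥ v ∈ W := by
    apply hinv
    exact ⟨v, hv, Matrix.toLin'_apply _ _⟩
  rw [← hspan, Submodule.mem_span_singleton] at h1
  obtain ⟨c, hc⟩ := h1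
  have h2 := (Helper44.mem_isometryGroup_iff F ⇑Q g).mp hg v
  rw [← hc, bgQ_smul] at h2
  have h3 : c * c = 1 := by
    have h4 : (c * c - 1) * Q v = 0 := by rw [sub_mul, h2, one_mul, sub_self]
    rcases mul_eq_zero.mp h4 with h5 | h5
    · exact sub_eq_zero.mp h5
    · exact absurd h5 hQ
  rw [← hc, bgPlus_sq_one c h3, one_smul]

/-- a fixed non-singular vector spans a stabilised non-singular point -/
theorem bgQ_point_of_fix (M : Matrix ι ι F) (v : ι → F) (hQ : Q v ≠ 0) (hfix : M *ᵥ v = v) :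
    ∃ W : Submodule F (ι → F),
      (Module.finrank F ↥W = 1 ∧ ∃ v ∈ W, Q v ≠ 0) ∧ W.map (Matrix.toLin' M) ≤ W := by
  have hv0 : v ≠ 0 := by
    rintro rfl
    exact hQ (QuadraticMap.map_zero Q)
  refine ⟨Submodule.span F {v}, ⟨finrank_span_singleton hv0,
    v, Submodule.mem_span_singleton_self v, hQ⟩, ?_⟩
  rw [Submodule.map_span, Set.image_singleton, Matrix.toLin'_apply, hfix]

omit [DecidableEq ι] in
/-- non-singular points correspond to vectors of norm one (finite field of characteristic two) -/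
theorem bgQ_card_points [Fintype F] [CharP F 2] :
    Nat.card {W : Submodule F (ι → F) // Module.finrank F ↥W = 1 ∧ ∃ v ∈ W, Q v ≠ 0} =
      Nat.card {v : ι → F // Q v = 1} := by
  classical
  symm
  have hne : ∀ v : {v : ι → F // Q v = 1}, v.1 ≠ 0 := by
    intro v h0
    have h1 := v.2
    rw [h0, QuadraticMap.map_zero] at h1
    exact zero_ne_one h1
  let f : {v : ι → F // Q v = 1} →
      {W : Submodule F (ι → F) // Module.finrank F ↥W = 1 ∧ ∃ v ∈ W, Q v ≠ 0} :=
    fun v => ⟨Submodule.span F {v.1}, finrank_span_singleton (hne v), v.1,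
      Submodule.mem_span_singleton_self v.1, by rw [v.2]; exact one_ne_zero⟩
  apply Nat.card_congr (Equiv.ofBijective f ⟨?_, ?_⟩)
  · intro v v' hvv
    have h1 : Submodule.span F {v.1} = Submodule.span F {v'.1} := congrArg Subtype.val hvv
    have h2 : v'.1 ∈ Submodule.span F {v.1} := by
      rw [h1]; exact Submodule.mem_span_singleton_self _
    obtain ⟨c, hc⟩ := Submodule.mem_span_singleton.mp h2
    have h3 := v'.2
    rw [← hc, bgQ_smul, v.2, mul_one] at h3
    apply Subtype.ext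
    rw [← hc, bgPlus_sq_one c h3, one_smul]
  · rintro ⟨W, hW, w, hwW, hw⟩
    obtain ⟨s, hs⟩ := FiniteField.isSquare_of_char_two (ringChar.eq F 2) (Q w)
    have hs0 : s ≠ 0 := by
      rintro rfl
      rw [mul_zero] at hs
      exact hw hs
    have hv1 : Q (s⁻¹ • w) = 1 := by
      rw [bgQ_smul, hs]
      field_simp
    refine ⟨⟨s⁻¹ • w, hv1⟩, ?_⟩
    apply Subtype.ext
    show Submodule.span F {s⁻¹ • w} = W
    have hv0 : s⁻¹ • w ≠ 0 := by
      intro h0
      rw [h0, QuadraticMap.map_zero] at hv1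
      exact zero_ne_one hv1
    apply Submodule.eq_of_le_of_finrank_eq
    · rw [Submodule.span_le]
      intro x hx
      rw [Set.mem_singleton_iff] at hx
      rw [hx]
      exact W.smul_mem _ hwW
    · rw [finrank_span_singleton hv0, hW]

omit [Fintype ι] [DecidableEq ι] in
/-- the non-singular vectors are the nonzero multiples of the vectors of norm one -/
theorem bgQ_card_one [Fintype F] [CharP F 2] :
    (Fintype.card F - 1) * Nat.card {v : ι → F // Q v = 1} =
      Nat.card {v : ι → F // Q v ≠ 0} := by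
  classical
  rw [← Fintype.card_units, ← Nat.card_eq_fintype_card, ← Nat.card_prod]
  let f : Fˣ × {v : ι → F // Q v = 1} → {v : ι → F // Q v ≠ 0} :=
    fun p => ⟨(p.1 : F) • p.2.1, by
      rw [bgQ_smul, p.2.2, mul_one]
      exact mul_ne_zero p.1.ne_zero p.1.ne_zero⟩
  apply Nat.card_congr (Equiv.ofBijective f ⟨?_, ?_⟩)
  · rintro ⟨s, v⟩ ⟨s', v'⟩ h
    have h1 : (s : F) • v.1 = (s' : F) • v'.1 := congrArg Subtype.val h
    have h2 := congrArg (fun x => Q x) h1
    simp only [bgQ_smul, v.2, v'.2, mul_one] at h2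
    have h3 : ((s : F) * (s'⁻¹ : Fˣ)) * ((s : F) * (s'⁻¹ : Fˣ)) = 1 := by
      have : ((s : F) * (s'⁻¹ : Fˣ)) * ((s : F) * (s'⁻¹ : Fˣ)) =
          ((s : F) * s) * (((s'⁻¹ : Fˣ) : F) * ((s'⁻¹ : Fˣ) : F)) := by ring
      rw [this, h2]
      have h5 : ((s' : F) * s') * (((s'⁻¹ : Fˣ) : F) * ((s'⁻¹ : Fˣ) : F)) =
          ((s' : F) * ((s'⁻¹ : Fˣ) : F)) * ((s' : F) * ((s'⁻¹ : Fˣ) : F)) := by ring
      rw [h5, Units.mul_inv, mul_one]
    have h4 := bgPlus_sq_one _ h3
    have hss : s = s' := by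
      apply Units.ext
      have h6 : (s : F) = (s : F) * ((s'⁻¹ : Fˣ) : F) * (s' : F) := by
        rw [mul_assoc, Units.inv_mul, mul_one]
      rw [h6, h4, one_mul]
    subst hss
    have hv : v.1 = v'.1 := by
      have h7 := congrArg (fun x => ((s⁻¹ : Fˣ) : F) • x) h1
      simp only [smul_smul, Units.inv_mul, one_smul] at h7
      exact h7
    exact Prod.ext rfl (Subtype.ext hv)
  · rintro ⟨w, hw⟩
    obtain ⟨s, hs⟩ := FiniteField.isSquare_of_char_two (ringChar.eq F 2) (Q w)
    have hs0 : s ≠ 0 := by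
      rintro rfl
      rw [mul_zero] at hs
      exact hw hs
    have hv1 : Q (s⁻¹ • w) = 1 := by
      rw [bgQ_smul, hs]
      field_simp
    refine ⟨(Units.mk0 s hs0, ⟨s⁻¹ • w, hv1⟩), ?_⟩
    apply Subtype.ext
    show s • s⁻¹ • w = w
    rw [smul_smul, mul_inv_cancel₀ hs0, one_smul]

end General

section MinusCount

variable {F : Type*} [Field F] [Fintype F] [CharP F 2]

/-- the number of non-singular points of the minus-type form in characteristic two -/
theorem bgMinus_card_points (k : ℕ) (a b : F)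
    (hab : ∀ z₁ z₂ : F, z₁ ^ 2 + a * z₁ * z₂ + b * z₂ ^ 2 = 0 → z₁ = 0 ∧ z₂ = 0) :
    Nat.card {W : Submodule F ((Fin (k + 1) ⊕ Fin (k + 1)) ⊕ Fin 2 → F) //
        Module.finrank F ↥W = 1 ∧ ∃ v ∈ W, quadFormMinus (k + 1) F a b v ≠ 0} =
      Fintype.card F ^ (k + 1) * (Fintype.card F ^ (k + 2) + 1) := by
  classical
  have h1 := bgQ_card_points (Helper43.minusQF (k + 1) F a b)
  have h2 := bgQ_card_one (Helper43.minusQF (k + 1) F a b)
  have h3 := Helper5.minus_card_singular a b hab k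
  obtain ⟨q, hq⟩ : ∃ q, q = Fintype.card F := ⟨_, rfl⟩
  have hq2 : 2 ≤ q := by
    rw [hq]
    exact Fintype.one_lt_card
  obtain ⟨N, hN⟩ : ∃ N, N = Nat.card {v : (Fin (k + 1) ⊕ Fin (k + 1)) ⊕ Fin 2 → F //
      Helper43.minusQF (k + 1) F a b v = 1} := ⟨_, rfl⟩
  have h1' : Nat.card {W : Submodule F ((Fin (k + 1) ⊕ Fin (k + 1)) ⊕ Fin 2 → F) //
        Module.finrank F ↥W = 1 ∧ ∃ v ∈ W, quadFormMinus (k + 1) F a b v ≠ 0} = N := by
    rw [hN]
    exact h1
  rw [h1', ← hq]
  rw [← hN, ← hq] at h2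
  rw [← hq] at h3
  -- the whole space
  have htot : Nat.card {v : (Fin (k + 1) ⊕ Fin (k + 1)) ⊕ Fin 2 → F //
        Helper43.minusQF (k + 1) F a b v ≠ 0} +
      (Nat.card {v : (Fin (k + 1) ⊕ Fin (k + 1)) ⊕ Fin 2 → F //
        v ≠ 0 ∧ Cfsg.quadFormMinus (k + 1) F a b v = 0} + 1) = q ^ (2 * k + 4) := by
    have e1 : {v : (Fin (k + 1) ⊕ Fin (k + 1)) ⊕ Fin 2 → F //
        Helper43.minusQF (k + 1) F a b v ≠ 0} ⊕
        ({v : (Fin (k + 1) ⊕ Fin (k + 1)) ⊕ Fin 2 → F //
          v ≠ 0 ∧ Cfsg.quadFormMinus (k + 1) F a b v = 0} ⊕ Unit) ≃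
        ((Fin (k + 1) ⊕ Fin (k + 1)) ⊕ Fin 2 → F) :=
      { toFun := fun x => Sum.elim (fun v => v.1) (Sum.elim (fun v => v.1) (fun _ => 0)) x
        invFun := fun v =>
          if h : Helper43.minusQF (k + 1) F a b v ≠ 0 then Sum.inl ⟨v, h⟩
          else if h0 : v = 0 then Sum.inr (Sum.inr ())
          else Sum.inr (Sum.inl ⟨v, h0, not_not.mp h⟩)
        left_inv := by
          rintro (⟨v, hv⟩ | ⟨v, hv0, hv⟩ | u)
          · simp [hv]
          · have hv' : ¬ (Helper43.minusQF (k + 1) F a b v ≠ 0) := not_not.mpr hv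
            simp [hv', hv0]
          · simp
        right_inv := by
          intro v
          by_cases h : Helper43.minusQF (k + 1) F a b v ≠ 0
          · simp [h]
          · by_cases h0 : v = 0
            · simp [h0]
            · simp [h, h0] }
    have h4 := Nat.card_congr e1
    rw [Nat.card_sum, Nat.card_sum, Nat.card_eq_fintype_card (α := Unit), Fintype.card_unit,
      Nat.card_eq_fintype_card (α := _ → F),
      Fintype.card_fun, Fintype.card_sum, Fintype.card_sum, Fintype.card_fin, Fintype.card_fin,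
      ← hq] at h4
    rw [h4]
    congr 1
    omega
  rw [h3, ← h2] at htot
  -- arithmetic
  have hq1 : 1 ≤ q ^ (k + 1) := Nat.one_le_pow _ _ (by omega)
  obtain ⟨x, hx⟩ : ∃ x, q ^ (k + 1) = x + 1 := ⟨q ^ (k + 1) - 1, by omega⟩
  obtain ⟨t, ht⟩ : ∃ t, q = t + 1 := ⟨q - 1, by omega⟩
  have e2 : q ^ (k + 2) = q * q ^ (k + 1) := by rw [pow_succ]; ring
  have e4 : q ^ (2 * k + 4) = q * q * (q ^ (k + 1) * q ^ (k + 1)) := by
    rw [← pow_add, ← pow_two, ← pow_add]
    congr 1
    omega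
  rw [e2]
  rw [e2, e4, hx, ht] at htot
  rw [hx, ht]
  have h5 : (t + 1 - 1) = t := by omega
  have h6 : (x + 1 - 1) = x := by omega
  rw [h5, h6] at htot
  have ht0 : 0 < t := by omega
  apply Nat.eq_of_mul_eq_mul_left ht0
  nlinarith [htot]

end MinusCount

section Adjust

variable {F : Type*} [Field F] [Fintype F] [CharP F 2]

theorem bgMinus_a_ne_zero (a b : F)
    (hab : ∀ z₁ z₂ : F, z₁ ^ 2 + a * z₁ * z₂ + b * z₂ ^ 2 = 0 → z₁ = 0 ∧ z₂ = 0) : a ≠ 0 := by
  rintro rfl
  obtain ⟨s, hs⟩ := FiniteField.isSquare_of_char_two (ringChar.eq F 2) b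
  have h1 := hab s 1 (by
    rw [zero_mul, zero_mul, add_zero, one_pow, mul_one, pow_two, ← hs]
    exact CharTwo.add_self_eq_zero b)
  exact one_ne_zero h1.2

/-- two anisotropic binary forms with the same middle coefficient differ by a shear -/
theorem bgMinus_adjust (a b ζ : F)
    (hab : ∀ z₁ z₂ : F, z₁ ^ 2 + a * z₁ * z₂ + b * z₂ ^ 2 = 0 → z₁ = 0 ∧ z₂ = 0)
    (hζ : ∀ t : F, t ^ 2 + t + ζ ≠ 0) : ∃ t : F, t ^ 2 + a * t + a ^ 2 * ζ = b := by
  classical
  have ha := bgMinus_a_ne_zero a b hab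
  let φ : F →+ F :=
    { toFun := fun t => t ^ 2 + a * t
      map_zero' := by simp
      map_add' := by
        intro x y
        rw [CharTwo.add_sq]
        ring }
  have hφ : ∀ t, φ t = t ^ 2 + a * t := fun t => rfl
  have hker : Nat.card φ.ker = 2 := by
    rw [Nat.card_eq_two_iff]
    refine ⟨⟨0, φ.ker.zero_mem⟩, ⟨a, ?_⟩, ?_, ?_⟩
    · rw [AddMonoidHom.mem_ker, hφ, pow_two]
      exact CharTwo.add_self_eq_zero _
    · intro h
      exact ha (congrArg Subtype.val h).symm
    · rw [Set.eq_univ_iff_forall]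
      rintro ⟨t, ht⟩
      rw [AddMonoidHom.mem_ker, hφ] at ht
      have h1 : t * (t + a) = 0 := by rw [← ht]; ring
      rcases mul_eq_zero.mp h1 with h2 | h2
      · left
        exact Subtype.ext h2
      · right
        apply Subtype.ext
        show t = a
        have h3 : t = -a := eq_neg_of_add_eq_zero_left h2
        rw [h3, CharTwo.neg_eq]
  have hidx : φ.range.index = 2 := by
    have h1 := AddSubgroup.index_ker φ
    have h2 := AddSubgroup.card_mul_index φ.ker
    have h3 := AddSubgroup.card_mul_index φ.range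
    rw [hker, h1] at h2
    have h4 : Nat.card φ.range * φ.range.index = 2 * Nat.card φ.range := by rw [h3, h2]
    have h5 : 0 < Nat.card φ.range := Nat.card_pos
    nlinarith [h4]
  have hb : b ∉ φ.range := by
    rintro ⟨t, ht⟩
    rw [hφ] at ht
    have h1 := hab t 1 (by
      rw [one_pow, mul_one, mul_one, ← ht]
      exact CharTwo.add_self_eq_zero _)
    exact one_ne_zero h1.2
  have hc : a ^ 2 * ζ ∉ φ.range := by
    rintro ⟨t, ht⟩
    rw [hφ] at ht
    apply hζ (t / a)
    have h1 : (t / a) ^ 2 + t / a + ζ = (t ^ 2 + a * t + a ^ 2 * ζ) / a ^ 2 := by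
      field_simp
    rw [h1, ht, CharTwo.add_self_eq_zero, zero_div]
  have h7 := (AddSubgroup.add_mem_iff_of_index_two hidx (a := b) (b := a ^ 2 * ζ)).mpr
    ⟨fun h => absurd h hb, fun h => absurd h hc⟩
  obtain ⟨t, ht⟩ := h7
  rw [hφ] at ht
  refine ⟨t, ?_⟩
  rw [ht, add_assoc, CharTwo.add_self_eq_zero, add_zero]

end Adjust

end Cfsg.Agent.Helper30
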