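import Cfsg.Agent.Helper30.BGMinus
import Cfsg.Agent.Helper43.SymOrth
import Cfsg.Agent.Helper42.SpModels
import Cfsg.Agent.S2616

set_option autoImplicit false

/-!
# An anisotropic torus element of `O⁻_{2d}(q)`, `q` even, without fixed vectors (helper30)
-/

namespace Cfsg.Agent.Helper30

open Matrix Cfsg Cfsg.Agent.Helper42 Cfsg.Agent.Helper42.SpModels

section OrbitCount

/-- orbit counting for multiplication by an element of prime order on an invariant set containing
zero -/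
theorem bgMinus_orbit_count {K : Type*} [Field K] [Finite K] (r : ℕ) [Fact r.Prime] (ω : K)
    (hω : ω ^ r = 1) (hω1 : ω ≠ 1) (P : K → Prop) (hP0 : P 0) (hP : ∀ a, P a → P (ω * a)) :
    Nat.card {a : K // P a} ≡ 1 [MOD r] := by
  classical
  have hft : Fintype {a : K // P a} := Fintype.ofFinite _
  let f : Function.End {a : K // P a} := fun a => ⟨ω * a.1, hP a.1 a.2⟩
  have hfpow : ∀ (n : ℕ) (a : {a : K // P a}), (((f ^ n) a : {a : K // P a}) : K) =
      ω ^ n * a.1 := by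
    intro n
    induction n with
    | zero =>
      intro a
      rw [pow_zero, pow_zero, one_mul]
      rfl
    | succ n ih =>
      intro a
      have h1 : (f ^ (n + 1)) a = (f ^ n) (f a) := by
        rw [pow_succ]
        rfl
      rw [h1, ih, pow_succ]
      show ω ^ n * (ω * a.1) = ω ^ n * ω * a.1
      ring
  have hf : f ^ r ^ 1 = 1 := by
    rw [pow_one]
    funext a
    apply Subtype.ext
    rw [hfpow, hω, one_mul]
    rfl
  have h1 := Equiv.Perm.card_fixedPoints_modEq (f := f) (p := r) (n := 1) hf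
  have h2 : Fintype.card ↥(Function.fixedPoints f) = 1 := by
    rw [Fintype.card_eq_one_iff]
    refine ⟨⟨⟨0, hP0⟩, ?_⟩, ?_⟩
    · show f ⟨0, hP0⟩ = ⟨0, hP0⟩
      apply Subtype.ext
      show ω * (0 : K) = 0
      rw [mul_zero]
    · rintro ⟨a, ha⟩
      apply Subtype.ext
      apply Subtype.ext
      show a.1 = 0
      have h3 : ω * a.1 = a.1 := congrArg Subtype.val ha
      have h4 : (ω - 1) * a.1 = 0 := by rw [sub_mul, one_mul, h3, sub_self]
      rcases mul_eq_zero.mp h4 with h5 | h5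
      · exact absurd (sub_eq_zero.mp h5) hω1
      · exact h5
  rw [h2] at h1
  rw [Nat.card_eq_fintype_card]
  exact h1

theorem bgMinus_arith (q d r : ℕ) (hq : 1 ≤ q) (hd : 1 ≤ d) (hr : r.Prime) (hr2 : r ≠ 2)
    (h1 : r ∣ q ^ d + 1) (h2 : q ^ d + (q ^ d - 1) * q ^ (d - 1) ≡ 1 [MOD r]) : False := by
  have hfact : Fact r.Prime := ⟨hr⟩
  have h2ne : (2 : ZMod r) ≠ 0 := by
    intro h
    have h3 : ((2 : ℕ) : ZMod r) = 0 := by exact_mod_cast h
    rw [ZMod.natCast_eq_zero_iff] at h3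
    exact hr2 ((Nat.prime_dvd_prime_iff_eq hr Nat.prime_two).mp h3)
  obtain ⟨e, rfl⟩ : ∃ e, d = e + 1 := ⟨d - 1, by omega⟩
  have hpos : 1 ≤ q ^ (e + 1) := Nat.one_le_pow _ _ hq
  have hA : (q : ZMod r) ^ e * (q : ZMod r) = -1 := by
    have h3 := (ZMod.natCast_eq_zero_iff _ _).mpr h1
    rw [Nat.cast_add, Nat.cast_pow, Nat.cast_one, pow_succ] at h3
    linear_combination h3
  have hB : (q : ZMod r) ^ e * (q : ZMod r) +
      ((q : ZMod r) ^ e * (q : ZMod r) - 1) * (q : ZMod r) ^ e = 1 := by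
    have h3 := (ZMod.natCast_eq_natCast_iff _ _ _).mpr h2
    rw [Nat.add_sub_cancel, Nat.cast_add, Nat.cast_mul, Nat.cast_sub hpos, Nat.cast_pow,
      Nat.cast_pow, Nat.cast_one, pow_succ] at h3
    exact h3
  rw [hA] at hB
  have hY : (q : ZMod r) ^ e = -1 := by
    have h3 : (2 : ZMod r) * ((q : ZMod r) ^ e + 1) = 0 := by linear_combination -hB
    rcases mul_eq_zero.mp h3 with h4 | h4
    · exact absurd h4 h2ne
    · exact eq_neg_of_add_eq_zero_left h4
  rw [hY] at hA
  have hX : (q : ZMod r) = 1 := by linear_combination -hA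
  rw [hX, one_pow] at hY
  apply h2ne
  linear_combination hY

end OrbitCount

section Form

variable (F : Type*) [Field F] (K : Type*) [Field K] [Algebra F K]

/-- the quadratic form `tr(θ x σ(x))` with `θ + σ(θ) = 1` and its isometries of norm one -/
theorem bgMinus_form_exists [CharP F 2] [FiniteDimensional F K] [Algebra.IsSeparable F K]
    (σ : K ≃ₐ[F] K) (hσ : ∀ x, σ (σ x) = x) (x₀ : K) (hx₀ : σ x₀ ≠ x₀) :
    ∃ Q' : QuadraticForm F K, (QuadraticMap.polarBilin Q').Nondegenerate ∧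
      ∀ ω : K, ω * σ ω = 1 → ∀ v, Q' (ω * v) = Q' v := by
  have hK2 : CharP K 2 := charP_of_injective_algebraMap (algebraMap F K).injective 2
  have hs : x₀ + σ x₀ ≠ 0 := by
    intro h
    apply hx₀
    have h1 : σ x₀ = -x₀ := eq_neg_of_add_eq_zero_right h
    rw [h1, CharTwo.neg_eq]
  obtain ⟨θ, hθ⟩ : ∃ θ : K, θ = x₀ / (x₀ + σ x₀) := ⟨_, rfl⟩
  have hθσ : θ + σ θ = 1 := by
    rw [hθ, map_div₀, map_add, hσ, add_comm (σ x₀) x₀, ← add_div, div_self hs]
  have hpol : ∀ x y, QuadraticMap.polar (⇑(unitForm F K σ θ).toQuadraticMap) x y =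
      unitForm F K σ 1 x y := by
    intro x y
    rw [LinearMap.BilinMap.polar_toQuadraticMap, unitForm_apply, unitForm_apply, unitForm_apply]
    have h1 : Algebra.trace F K (σ θ * σ y * x) = Algebra.trace F K (θ * y * σ x) := by
      have h0 := Algebra.trace_eq_of_algEquiv σ (θ * y * σ x)
      rw [show σ (θ * y * σ x) = σ θ * σ y * x by rw [map_mul, map_mul, hσ]] at h0
      exact h0
    rw [← h1, ← map_add]
    congr 1
    linear_combination (x * σ y) * hθσ
  have key : ∀ x, (∀ y, QuadraticMap.polar (⇑(unitForm F K σ θ).toQuadraticMap) x y = 0) →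
      x = 0 := by
    intro x hx
    apply unitForm_nondeg F K σ 1 hσ one_ne_zero x
    intro y
    rw [← hpol]
    exact hx y
  refine ⟨(unitForm F K σ θ).toQuadraticMap, ⟨?_, ?_⟩, ?_⟩
  · intro x hx
    exact key x hx
  · intro y hy
    apply key y
    intro x
    rw [QuadraticMap.polar_comm]
    exact hy x
  · intro ω hω v
    rw [LinearMap.BilinMap.toQuadraticMap_apply, LinearMap.BilinMap.toQuadraticMap_apply]
    exact preserves_mulLeft F K σ θ ω hω v v

end Form

section Equivs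

variable {F : Type*} [Field F] {V : Type*} [AddCommGroup V] [Module F V]

theorem bgMinus_qpol (Q : QuadraticForm F V) :
    Helper43.SymOrth.QPol (⇑Q) (QuadraticMap.polarBilin Q) :=
  ⟨fun x y => by rw [QuadraticMap.map_add (⇑Q) x y]; rfl,
   fun c x => by rw [QuadraticMap.map_smul, smul_eq_mul]⟩

/-- a hyperbolic basis identifies the form with the standard plus-type form -/
theorem bgMinus_plus_equiv (Q : QuadraticForm F V) (d : ℕ)
    (bs : Module.Basis (Fin d ⊕ Fin d) F V)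
    (h1 : ∀ i, Q (bs (Sum.inl i)) = 0 ∧ Q (bs (Sum.inr i)) = 0)
    (h2 : ∀ i j, QuadraticMap.polar ⇑Q (bs (Sum.inl i)) (bs (Sum.inr j)) = if i = j then 1 else 0)
    (h3 : ∀ i j, QuadraticMap.polar ⇑Q (bs (Sum.inl i)) (bs (Sum.inl j)) = 0 ∧
      QuadraticMap.polar ⇑Q (bs (Sum.inr i)) (bs (Sum.inr j)) = 0)
    (c : Fin d ⊕ Fin d → F) : Q (bs.equivFun.symm c) = quadFormPlus d F c := by
  rw [Module.Basis.equivFun_symm_apply, Fintype.sum_sum_type]
  have hf : Helper43.TwoFam.Frame (⇑Q) (QuadraticMap.polarBilin Q) (fun i => bs (Sum.inl i))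
      (fun i => bs (Sum.inr i)) :=
    ⟨fun i => (h1 i).1, fun i j => (h3 i j).1, fun i => (h1 i).2, fun i j => (h3 i j).2, h2⟩
  exact (bgMinus_qpol Q).frame_Q hf (fun i => c (Sum.inl i)) (fun i => c (Sum.inr i))

/-- an elliptic basis identifies the form with any standard minus-type form (finite field of
characteristic two) -/
theorem bgMinus_minus_equiv [Fintype F] [CharP F 2] [FiniteDimensional F V]
    (Q : QuadraticForm F V) (m : ℕ) (a b : F)
    (hab : ∀ z₁ z₂ : F, z₁ ^ 2 + a * z₁ * z₂ + b * z₂ ^ 2 = 0 → z₁ = 0 ∧ z₂ = 0)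
    (hdim : Module.finrank F V = 2 * m + 2) (e f : Fin m → V) (x y : V) (ζ : F)
    (hζ : ∀ t : F, t ^ 2 + t + ζ ≠ 0)
    (h1 : ∀ i, Q (e i) = 0 ∧ Q (f i) = 0)
    (h2 : ∀ i j, QuadraticMap.polar ⇑Q (e i) (f j) = if i = j then 1 else 0)
    (h3 : ∀ i j, QuadraticMap.polar ⇑Q (e i) (e j) = 0 ∧ QuadraticMap.polar ⇑Q (f i) (f j) = 0)
    (h4x : ∀ i, QuadraticMap.polar ⇑Q (e i) x = 0 ∧ QuadraticMap.polar ⇑Q (f i) x = 0)
    (h4y : ∀ i, QuadraticMap.polar ⇑Q (e i) y = 0 ∧ QuadraticMap.polar ⇑Q (f i) y = 0)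
    (hx : Q x = 1) (hxy : QuadraticMap.polar ⇑Q x y = 1) (hy : Q y = ζ) :
    ∃ Ψ : ((Fin m ⊕ Fin m) ⊕ Fin 2 → F) ≃ₗ[F] V, ∀ c, Q (Ψ c) = quadFormMinus m F a b c := by
  classical
  obtain ⟨t, ht⟩ := bgMinus_adjust a b ζ hab hζ
  have hpol := bgMinus_qpol Q
  have hf : Helper43.TwoFam.Frame (⇑Q) (QuadraticMap.polarBilin Q) e f :=
    ⟨fun i => (h1 i).1, fun i j => (h3 i j).1, fun i => (h1 i).2, fun i j => (h3 i j).2, h2⟩
  obtain ⟨w, hwdef⟩ : ∃ w : V, w = a • y + t • x := ⟨_, rfl⟩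
  have hxx : QuadraticMap.polar ⇑Q x x = 0 := by
    rw [QuadraticMap.polar_self, hx, two_smul]
    exact CharTwo.add_self_eq_zero 1
  have hQw : Q w = b := by
    rw [hwdef, QuadraticMap.map_add (⇑Q) (a • y) (t • x), QuadraticMap.map_smul, QuadraticMap.map_smul, hx, hy,
      QuadraticMap.polar_smul_left, QuadraticMap.polar_smul_right, QuadraticMap.polar_comm, hxy,
      ← ht]
    simp only [smul_eq_mul]
    ring
  have hxw : QuadraticMap.polar ⇑Q x w = a := by
    rw [hwdef, QuadraticMap.polar_add_right, QuadraticMap.polar_smul_right,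
      QuadraticMap.polar_smul_right, hxy, hxx]
    simp
  have hew : ∀ i, QuadraticMap.polar ⇑Q (e i) w = 0 ∧ QuadraticMap.polar ⇑Q (f i) w = 0 := by
    intro i
    rw [hwdef, QuadraticMap.polar_add_right, QuadraticMap.polar_smul_right,
      QuadraticMap.polar_smul_right, QuadraticMap.polar_add_right, QuadraticMap.polar_smul_right,
      QuadraticMap.polar_smul_right, (h4x i).1, (h4x i).2, (h4y i).1, (h4y i).2]
    simp
  obtain ⟨Ψ₀, hΨ₀⟩ : ∃ Ψ₀ : ((Fin m ⊕ Fin m) ⊕ Fin 2 → F) →ₗ[F] V, ∀ c, Ψ₀ c =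
      (∑ k, c (Sum.inl (Sum.inl k)) • e k + ∑ k, c (Sum.inl (Sum.inr k)) • f k) +
        (c (Sum.inr 0) • x + c (Sum.inr 1) • w) := by
    refine ⟨(∑ k, (LinearMap.proj (Sum.inl (Sum.inl k))).smulRight (e k) +
        ∑ k, (LinearMap.proj (Sum.inl (Sum.inr k))).smulRight (f k)) +
        ((LinearMap.proj (Sum.inr 0)).smulRight x + (LinearMap.proj (Sum.inr 1)).smulRight w),
      fun c => ?_⟩
    simp only [LinearMap.add_apply, LinearMap.sum_apply, LinearMap.smulRight_apply,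
      LinearMap.proj_apply]
  have hQΨ : ∀ c, Q (Ψ₀ c) = quadFormMinus m F a b c := by
    intro c
    rw [hΨ₀, hpol.polar, hpol.frame_Q hf, hpol.polar, hpol.smul, hpol.smul, hx, hQw]
    have hB1 : QuadraticMap.polarBilin Q (c (Sum.inr 0) • x) (c (Sum.inr 1) • w) =
        c (Sum.inr 0) * c (Sum.inr 1) * a := by
      rw [QuadraticMap.polarBilin_apply_apply, QuadraticMap.polar_smul_left,
        QuadraticMap.polar_smul_right, hxw]
      simp only [smul_eq_mul]
      ring
    have hB2 : QuadraticMap.polarBilin Q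
        (∑ k, c (Sum.inl (Sum.inl k)) • e k + ∑ k, c (Sum.inl (Sum.inr k)) • f k)
        (c (Sum.inr 0) • x + c (Sum.inr 1) • w) = 0 := by
      have hsym : ∀ u v : V, QuadraticMap.polarBilin Q u v = QuadraticMap.polarBilin Q v u :=
        fun u v => hpol.symm u v
      rw [hsym]
      simp only [map_add, map_sum, map_smul, QuadraticMap.polarBilin_apply_apply, smul_eq_mul,
        LinearMap.add_apply, LinearMap.smul_apply]
      have e1 : ∀ k, QuadraticMap.polar ⇑Q x (e k) = 0 := fun k => by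
        rw [QuadraticMap.polar_comm]; exact (h4x k).1
      have e2 : ∀ k, QuadraticMap.polar ⇑Q x (f k) = 0 := fun k => by
        rw [QuadraticMap.polar_comm]; exact (h4x k).2
      have e3 : ∀ k, QuadraticMap.polar ⇑Q w (e k) = 0 := fun k => by
        rw [QuadraticMap.polar_comm]; exact (hew k).1
      have e4 : ∀ k, QuadraticMap.polar ⇑Q w (f k) = 0 := fun k => by
        rw [QuadraticMap.polar_comm]; exact (hew k).2
      simp [e1, e2, e3, e4]
    rw [hB1, hB2]
    unfold quadFormMinus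
    ring
  have hinj : Function.Injective Ψ₀ := by
    rw [← LinearMap.ker_eq_bot, LinearMap.ker_eq_bot']
    intro c hc
    apply (Helper45.minusQF_nondeg' m a b hab).1 c
    intro c'
    show QuadraticMap.polar ⇑(Helper43.minusQF m F a b) c c' = 0
    unfold QuadraticMap.polar
    rw [Helper43.minusQF_coe, ← hQΨ, ← hQΨ, ← hQΨ, map_add, hc, zero_add, QuadraticMap.map_zero]
    ring
  have hfr : Module.finrank F ((Fin m ⊕ Fin m) ⊕ Fin 2 → F) = Module.finrank F V := by
    rw [Module.finrank_fintype_fun_eq_card, hdim, Fintype.card_sum, Fintype.card_sum,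
      Fintype.card_fin, Fintype.card_fin]
    ring
  refine ⟨LinearMap.linearEquivOfInjective Ψ₀ hinj hfr, fun c => ?_⟩
  rw [LinearMap.linearEquivOfInjective_apply]
  exact hQΨ c

end Equivs

section Transport

variable {F : Type*} [Field F] {ι : Type} [Fintype ι] [DecidableEq ι] {K : Type*} [Field K]
  [Algebra F K]

/-- transport of multiplication by an element of finite order along an isometry -/
theorem bgMinus_transport (q : (ι → F) → F) (Q' : K → F) (Ψ : (ι → F) ≃ₗ[F] K)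
    (hΨ : ∀ c, Q' (Ψ c) = q c) (ω : K) (r : ℕ) (hr : 0 < r) (hω : ω ^ r = 1) (hω1 : ω ≠ 1)
    (hpres : ∀ v, Q' (ω * v) = Q' v) :
    ∃ g : GL ι F, g ∈ isometryGroup F q ∧ g ^ r = 1 ∧
      ∀ v : ι → F, (g : Matrix ι ι F) *ᵥ v = v → v = 0 := by
  obtain ⟨G, hG⟩ : ∃ G : ℕ → Module.End F (ι → F), ∀ j v, G j v = Ψ.symm (ω ^ j * Ψ v) :=
    ⟨fun j => Ψ.symm.toLinearMap ∘ₗ LinearMap.mulLeft F (ω ^ j) ∘ₗ Ψ.toLinearMap,
      fun j v => rfl⟩
  obtain ⟨M, hMdef⟩ : ∃ M : ℕ → Matrix ι ι F, ∀ j, M j = LinearMap.toMatrix' (G j) :=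
    ⟨fun j => LinearMap.toMatrix' (G j), fun j => rfl⟩
  have hM : ∀ j v, M j *ᵥ v = Ψ.symm (ω ^ j * Ψ v) := by
    intro j v
    rw [hMdef, LinearMap.toMatrix'_mulVec, hG]
  have hmul : ∀ i j, M i * M j = M (i + j) := by
    intro i j
    rw [hMdef, hMdef, hMdef, ← LinearMap.toMatrix'_comp]
    congr 1
    apply LinearMap.ext
    intro v
    rw [LinearMap.comp_apply, hG, hG, hG, LinearEquiv.apply_symm_apply, pow_add, mul_assoc]
  have hone : ∀ j, ω ^ j = 1 → M j = 1 := by
    intro j hj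
    rw [hMdef, ← LinearMap.toMatrix'_id]
    congr 1
    apply LinearMap.ext
    intro v
    rw [hG, hj, one_mul, LinearEquiv.symm_apply_apply, LinearMap.id_apply]
  have hr1 : 1 + (r - 1) = r := by omega
  have hr2 : (r - 1) + 1 = r := by omega
  obtain ⟨g, hg⟩ : ∃ g : GL ι F, (g : Matrix ι ι F) = M 1 :=
    ⟨⟨M 1, M (r - 1), by rw [hmul, hr1, hone r hω], by rw [hmul, hr2, hone r hω]⟩, rfl⟩
  have hpow : ∀ j, ((g ^ j : GL ι F) : Matrix ι ι F) = M j := by
    intro j
    induction j with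
    | zero => rw [pow_zero, hone 0 (pow_zero ω)]; rfl
    | succ j ih =>
      rw [pow_succ, Units.val_mul, ih, hg, hmul]
  refine ⟨g, ?_, ?_, ?_⟩
  · rw [Helper44.mem_isometryGroup_iff]
    intro u
    rw [hg, hM, ← hΨ, LinearEquiv.apply_symm_apply, pow_one, hpres, hΨ]
  · apply Units.ext
    rw [hpow, hone r hω]
    rfl
  · intro v hv
    rw [hg, hM, pow_one] at hv
    have h1 : ω * Ψ v = Ψ v := by
      have := congrArg Ψ hv
      rw [LinearEquiv.apply_symm_apply] at this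
      exact this
    have h4 : (ω - 1) * Ψ v = 0 := by rw [sub_mul, one_mul, h1, sub_self]
    rcases mul_eq_zero.mp h4 with h5 | h5
    · exact absurd (sub_eq_zero.mp h5) hω1
    · exact Ψ.map_eq_zero_iff.mp h5

end Transport

end Cfsg.Agent.Helper30
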