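import Cfsg.Agent.Helper30.BGMinus2

set_option autoImplicit false

/-!
# Existence of a fixed-point-free isometry of odd prime order of the minus-type form (helper30)
-/

namespace Cfsg.Agent.Helper30

open Matrix Cfsg Cfsg.Agent.Helper42 Cfsg.Agent.Helper42.SpModels

section Exists

variable {F : Type*} [Field F] [Fintype F] [CharP F 2]

omit [CharP F 2] in
/-- the number of singular vectors of a form with a hyperbolic basis -/
theorem bgMinus_plus_count {V : Type*} [AddCommGroup V] [Module F V] (Q : QuadraticForm F V)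
    (d : ℕ) (bs : Module.Basis (Fin d ⊕ Fin d) F V)
    (h1 : ∀ i, Q (bs (Sum.inl i)) = 0 ∧ Q (bs (Sum.inr i)) = 0)
    (h2 : ∀ i j, QuadraticMap.polar ⇑Q (bs (Sum.inl i)) (bs (Sum.inr j)) = if i = j then 1 else 0)
    (h3 : ∀ i j, QuadraticMap.polar ⇑Q (bs (Sum.inl i)) (bs (Sum.inl j)) = 0 ∧
      QuadraticMap.polar ⇑Q (bs (Sum.inr i)) (bs (Sum.inr j)) = 0) :
    Nat.card {v : V // Q v = 0} =
      Fintype.card F ^ d + (Fintype.card F ^ d - 1) * Fintype.card F ^ (d - 1) := by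
  classical
  have hΨ := bgMinus_plus_equiv Q d bs h1 h2 h3
  have e1 : {v : V // Q v = 0} ≃ {c : Fin d ⊕ Fin d → F // quadFormPlus d F c = 0} :=
    bs.equivFun.toEquiv.subtypeEquiv (fun v => by
      rw [← hΨ]
      simp)
  have e2 : {c : Fin d ⊕ Fin d → F // quadFormPlus d F c = 0} ≃
      {p : (Fin d → F) × (Fin d → F) // ∑ i, p.1 i * p.2 i = 0} :=
    (Equiv.sumArrowEquivProdArrow (Fin d) (Fin d) F).subtypeEquiv (fun v => by
      simp [Cfsg.quadFormPlus, Equiv.sumArrowEquivProdArrow])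
  rw [Nat.card_congr e1, Nat.card_congr e2, Helper5.card_dot_pairs, if_pos rfl, Fintype.card_fin]

/-- an isometry of odd prime order `r` dividing `q^d + 1` of the minus-type form in dimension
`2d` over a field of even order `q` with no nonzero fixed vector -/
theorem bgMinus_exists (d : ℕ) (hd : 1 ≤ d) (a b : F)
    (hab : ∀ z₁ z₂ : F, z₁ ^ 2 + a * z₁ * z₂ + b * z₂ ^ 2 = 0 → z₁ = 0 ∧ z₂ = 0)
    (r : ℕ) [Fact r.Prime] (hr2 : r ≠ 2) (hrd : r ∣ Fintype.card F ^ d + 1) :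
    ∃ g : GL ((Fin (d - 1) ⊕ Fin (d - 1)) ⊕ Fin 2) F,
      g ∈ isometryGroup F (quadFormMinus (d - 1) F a b) ∧ g ^ r = 1 ∧
      ∀ v : (Fin (d - 1) ⊕ Fin (d - 1)) ⊕ Fin 2 → F,
        (g : Matrix ((Fin (d - 1) ⊕ Fin (d - 1)) ⊕ Fin 2) ((Fin (d - 1) ⊕ Fin (d - 1)) ⊕ Fin 2) F)
          *ᵥ v = v → v = 0 := by
  classical
  have hne : NeZero (2 * d) := ⟨by omega⟩
  have hp2 : Fact (Nat.Prime 2) := ⟨Nat.prime_two⟩
  obtain ⟨σ, c, γ, hσ, hc, hc0, hγ, hord⟩ := exists_unit_data F 2 d hd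
  have hKfin : Finite (FiniteField.Extension F 2 (2 * d)) := Module.finite_of_finite F
  have hKft : Fintype (FiniteField.Extension F 2 (2 * d)) := Fintype.ofFinite _
  have hK2 : CharP (FiniteField.Extension F 2 (2 * d)) 2 :=
    charP_of_injective_algebraMap (algebraMap F (FiniteField.Extension F 2 (2 * d))).injective 2
  have hγ0 : γ ≠ 0 := by
    rintro rfl
    rw [zero_mul] at hγ
    exact zero_ne_one hγ
  have hγfin : IsOfFinOrder γ := by
    rw [isOfFinOrder_iff_pow_eq_one]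
    refine ⟨Fintype.card (FiniteField.Extension F 2 (2 * d)) - 1, ?_,
      FiniteField.pow_card_sub_one_eq_one γ hγ0⟩
    have := Fintype.one_lt_card (α := FiniteField.Extension F 2 (2 * d))
    omega
  have hmpos : 0 < orderOf γ := hγfin.orderOf_pos
  have hqm : (Fintype.card F ^ d + 1) ∣ orderOf γ := hord _ (pow_orderOf_eq_one γ)
  obtain ⟨k, hk⟩ := dvd_trans hrd hqm
  have hr1 := (Fact.out : r.Prime).one_lt
  have hk0 : 0 < k := by
    rcases Nat.eq_zero_or_pos k with h0 | h0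
    · rw [h0, mul_zero] at hk
      omega
    · exact h0
  obtain ⟨ω, hωdef⟩ : ∃ ω : FiniteField.Extension F 2 (2 * d), ω = γ ^ k := ⟨_, rfl⟩
  have hωr : ω ^ r = 1 := by
    have hkr : k * r = orderOf γ := by rw [hk, Nat.mul_comm]
    rw [hωdef, ← pow_mul, hkr]
    exact pow_orderOf_eq_one γ
  have hω1 : ω ≠ 1 := by
    intro h
    rw [hωdef] at h
    have h1 := Nat.le_of_dvd hk0 (orderOf_dvd_of_pow_eq_one h)
    nlinarith
  have hωσ : ω * σ ω = 1 := by
    rw [hωdef, map_pow, ← mul_pow, hγ, one_pow]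
  have hσω : σ ω ≠ ω := by
    intro h
    rw [h] at hωσ
    exact hω1 (bgPlus_sq_one ω hωσ)
  obtain ⟨Q', hnd, hpres⟩ := bgMinus_form_exists F (FiniteField.Extension F 2 (2 * d)) σ hσ ω hσω
  have hcnt := bgMinus_orbit_count r ω hωr hω1 (fun v => Q' v = 0) (QuadraticMap.map_zero Q')
    (fun v hv => by rw [hpres ω hωσ]; exact hv)
  have hfr : Module.finrank F (FiniteField.Extension F 2 (2 * d)) = 2 * d :=
    FiniteField.finrank_extension F 2 (2 * d)
  rcases Cfsg.Agent.S2616.result (m := d) hd hfr Q' hnd with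
    ⟨bs, h1, h2, h3⟩ | ⟨bs, ζ, hζ, h1, h2, h3, h4, hx, hxy, hy⟩
  · exfalso
    rw [bgMinus_plus_count Q' d bs h1 h2 h3] at hcnt
    exact bgMinus_arith (Fintype.card F) d r Fintype.card_pos hd Fact.out hr2 hrd hcnt
  · obtain ⟨Ψ, hΨ⟩ := bgMinus_minus_equiv Q' (d - 1) a b hab (by rw [hfr]; omega)
      (fun i => bs (Sum.inl (Sum.inl i))) (fun i => bs (Sum.inl (Sum.inr i)))
      (bs (Sum.inr 0)) (bs (Sum.inr 1)) ζ hζ h1 h2 h3 (fun i => h4 i 0) (fun i => h4 i 1)
      hx hxy hy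
    exact bgMinus_transport (quadFormMinus (d - 1) F a b) (⇑Q') Ψ hΨ ω r
      (Fact.out : r.Prime).pos hωr hω1 (hpres ω hωσ)

end Exists

end Cfsg.Agent.Helper30
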