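import Cfsg.Agent.Helper30.BGSinger
import Cfsg.Agent.Helper45.TSing
import Cfsg.Agent.Helper44.Herm
import Cfsg.Agent.Helper5.QuadCount

set_option autoImplicit false

/-!
# Elements of prime order of `Ω⁺_{2d}(q)`, `q` even, and non-singular points (helper30)
-/

namespace Cfsg.Agent.Helper30

open Matrix Cfsg

section Basic

variable {F : Type*} [Field F] {d : ℕ}

theorem bgPlus_elim (u w : Fin d → F) : quadFormPlus d F (Sum.elim u w) = u ⬝ᵥ w := by
  unfold quadFormPlus dotProduct
  simp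

omit [Field F] in
theorem bgPlus_exists_elim (v : Fin d ⊕ Fin d → F) : ∃ u w : Fin d → F, v = Sum.elim u w :=
  ⟨v ∘ Sum.inl, v ∘ Sum.inr, (Sum.elim_comp_inl_inr v).symm⟩

theorem bgPlus_smul (c : F) (v : Fin d ⊕ Fin d → F) :
    quadFormPlus d F (c • v) = c * c * quadFormPlus d F v := by
  have h := QuadraticMap.map_smul (Helper43.plusQF d F) c v
  rw [smul_eq_mul] at h
  exact h

theorem bgPlus_zero : quadFormPlus d F (0 : Fin d ⊕ Fin d → F) = 0 := by
  unfold quadFormPlus
  simp

theorem bgPlus_exists_one (hd : 1 ≤ d) : ∃ v : Fin d ⊕ Fin d → F, quadFormPlus d F v = 1 := by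
  classical
  refine ⟨Sum.elim (Pi.single ⟨0, hd⟩ 1) (Pi.single ⟨0, hd⟩ 1), ?_⟩
  rw [bgPlus_elim, single_dotProduct, one_mul, Pi.single_eq_same]

theorem bgPlus_sq_one [CharP F 2] (c : F) (h : c * c = 1) : c = 1 := by
  have h1 : (c + 1) ^ 2 = 0 := by
    rw [CharTwo.add_sq, one_pow, pow_two, h, CharTwo.add_self_eq_zero]
  have h2 : c + 1 = 0 := by
    rcases pow_eq_zero_iff (two_ne_zero) |>.mp h1 with h3
    exact h3
  have h3 : c = -1 := eq_neg_of_add_eq_zero_left h2
  rw [h3, CharTwo.neg_eq]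

/-- a scalar isometry is trivial (characteristic two) -/
theorem bgPlus_scalar [CharP F 2] (hd : 1 ≤ d) (g : GL (Fin d ⊕ Fin d) F)
    (hg : g ∈ isometryGroup F (quadFormPlus d F)) (z : F)
    (hz : (g : Matrix (Fin d ⊕ Fin d) (Fin d ⊕ Fin d) F) = z • 1) : z = 1 := by
  obtain ⟨v, hv⟩ := bgPlus_exists_one (F := F) hd
  have h1 := (Helper44.mem_isometryGroup_iff F (quadFormPlus d F) g).mp hg v
  rw [hz, Matrix.smul_mulVec, Matrix.one_mulVec, bgPlus_smul, hv, mul_one] at h1
  exact bgPlus_sq_one z h1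

/-- an isometry stabilising a non-singular point fixes its non-singular vectors -/
theorem bgPlus_fix_of_point [CharP F 2] (g : GL (Fin d ⊕ Fin d) F)
    (hg : g ∈ isometryGroup F (quadFormPlus d F)) (W : Submodule F (Fin d ⊕ Fin d → F))
    (hW : Module.finrank F ↥W = 1) (v : Fin d ⊕ Fin d → F) (hv : v ∈ W)
    (hQ : quadFormPlus d F v ≠ 0)
    (hinv : W.map (Matrix.toLin' (g : Matrix (Fin d ⊕ Fin d) (Fin d ⊕ Fin d) F)) ≤ W) :
    (g : Matrix (Fin d ⊕ Fin d) (Fin d ⊕ Fin d) F) *ᵥ v = v := by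
  have hv0 : v ≠ 0 := by
    rintro rfl
    exact hQ bgPlus_zero
  have hspan : Submodule.span F {v} = W := by
    apply Submodule.eq_of_le_of_finrank_eq
    · rw [Submodule.span_le]
      intro x hx
      rw [Set.mem_singleton_iff] at hx
      rw [hx]
      exact hv
    · rw [finrank_span_singleton hv0, hW]
  have h1 : (g : Matrix (Fin d ⊕ Fin d) (Fin d ⊕ Fin d) F) *ᵥ v ∈ W := by
    apply hinv
    exact ⟨v, hv, Matrix.toLin'_apply _ _⟩
  rw [← hspan, Submodule.mem_span_singleton] at h1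
  obtain ⟨c, hc⟩ := h1
  have h2 := (Helper44.mem_isometryGroup_iff F (quadFormPlus d F) g).mp hg v
  rw [← hc, bgPlus_smul] at h2
  have h3 : c * c = 1 := by
    have h4 : (c * c - 1) * quadFormPlus d F v = 0 := by rw [sub_mul, h2, one_mul, sub_self]
    rcases mul_eq_zero.mp h4 with h5 | h5
    · exact sub_eq_zero.mp h5
    · exact absurd h5 hQ
  rw [← hc, bgPlus_sq_one c h3, one_smul]

/-- a fixed non-singular vector spans a stabilised non-singular point -/
theorem bgPlus_point_of_fix (M : Matrix (Fin d ⊕ Fin d) (Fin d ⊕ Fin d) F)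
    (v : Fin d ⊕ Fin d → F) (hQ : quadFormPlus d F v ≠ 0) (hfix : M *ᵥ v = v) :
    ∃ W : Submodule F (Fin d ⊕ Fin d → F),
      (Module.finrank F ↥W = 1 ∧ ∃ v ∈ W, quadFormPlus d F v ≠ 0) ∧
        W.map (Matrix.toLin' M) ≤ W := by
  have hv0 : v ≠ 0 := by
    rintro rfl
    exact hQ bgPlus_zero
  refine ⟨Submodule.span F {v}, ⟨finrank_span_singleton hv0,
    v, Submodule.mem_span_singleton_self v, hQ⟩, ?_⟩
  rw [Submodule.map_span, Set.image_singleton, Matrix.toLin'_apply, hfix]

end Basic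

section Count

variable {F : Type*} [Field F] [Fintype F] [CharP F 2] {d : ℕ}

/-- the number of non-singular points of the hyperbolic form in characteristic two -/
theorem bgPlus_card_points :
    Nat.card {W : Submodule F (Fin d ⊕ Fin d → F) //
        Module.finrank F ↥W = 1 ∧ ∃ v ∈ W, quadFormPlus d F v ≠ 0} =
      (Fintype.card F ^ d - 1) * Fintype.card F ^ (d - 1) := by
  classical
  have e : {v : Fin d ⊕ Fin d → F // quadFormPlus d F v = 1} ≃
      {p : (Fin d → F) × (Fin d → F) // ∑ i, p.1 i * p.2 i = 1} :=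
    (Equiv.sumArrowEquivProdArrow (Fin d) (Fin d) F).subtypeEquiv (fun v => by
      simp [Cfsg.quadFormPlus, Equiv.sumArrowEquivProdArrow])
  have hcount : Nat.card {v : Fin d ⊕ Fin d → F // quadFormPlus d F v = 1} =
      (Fintype.card F ^ d - 1) * Fintype.card F ^ (d - 1) := by
    rw [Nat.card_congr e, Helper5.card_dot_pairs, if_neg one_ne_zero, zero_add, Fintype.card_fin]
  rw [← hcount]
  symm
  have hne : ∀ v : {v : Fin d ⊕ Fin d → F // quadFormPlus d F v = 1}, v.1 ≠ 0 := by
    intro v h0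
    have h1 := v.2
    rw [h0, bgPlus_zero] at h1
    exact zero_ne_one h1
  let f : {v : Fin d ⊕ Fin d → F // quadFormPlus d F v = 1} →
      {W : Submodule F (Fin d ⊕ Fin d → F) //
        Module.finrank F ↥W = 1 ∧ ∃ v ∈ W, quadFormPlus d F v ≠ 0} :=
    fun v => ⟨Submodule.span F {v.1}, finrank_span_singleton (hne v), v.1,
      Submodule.mem_span_singleton_self v.1, by rw [v.2]; exact one_ne_zero⟩
  apply Nat.card_congr (Equiv.ofBijective f ⟨?_, ?_⟩)
  · intro v v' hvv
    have h1 : Submodule.span F {v.1} = Submodule.span F {v'.1} := congrArg Subtype.val hvv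
    have h2 : v'.1 ∈ Submodule.span F {v.1} := by
      rw [h1]; exact Submodule.mem_span_singleton_self _
    obtain ⟨c, hc⟩ := Submodule.mem_span_singleton.mp h2
    have h3 := v'.2
    rw [← hc, bgPlus_smul, v.2, mul_one] at h3
    apply Subtype.ext
    rw [← hc, bgPlus_sq_one c h3, one_smul]
  · rintro ⟨W, hW, w, hwW, hw⟩
    obtain ⟨s, hs⟩ := FiniteField.isSquare_of_char_two (ringChar.eq F 2) (quadFormPlus d F w)
    have hs0 : s ≠ 0 := by
      rintro rfl
      rw [mul_zero] at hs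
      exact hw hs
    have hv1 : quadFormPlus d F (s⁻¹ • w) = 1 := by
      rw [bgPlus_smul, hs]
      field_simp
    refine ⟨⟨s⁻¹ • w, hv1⟩, ?_⟩
    apply Subtype.ext
    show Submodule.span F {s⁻¹ • w} = W
    have hv0 : s⁻¹ • w ≠ 0 := by
      intro h0
      rw [h0, bgPlus_zero] at hv1
      exact zero_ne_one hv1
    apply Submodule.eq_of_le_of_finrank_eq
    · rw [Submodule.span_le]
      intro x hx
      rw [Set.mem_singleton_iff] at hx
      rw [hx]
      exact W.smul_mem _ hwW
    · rw [finrank_span_singleton hv0, hW]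

end Count

end Cfsg.Agent.Helper30
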