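import Cfsg.Agent.Helper30.BGPlus

set_option autoImplicit false

/-!
# Elements of prime order of `Ω⁺_{2d}(q)`, `q` even, and non-singular points: constructions
(helper30)
-/

namespace Cfsg.Agent.Helper30

open Matrix Cfsg

section Diag

variable {F : Type*} [Field F] {d : ℕ}

/-- the isometry `diag(A, A⁻ᵀ)` of the hyperbolic form -/
def bgPlusDiag (A B : Matrix (Fin d) (Fin d) F) (hAB : A * B = 1) : GL (Fin d ⊕ Fin d) F where
  val := fromBlocks A 0 0 Bᵀ
  inv := fromBlocks B 0 0 Aᵀ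
  val_inv := by
    rw [fromBlocks_multiply, ← transpose_mul, hAB]
    simp [fromBlocks_one]
  inv_val := by
    rw [fromBlocks_multiply, ← transpose_mul, mul_eq_one_comm.mp hAB]
    simp [fromBlocks_one]

theorem bgPlusDiag_mulVec (A B : Matrix (Fin d) (Fin d) F) (hAB : A * B = 1)
    (u w : Fin d → F) :
    ((bgPlusDiag A B hAB : GL (Fin d ⊕ Fin d) F) : Matrix (Fin d ⊕ Fin d) (Fin d ⊕ Fin d) F) *ᵥ
      Sum.elim u w = Sum.elim (A *ᵥ u) (Bᵀ *ᵥ w) := by
  show fromBlocks A 0 0 Bᵀ *ᵥ Sum.elim u w = _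
  rw [fromBlocks_mulVec]
  simp

theorem bgPlusDiag_mem (A B : Matrix (Fin d) (Fin d) F) (hAB : A * B = 1) :
    bgPlusDiag A B hAB ∈ isometryGroup F (quadFormPlus d F) := by
  rw [Helper44.mem_isometryGroup_iff]
  intro v
  obtain ⟨u, w, rfl⟩ := bgPlus_exists_elim v
  rw [bgPlusDiag_mulVec, bgPlus_elim, bgPlus_elim, dotProduct_mulVec, vecMul_transpose,
    mulVec_mulVec, mul_eq_one_comm.mp hAB, one_mulVec]

theorem bgPlusDiag_pow (A B : Matrix (Fin d) (Fin d) F) (hAB : A * B = 1) (r : ℕ)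
    (hA : A ^ r = 1) : bgPlusDiag A B hAB ^ r = 1 := by
  have hB : B ^ r = 1 := by
    have h1 : (A * B) ^ r = A ^ r * B ^ r :=
      (Commute.mul_pow (by
        show A * B = B * A
        rw [hAB, mul_eq_one_comm.mp hAB]) r)
    rw [hAB, one_pow, hA, one_mul] at h1
    exact h1.symm
  apply Units.ext
  rw [Units.val_pow_eq_pow_val, Units.val_one]
  show (fromBlocks A 0 0 Bᵀ) ^ r = 1
  have h2 : ∀ k : ℕ, (fromBlocks A 0 0 Bᵀ) ^ k = fromBlocks (A ^ k) 0 0 ((B ^ k)ᵀ) := by
    intro k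
    induction k with
    | zero => simp [fromBlocks_one]
    | succ k ih =>
      rw [pow_succ, ih, fromBlocks_multiply, pow_succ, pow_succ', transpose_mul]
      simp
  rw [h2, hA, hB, transpose_one, fromBlocks_one]

/-- `diag(A, A⁻ᵀ)` has no non-zero fixed vector when `A - 1` is invertible -/
theorem bgPlusDiag_fix (A B : Matrix (Fin d) (Fin d) F) (hAB : A * B = 1)
    (hdet : (A - 1).det ≠ 0) (v : Fin d ⊕ Fin d → F)
    (hv : ((bgPlusDiag A B hAB : GL (Fin d ⊕ Fin d) F) :
      Matrix (Fin d ⊕ Fin d) (Fin d ⊕ Fin d) F) *ᵥ v = v) : v = 0 := by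
  obtain ⟨u, w, rfl⟩ := bgPlus_exists_elim v
  rw [bgPlusDiag_mulVec] at hv
  have hu : A *ᵥ u = u := by
    have := congrArg (fun f => f ∘ Sum.inl) hv
    simpa using this
  have hw : Bᵀ *ᵥ w = w := by
    have := congrArg (fun f => f ∘ Sum.inr) hv
    simpa using this
  have hu0 : u = 0 := by
    apply Matrix.eq_zero_of_mulVec_eq_zero hdet
    rw [Matrix.sub_mulVec, hu, Matrix.one_mulVec, sub_self]
  have hw0 : w = 0 := by
    have hdet' : (Aᵀ - 1).det ≠ 0 := by
      have : Aᵀ - 1 = (A - 1)ᵀ := by rw [transpose_sub, transpose_one]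
      rw [this, det_transpose]
      exact hdet
    apply Matrix.eq_zero_of_mulVec_eq_zero hdet'
    have h1 : Aᵀ *ᵥ (Bᵀ *ᵥ w) = w := by
      rw [mulVec_mulVec, ← transpose_mul, mul_eq_one_comm.mp hAB, transpose_one,
        one_mulVec]
    rw [hw] at h1
    rw [Matrix.sub_mulVec, h1, Matrix.one_mulVec, sub_self]
  rw [hu0, hw0]
  funext i
  rcases i with i | i <;> rfl

end Diag

section Invol

variable {F : Type*} [Field F] [CharP F 2] {k : ℕ}

/-- the fixed-point-free involution of `Fin (k + k)` -/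
def bgSwap (k : ℕ) (i : Fin (k + k)) : Fin (k + k) :=
  finSumFinEquiv (Sum.swap (finSumFinEquiv.symm i))

theorem bgSwap_swap (i : Fin (k + k)) : bgSwap k (bgSwap k i) = i := by
  unfold bgSwap
  simp

theorem bgSwap_ne (i : Fin (k + k)) : bgSwap k i ≠ i := by
  unfold bgSwap
  intro h
  have h1 : Sum.swap (finSumFinEquiv.symm i) = finSumFinEquiv.symm i := by
    have h2 := congrArg finSumFinEquiv.symm h
    rw [Equiv.symm_apply_apply] at h2
    exact h2
  rcases hx : finSumFinEquiv.symm i with a | a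
  · rw [hx] at h1
    exact absurd h1 (by simp)
  · rw [hx] at h1
    exact absurd h1 (by simp)

/-- the alternating matrix -/
def bgAlt (F : Type*) [Field F] (k : ℕ) : Matrix (Fin (k + k)) (Fin (k + k)) F :=
  Matrix.of fun i j => if j = bgSwap k i then 1 else 0

omit [CharP F 2] in
theorem bgAlt_mulVec (w : Fin (k + k) → F) (i : Fin (k + k)) :
    (bgAlt F k *ᵥ w) i = w (bgSwap k i) := by
  unfold bgAlt Matrix.mulVec dotProduct
  simp

theorem bgAlt_dot (w : Fin (k + k) → F) : (bgAlt F k *ᵥ w) ⬝ᵥ w = 0 := by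
  unfold dotProduct
  apply Finset.sum_involution (fun i _ => bgSwap k i)
  · intro i _
    rw [bgAlt_mulVec, bgAlt_mulVec, bgSwap_swap, mul_comm (w i), CharTwo.add_self_eq_zero]
  · intro i _ _
    exact bgSwap_ne i
  · intro i _
    exact Finset.mem_univ _
  · intro i _
    exact bgSwap_swap i

/-- the involution `[[1, J], [0, 1]]` -/
def bgInv (F : Type*) [Field F] [CharP F 2] (k : ℕ) : GL (Fin (k + k) ⊕ Fin (k + k)) F where
  val := fromBlocks 1 (bgAlt F k) 0 1
  inv := fromBlocks 1 (bgAlt F k) 0 1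
  val_inv := by
    have h0 : bgAlt F k + bgAlt F k = 0 := by
      ext i j
      simp [CharTwo.add_self_eq_zero]
    rw [fromBlocks_multiply]
    simp only [one_mul, mul_one, mul_zero, zero_mul, add_zero, zero_add]
    rw [h0, fromBlocks_one]
  inv_val := by
    have h0 : bgAlt F k + bgAlt F k = 0 := by
      ext i j
      simp [CharTwo.add_self_eq_zero]
    rw [fromBlocks_multiply]
    simp only [one_mul, mul_one, mul_zero, zero_mul, add_zero, zero_add]
    rw [h0, fromBlocks_one]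

theorem bgInv_mulVec (u w : Fin (k + k) → F) :
    ((bgInv F k : GL (Fin (k + k) ⊕ Fin (k + k)) F) :
      Matrix (Fin (k + k) ⊕ Fin (k + k)) (Fin (k + k) ⊕ Fin (k + k)) F) *ᵥ Sum.elim u w =
      Sum.elim (u + bgAlt F k *ᵥ w) w := by
  show fromBlocks 1 (bgAlt F k) 0 1 *ᵥ Sum.elim u w = _
  rw [fromBlocks_mulVec]
  simp

theorem bgInv_mem : bgInv F k ∈ isometryGroup F (quadFormPlus (k + k) F) := by
  rw [Helper44.mem_isometryGroup_iff]
  intro v
  obtain ⟨u, w, rfl⟩ := bgPlus_exists_elim v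
  rw [bgInv_mulVec, bgPlus_elim, bgPlus_elim, add_dotProduct, bgAlt_dot, add_zero]

theorem bgInv_sq : bgInv F k * bgInv F k = 1 := by
  apply Units.ext
  exact (bgInv F k).val_inv

/-- the fixed vectors of the involution are singular -/
theorem bgInv_fix (v : Fin (k + k) ⊕ Fin (k + k) → F)
    (hv : ((bgInv F k : GL (Fin (k + k) ⊕ Fin (k + k)) F) :
      Matrix (Fin (k + k) ⊕ Fin (k + k)) (Fin (k + k) ⊕ Fin (k + k)) F) *ᵥ v = v) :
    quadFormPlus (k + k) F v = 0 := by
  obtain ⟨u, w, rfl⟩ := bgPlus_exists_elim v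
  rw [bgInv_mulVec] at hv
  have hu : u + bgAlt F k *ᵥ w = u := by
    have := congrArg (fun f => f ∘ Sum.inl) hv
    simpa using this
  have hJ : bgAlt F k *ᵥ w = 0 := by
    have h1 : u + bgAlt F k *ᵥ w = u + 0 := by rw [hu, add_zero]
    exact add_left_cancel h1
  have hw : w = 0 := by
    funext i
    have h1 := congrFun hJ (bgSwap k i)
    rw [bgAlt_mulVec, bgSwap_swap] at h1
    exact h1
  rw [bgPlus_elim, hw, dotProduct_zero]

end Invol

end Cfsg.Agent.Helper30
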