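import Cfsg.Agent.Helper94.SpOrth

set_option autoImplicit false

/-!
# The Artin–Schreier character and sign sums of quadratic forms in characteristic two (helper30)

For a quadratic form `Q` polarising to the standard alternating form over a finite field of
characteristic two, `bgsoS Q = ∑ v, χ (Q v)` where `χ t = 1` if `t = φ² + φ` is soluble and `-1`
otherwise.  We show `S² = q^{2m}`, `S (Q + f(a, ·)²) = χ (Q a) S Q`, and `S = q^m` when `Q` vanishes
on an `m`-dimensional subspace.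
-/

namespace Cfsg.Agent.Helper30

open Cfsg Cfsg.Geo Matrix Cfsg.Agent.Helper94

section Chi

variable {F : Type*} [Field F]

/-- the Artin–Schreier character -/
noncomputable def bgsoChi (t : F) : ℤ := by
  classical
  exact if ∃ φ : F, t = φ ^ 2 + φ then 1 else -1

theorem bgsoChi_pos (t : F) (h : ∃ φ : F, t = φ ^ 2 + φ) : bgsoChi t = 1 := by
  unfold bgsoChi
  rw [if_pos h]

theorem bgsoChi_neg (t : F) (h : ¬ ∃ φ : F, t = φ ^ 2 + φ) : bgsoChi t = -1 := by
  unfold bgsoChi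
  rw [if_neg h]

theorem bgsoChi_cases (t : F) : bgsoChi t = 1 ∨ bgsoChi t = -1 := by
  by_cases h : ∃ φ : F, t = φ ^ 2 + φ
  · exact Or.inl (bgsoChi_pos t h)
  · exact Or.inr (bgsoChi_neg t h)

theorem bgsoChi_eq_one_iff (t : F) : bgsoChi t = 1 ↔ ∃ φ : F, t = φ ^ 2 + φ := by
  constructor
  · intro h
    by_contra hc
    rw [bgsoChi_neg t hc] at h
    omega
  · exact bgsoChi_pos t

theorem bgsoChi_zero : bgsoChi (0 : F) = 1 :=
  bgsoChi_pos 0 ⟨0, by ring⟩

end Chi

section ChiFin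

variable {F : Type*} [Field F] [Fintype F] [CharP F 2]

/-- the Artin–Schreier map -/
def bgsoAS (F : Type*) [Field F] [CharP F 2] : F →+ F where
  toFun := fun t => t ^ 2 + t
  map_zero' := by simp
  map_add' := by
    intro x y
    rw [CharTwo.add_sq]
    ring

omit [Fintype F] in
theorem bgsoAS_apply (t : F) : bgsoAS F t = t ^ 2 + t := rfl

theorem bgsoAS_index : (bgsoAS F).range.index = 2 := by
  classical
  have hker : Nat.card (bgsoAS F).ker = 2 := by
    rw [Nat.card_eq_two_iff]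
    refine ⟨⟨0, (bgsoAS F).ker.zero_mem⟩, ⟨1, ?_⟩, ?_, ?_⟩
    · rw [AddMonoidHom.mem_ker, bgsoAS_apply, one_pow]
      exact CharTwo.add_self_eq_zero _
    · intro h
      exact zero_ne_one (congrArg Subtype.val h)
    · rw [Set.eq_univ_iff_forall]
      rintro ⟨t, ht⟩
      rw [AddMonoidHom.mem_ker, bgsoAS_apply] at ht
      have h1 : t * (t + 1) = 0 := by rw [← ht]; ring
      rcases mul_eq_zero.mp h1 with h2 | h2
      · left
        exact Subtype.ext h2
      · right
        apply Subtype.ext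
        show t = 1
        have h3 : t = -1 := eq_neg_of_add_eq_zero_left h2
        rw [h3, CharTwo.neg_eq]
  have h1 := AddSubgroup.index_ker (bgsoAS F)
  have h2 := AddSubgroup.card_mul_index (bgsoAS F).ker
  have h3 := AddSubgroup.card_mul_index (bgsoAS F).range
  rw [hker, h1] at h2
  have h4 : Nat.card (bgsoAS F).range * (bgsoAS F).range.index =
      2 * Nat.card (bgsoAS F).range := by rw [h3, h2]
  have h5 : 0 < Nat.card (bgsoAS F).range := Nat.card_pos
  nlinarith [h4]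

omit [Fintype F] in
theorem bgsoAS_mem (t : F) : t ∈ (bgsoAS F).range ↔ ∃ φ : F, t = φ ^ 2 + φ := by
  rw [AddMonoidHom.mem_range]
  constructor
  · rintro ⟨φ, hφ⟩
    exact ⟨φ, hφ.symm⟩
  · rintro ⟨φ, hφ⟩
    exact ⟨φ, hφ.symm⟩

theorem bgsoChi_add (s t : F) : bgsoChi (s + t) = bgsoChi s * bgsoChi t := by
  have key := AddSubgroup.add_mem_iff_of_index_two (bgsoAS_index (F := F)) (a := s) (b := t)
  rw [bgsoAS_mem, bgsoAS_mem, bgsoAS_mem] at key
  by_cases hs : ∃ φ : F, s = φ ^ 2 + φ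
  · by_cases ht : ∃ φ : F, t = φ ^ 2 + φ
    · rw [bgsoChi_pos s hs, bgsoChi_pos t ht, bgsoChi_pos _ (key.mpr ⟨fun _ => ht, fun _ => hs⟩)]
      rfl
    · rw [bgsoChi_pos s hs, bgsoChi_neg t ht, bgsoChi_neg _ (fun h => ht ((key.mp h).mp hs))]
      rfl
  · by_cases ht : ∃ φ : F, t = φ ^ 2 + φ
    · rw [bgsoChi_neg s hs, bgsoChi_pos t ht, bgsoChi_neg _ (fun h => hs ((key.mp h).mpr ht))]
      rfl
    · rw [bgsoChi_neg s hs, bgsoChi_neg t ht,
        bgsoChi_pos _ (key.mpr ⟨fun h => absurd h hs, fun h => absurd h ht⟩)]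
      rfl

theorem bgsoChi_sq (t : F) : bgsoChi (t ^ 2) = bgsoChi t := by
  have h1 : bgsoChi (t ^ 2 + t) = 1 := bgsoChi_pos _ ⟨t, rfl⟩
  rw [bgsoChi_add] at h1
  rcases bgsoChi_cases t with h | h
  · rw [h] at h1 ⊢
    omega
  · rw [h] at h1 ⊢
    omega

theorem bgsoChi_exists_neg : ∃ t : F, bgsoChi t = -1 := by
  have h1 : (bgsoAS F).range ≠ ⊤ := by
    intro h
    have h2 := AddSubgroup.index_eq_one.mpr h
    rw [bgsoAS_index] at h2
    omega
  obtain ⟨t, ht⟩ : ∃ t : F, t ∉ (bgsoAS F).range := by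
    by_contra hc
    push Not at hc
    exact h1 (eq_top_iff.mpr (fun t _ => hc t))
  rw [bgsoAS_mem] at ht
  exact ⟨t, bgsoChi_neg t ht⟩

/-- the character sum over a non-zero linear functional vanishes -/
theorem bgsoChi_sum_zero {A : Type*} [AddCommGroup A] [Module F A] [Fintype A] (L : A →ₗ[F] F)
    (a₀ : A) (h : L a₀ ≠ 0) : ∑ a, bgsoChi (L a) = 0 := by
  obtain ⟨t₁, ht₁⟩ := bgsoChi_exists_neg (F := F)
  obtain ⟨a₁, ha₁⟩ : ∃ a₁ : A, L a₁ = t₁ :=
    ⟨(t₁ / L a₀) • a₀, by rw [map_smul, smul_eq_mul, div_mul_cancel₀ _ h]⟩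
  have h1 : ∑ a, bgsoChi (L a) = ∑ a, bgsoChi (L (a + a₁)) :=
    (Equiv.sum_comp (Equiv.addRight a₁) (fun a => bgsoChi (L a))).symm
  have h2 : ∑ a, bgsoChi (L (a + a₁)) = - ∑ a, bgsoChi (L a) := by
    rw [← Finset.sum_neg_distrib]
    apply Finset.sum_congr rfl
    intro a _
    rw [map_add, bgsoChi_add, ha₁, ht₁]
    ring
  omega

end ChiFin

section SignSum

variable {F : Type*} [Field F] [Fintype F] [CharP F 2] {m : ℕ}

/-- the sign sum of a function on the standard space -/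
noncomputable def bgsoS (Q : (Fin m ⊕ Fin m → F) → F) : ℤ := ∑ v, bgsoChi (Q v)

omit [Fintype F] [CharP F 2] in
/-- the shifted form `Q + f(a, ·)²` again polarises to the standard alternating form -/
theorem bgso_qs_shift {Q : (Fin m ⊕ Fin m → F) → F} (hQ : QS Q) (a : Fin m ⊕ Fin m → F) :
    QS (fun v => Q v + (sympForm m F a v) ^ 2) := by
  refine ⟨hQ.two, fun c v => ?_, fun u v => ?_, hQ.sq⟩
  · show Q (c • v) + (sympForm m F a (c • v)) ^ 2 = c ^ 2 * (Q v + (sympForm m F a v) ^ 2)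
    rw [hQ.smul, sf_smul_right]
    ring
  · show Q (u + v) + (sympForm m F a (u + v)) ^ 2 =
      Q u + (sympForm m F a u) ^ 2 + (Q v + (sympForm m F a v) ^ 2) + sympForm m F u v
    rw [hQ.add, sf_add_right]
    linear_combination (sympForm m F a u * sympForm m F a v) * hQ.two

theorem bgsoS_sq {Q : (Fin m ⊕ Fin m → F) → F} (hQ : QS Q) :
    bgsoS Q * bgsoS Q = (Fintype.card (Fin m ⊕ Fin m → F) : ℤ) := by
  classical
  unfold bgsoS
  rw [Finset.sum_mul_sum]
  have h1 : ∀ a : Fin m ⊕ Fin m → F, ∑ b, bgsoChi (Q a) * bgsoChi (Q b) =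
      ∑ c, bgsoChi (Q c) * bgsoChi (sympForm m F a c) := by
    intro a
    rw [← Equiv.sum_comp (Equiv.addLeft a) (fun b => bgsoChi (Q a) * bgsoChi (Q b))]
    apply Finset.sum_congr rfl
    intro c _
    show bgsoChi (Q a) * bgsoChi (Q (a + c)) = _
    rw [← bgsoChi_add, ← bgsoChi_add, hQ.add]
    congr 1
    linear_combination (Q a) * hQ.two
  rw [Finset.sum_congr rfl (fun a _ => h1 a), Finset.sum_comm]
  have h2 : ∀ c : Fin m ⊕ Fin m → F, ∑ a, bgsoChi (Q c) * bgsoChi (sympForm m F a c) =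
      if c = 0 then (Fintype.card (Fin m ⊕ Fin m → F) : ℤ) else 0 := by
    intro c
    by_cases hc : c = 0
    · rw [if_pos hc, hc, qs_zero hQ, bgsoChi_zero]
      have h3 : ∀ a : Fin m ⊕ Fin m → F, (1 : ℤ) * bgsoChi (sympForm m F a 0) = 1 := by
        intro a
        rw [sf_zero_right, bgsoChi_zero, mul_one]
      rw [Finset.sum_congr rfl (fun a _ => h3 a), Finset.sum_const, Finset.card_univ,
        nsmul_eq_mul, mul_one]
    · rw [if_neg hc, ← Finset.mul_sum]
      obtain ⟨y, hy⟩ := sf_exists_ne c hc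
      have h3 := bgsoChi_sum_zero ((Helper13.sympB m F).flip c) y (by
        show sympForm m F y c ≠ 0
        rw [sf_swap]
        exact neg_ne_zero.mpr hy)
      have h4 : ∀ a : Fin m ⊕ Fin m → F, (Helper13.sympB m F).flip c a = sympForm m F a c :=
        fun a => rfl
      rw [Finset.sum_congr rfl (fun a _ => congrArg bgsoChi (h4 a))] at h3
      rw [h3, mul_zero]
  rw [Finset.sum_congr rfl (fun c _ => h2 c), Finset.sum_ite_eq' Finset.univ 0]
  rw [if_pos (Finset.mem_univ _)]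

theorem bgsoS_shift {Q : (Fin m ⊕ Fin m → F) → F} (hQ : QS Q) (a : Fin m ⊕ Fin m → F) :
    bgsoS (fun v => Q v + (sympForm m F a v) ^ 2) = bgsoChi (Q a) * bgsoS Q := by
  unfold bgsoS
  rw [Finset.mul_sum, ← Equiv.sum_comp (Equiv.addRight a) (fun v => bgsoChi (Q a) * bgsoChi (Q v))]
  apply Finset.sum_congr rfl
  intro v _
  show bgsoChi (Q v + (sympForm m F a v) ^ 2) = bgsoChi (Q a) * bgsoChi (Q (v + a))
  rw [bgsoChi_add, bgsoChi_sq, ← bgsoChi_add, ← bgsoChi_add, hQ.add, sf_swap v a]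
  congr 1
  linear_combination (-(Q a) + sympForm m F a v) * hQ.two

/-- the sign sum of a form vanishing on a subspace of half the dimension -/
theorem bgsoS_of_ts {Q : (Fin m ⊕ Fin m → F) → F} (hQ : QS Q)
    (U : Submodule F (Fin m ⊕ Fin m → F)) (hU : ∀ u ∈ U, Q u = 0)
    (hfr : Module.finrank F U = m) : bgsoS Q = (Fintype.card F : ℤ) ^ m := by
  classical
  have hti : U ≤ perp U := by
    intro u hu
    rw [mem_perp]
    intro w hw
    have h1 := hQ.add w u
    rw [hU _ (U.add_mem hw hu), hU w hw, hU u hu] at h1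
    linear_combination -h1
  have hperp : perp U = U := by
    symm
    apply Submodule.eq_of_le_of_finrank_eq hti
    rw [finrank_perp, hfr]
    omega
  have hmem : ∀ v, v ∈ U ↔ ∀ w ∈ U, sympForm m F w v = 0 := by
    intro v
    rw [← mem_perp, hperp]
  have hT : ∀ v : Fin m ⊕ Fin m → F,
      ∑ u : ↥U, bgsoChi (sympForm m F v (u : Fin m ⊕ Fin m → F)) =
      if v ∈ U then (Fintype.card ↥U : ℤ) else 0 := by
    intro v
    by_cases hv : v ∈ U
    · rw [if_pos hv]
      have h3 : ∀ u : ↥U, bgsoChi (sympForm m F v (u : Fin m ⊕ Fin m → F)) = 1 := by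
        intro u
        rw [sf_swap, (mem_perp U v).mp (hti hv) u u.2, neg_zero, bgsoChi_zero]
      rw [Finset.sum_congr rfl (fun u _ => h3 u), Finset.sum_const, Finset.card_univ,
        nsmul_eq_mul, mul_one]
    · rw [if_neg hv]
      have hv' : ¬ ∀ w ∈ U, sympForm m F w v = 0 := fun h => hv ((hmem v).mpr h)
      push Not at hv'
      obtain ⟨w, hw, hwv⟩ := hv'
      exact bgsoChi_sum_zero (((Helper13.sympB m F) v).domRestrict U) ⟨w, hw⟩ (by
        show sympForm m F v w ≠ 0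
        rw [sf_swap]
        exact neg_ne_zero.mpr hwv)
  have hmain : bgsoS Q * (Fintype.card ↥U : ℤ) =
      (Fintype.card ↥U : ℤ) * (Fintype.card ↥U : ℤ) := by
    have h1 : bgsoS Q * (Fintype.card ↥U : ℤ) =
        ∑ u : ↥U, ∑ v, bgsoChi (Q (v + (u : Fin m ⊕ Fin m → F))) := by
      have h2 : ∀ u : ↥U, ∑ v, bgsoChi (Q (v + (u : Fin m ⊕ Fin m → F))) = bgsoS Q := by
        intro u
        exact Equiv.sum_comp (Equiv.addRight (u : Fin m ⊕ Fin m → F)) (fun v => bgsoChi (Q v))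
      rw [Finset.sum_congr rfl (fun u _ => h2 u), Finset.sum_const, Finset.card_univ,
        nsmul_eq_mul, mul_comm]
    rw [h1, Finset.sum_comm]
    have h4 : ∀ v : Fin m ⊕ Fin m → F,
        ∑ u : ↥U, bgsoChi (Q (v + (u : Fin m ⊕ Fin m → F))) =
        if v ∈ U then (Fintype.card ↥U : ℤ) else 0 := by
      intro v
      have h5 : ∀ u : ↥U, bgsoChi (Q (v + (u : Fin m ⊕ Fin m → F))) =
          bgsoChi (Q v) * bgsoChi (sympForm m F v (u : Fin m ⊕ Fin m → F)) := by
        intro u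
        rw [hQ.add, hU u u.2, add_zero, bgsoChi_add]
      rw [Finset.sum_congr rfl (fun u _ => h5 u), ← Finset.mul_sum, hT v]
      by_cases hv : v ∈ U
      · rw [if_pos hv, hU v hv, bgsoChi_zero, one_mul]
      · rw [if_neg hv, mul_zero]
    rw [Finset.sum_congr rfl (fun v _ => h4 v), Finset.sum_ite, Finset.sum_const_zero, add_zero,
      Finset.sum_const, nsmul_eq_mul]
    congr 2
    rw [Fintype.card_subtype]
  have hcard : (Fintype.card ↥U : ℤ) = (Fintype.card F : ℤ) ^ m := by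
    have h1 := Module.card_eq_pow_finrank (K := F) (V := ↥U)
    rw [h1, hfr]
    push_cast
    rfl
  have hpos : (Fintype.card ↥U : ℤ) ≠ 0 := by
    rw [hcard]
    exact pow_ne_zero _ (by exact_mod_cast Fintype.card_ne_zero)
  rw [← hcard]
  exact mul_right_cancel₀ hpos hmain

omit [Fintype F] [CharP F 2] in
/-- the sign sum counts the vectors whose value is of the form `φ² + φ` -/
theorem bgsoS_count [Fintype F] (Q : (Fin m ⊕ Fin m → F) → F) :
    bgsoS Q = 2 * (Nat.card {a : Fin m ⊕ Fin m → F // ∃ φ : F, Q a = φ ^ 2 + φ} : ℤ) -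
      (Fintype.card (Fin m ⊕ Fin m → F) : ℤ) := by
  classical
  unfold bgsoS
  have h1 : ∀ v : Fin m ⊕ Fin m → F,
      bgsoChi (Q v) = if (∃ φ : F, Q v = φ ^ 2 + φ) then 1 else -1 := by
    intro v
    by_cases h : ∃ φ : F, Q v = φ ^ 2 + φ
    · rw [if_pos h, bgsoChi_pos _ h]
    · rw [if_neg h, bgsoChi_neg _ h]
  rw [Finset.sum_congr rfl (fun v _ => h1 v), Finset.sum_ite, Finset.sum_const, Finset.sum_const,
    Nat.card_eq_fintype_card, Fintype.card_subtype]
  have h2 := Finset.card_filter_add_card_filter_not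
    (s := (Finset.univ : Finset (Fin m ⊕ Fin m → F))) (fun v => ∃ φ : F, Q v = φ ^ 2 + φ)
  rw [Finset.card_univ] at h2
  rw [← h2]
  push_cast
  simp only [nsmul_eq_mul, mul_one, mul_neg]
  ring

end SignSum

end Cfsg.Agent.Helper30
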