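import Cfsg.Agent.Helper30.BGSO1

set_option autoImplicit false

/-!
# The cosets of `O^±_{2m}(q)` in `Sp_{2m}(q)`, `q` even (helper30)

The cosets of the isometry group of `Q` in the symplectic group correspond to the vectors `a` with
`Q a = φ² + φ` soluble (the forms `Q + f(a, ·)²`); the index is computed by the sign sum, and an
element of prime order `r` dividing the index without non-zero fixed vectors fixes no coset.
-/

namespace Cfsg.Agent.Helper30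

open Cfsg Cfsg.Geo Matrix Cfsg.Agent.Helper94

section Index

variable {F : Type*} [Field F] {m : ℕ} {Q : (Fin m ⊕ Fin m → F) → F}

theorem bgso_exists_pair (hm : 0 < m) : ∃ u w : Fin m ⊕ Fin m → F, sympForm m F u w ≠ 0 := by
  have hne : (Pi.single (Sum.inl ⟨0, hm⟩) 1 : Fin m ⊕ Fin m → F) ≠ 0 := by
    intro h
    have h1 := congrFun h (Sum.inl ⟨0, hm⟩)
    rw [Pi.single_eq_same] at h1
    exact one_ne_zero h1
  obtain ⟨y, hy⟩ := sf_exists_ne _ hne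
  exact ⟨_, y, hy⟩

/-- a similarity of `Q` in the symplectic group is an isometry -/
theorem bgso_isom (hQ : QS Q) (hm : 0 < m) {g : GL (Fin m ⊕ Fin m) F}
    (hg : g ∈ quadSimilarityGroup Q) (hgs : g ∈ spGL m F) (v : Fin m ⊕ Fin m → F) :
    Q (g.1 *ᵥ v) = Q v := by
  obtain ⟨c, hc⟩ := hg
  obtain ⟨u, w, huw⟩ := bgso_exists_pair (F := F) hm
  have h1 := hQ.add (g.1 *ᵥ u) (g.1 *ᵥ w)
  rw [← Matrix.mulVec_add, hc, hc, hc, hQ.add, sp_apply hgs] at h1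
  have h2 : ((c : F) - 1) * sympForm m F u w = 0 := by linear_combination h1
  have h3 : (c : F) = 1 := by
    rcases mul_eq_zero.mp h2 with h | h
    · exact sub_eq_zero.mp h
    · exact absurd h huw
  rw [hc, h3, one_mul]

theorem bgso_unique (hQ : QS Q) (a b : Fin m ⊕ Fin m → F)
    (h : ∀ v, (sympForm m F a v) ^ 2 = (sympForm m F b v) ^ 2) : a = b := by
  have h1 : ∀ v, sympForm m F (a - b) v = 0 := by
    intro v
    have h2 : (sympForm m F (a - b) v) ^ 2 = 0 := by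
      rw [sf_sub_left]
      linear_combination (h v) +
        (-(sympForm m F a v * sympForm m F b v) + (sympForm m F b v) ^ 2) * hQ.two
    exact (pow_eq_zero_iff two_ne_zero).mp h2
  exact sub_eq_zero.mp (Helper13.sympForm_sep _ h1)

/-- two elements of the symplectic group lie in the same coset of the isometry group exactly when
they induce the same form -/
theorem bgso_coset_iff (hQ : QS Q) (hm : 0 < m) {g₁ g₂ : GL (Fin m ⊕ Fin m) F}
    (hg₁ : g₁ ∈ spGL m F) (hg₂ : g₂ ∈ spGL m F) :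
    g₁⁻¹ * g₂ ∈ quadSimilarityGroup Q ↔
      ∀ w : Fin m ⊕ Fin m → F, Q ((g₁⁻¹ : GL (Fin m ⊕ Fin m) F).1 *ᵥ w) =
        Q ((g₂⁻¹ : GL (Fin m ⊕ Fin m) F).1 *ᵥ w) := by
  constructor
  · intro h w
    have h1 := bgso_isom hQ hm h (mul_mem (inv_mem hg₁) hg₂)
      ((g₂⁻¹ : GL (Fin m ⊕ Fin m) F).1 *ᵥ w)
    rw [gl_mul_mulVec, gl_mulVec_inv] at h1
    exact h1
  · intro h
    refine ⟨1, fun v => ?_⟩
    rw [Units.val_one, one_mul, gl_mul_mulVec, h, gl_inv_mulVec]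


/-- the index of the isometry group of `Q` in the symplectic group -/
theorem bgso_relIndex (hQ : QS Q) (hm : 0 < m) :
    (quadSimilarityGroup Q).relIndex (spGL m F) =
      Nat.card {a : Fin m ⊕ Fin m → F // ∃ φ : F, Q a = φ ^ 2 + φ} := by
  classical
  rw [Subgroup.relIndex, Subgroup.index_eq_card]
  have hb : ∀ g : ↥(spGL m F), ∃ a : Fin m ⊕ Fin m → F, (∃ φ : F, Q a = φ ^ 2 + φ) ∧
      ∀ v, Q ((g.1⁻¹ : GL (Fin m ⊕ Fin m) F).1 *ᵥ v) = Q v + (sympForm m F a v) ^ 2 := by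
    intro g
    obtain ⟨a, φ, h1, h2⟩ := qs_cocycle hQ (inv_mem g.2)
    exact ⟨a, ⟨φ, h1⟩, h2⟩
  choose b hb1 hb2 using hb
  have hwd : ∀ g₁ g₂ : ↥(spGL m F), b g₁ = b g₂ ↔
      g₁⁻¹ * g₂ ∈ (quadSimilarityGroup Q).subgroupOf (spGL m F) := by
    intro g₁ g₂
    rw [Subgroup.mem_subgroupOf]
    show b g₁ = b g₂ ↔ g₁.1⁻¹ * g₂.1 ∈ quadSimilarityGroup Q
    rw [bgso_coset_iff hQ hm g₁.2 g₂.2]
    constructor
    · intro h w
      rw [hb2, hb2, h]
    · intro h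
      apply bgso_unique hQ
      intro v
      have h1 := h v
      rw [hb2, hb2] at h1
      exact add_left_cancel h1
  apply Nat.card_congr
  refine Equiv.ofBijective (fun c => Quotient.liftOn' c
    (fun g => (⟨b g, hb1 g⟩ : {a : Fin m ⊕ Fin m → F // ∃ φ : F, Q a = φ ^ 2 + φ})) ?_) ⟨?_, ?_⟩
  · intro g₁ g₂ h
    rw [QuotientGroup.leftRel_apply] at h
    exact Subtype.ext ((hwd g₁ g₂).mpr h)
  · intro c₁ c₂
    refine Quotient.inductionOn₂' c₁ c₂ (fun g₁ g₂ h => ?_)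
    apply Quotient.sound'
    rw [QuotientGroup.leftRel_apply]
    exact (hwd g₁ g₂).mp (congrArg Subtype.val h)
  · rintro ⟨a, φ, ha⟩
    obtain ⟨s, hs⟩ := qs_exists_s a φ ha
    refine ⟨QuotientGroup.mk ⟨(stGL a s)⁻¹, inv_mem (stGL_mem a s)⟩, ?_⟩
    apply Subtype.ext
    show b ⟨(stGL a s)⁻¹, inv_mem (stGL_mem a s)⟩ = a
    apply bgso_unique hQ
    intro v
    have e1 := hb2 ⟨(stGL a s)⁻¹, inv_mem (stGL_mem a s)⟩ v
    rw [inv_inv, qs_tv hQ, hs, mul_one] at e1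
    rw [sf_swap a v]
    linear_combination -e1

end Index

section Arith

variable {F : Type*} [Field F] [Fintype F] [CharP F 2] {m : ℕ} {Q : (Fin m ⊕ Fin m → F) → F}

/-- an odd prime dividing the index divides `q^m - 1` or `q^m + 1` -/
theorem bgso_arith (hQ : QS Q) (hm : 0 < m) (r : ℕ) (hr : r.Prime) (hr2 : r ≠ 2)
    (hdvd : r ∣ (quadSimilarityGroup Q).relIndex (spGL m F)) :
    r ∣ Fintype.card F ^ m - 1 ∨ r ∣ Fintype.card F ^ m + 1 := by
  rw [bgso_relIndex hQ hm] at hdvd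
  obtain ⟨M, hM⟩ : ∃ M : ℕ,
      M = Nat.card {a : Fin m ⊕ Fin m → F // ∃ φ : F, Q a = φ ^ 2 + φ} := ⟨_, rfl⟩
  rw [← hM] at hdvd
  have h1 := bgsoS_sq hQ
  have h2 := bgsoS_count Q
  rw [← hM] at h2
  have hcard : Fintype.card (Fin m ⊕ Fin m → F) = (Fintype.card F ^ m) ^ 2 := by
    rw [Fintype.card_fun, Fintype.card_sum, Fintype.card_fin, ← two_mul, pow_mul']
  obtain ⟨N, hN⟩ : ∃ N : ℕ, N = Fintype.card F ^ m := ⟨_, rfl⟩
  rw [hcard, ← hN] at h1 h2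
  have hN1 : 1 ≤ N := by
    rw [hN]
    exact Nat.one_le_pow _ _ Fintype.card_pos
  have hrN : ¬ r ∣ N := by
    intro h
    rw [hN] at h
    have h3 := hr.dvd_of_dvd_pow h
    obtain ⟨n, -, hn⟩ := FiniteField.card F 2
    rw [hn] at h3
    have h4 := hr.dvd_of_dvd_pow h3
    exact hr2 ((Nat.prime_dvd_prime_iff_eq hr Nat.prime_two).mp h4)
  rw [← hN]
  push_cast at h1 h2
  have h3 : (bgsoS Q - N) * (bgsoS Q + N) = 0 := by linear_combination h1
  obtain ⟨k, rfl⟩ : ∃ k, N = k + 1 := ⟨N - 1, by omega⟩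
  rcases mul_eq_zero.mp h3 with h4 | h4
  · right
    have h5 : 2 * M = (k + 1) * (k + 1 + 1) := by
      zify
      push_cast at h4 h2
      linear_combination (-1 : ℤ) * h2 + h4
    have h6 : r ∣ (k + 1) * (k + 1 + 1) := by
      rw [← h5]
      exact Dvd.dvd.mul_left hdvd 2
    rcases hr.dvd_mul.mp h6 with h7 | h7
    · exact absurd h7 hrN
    · exact h7
  · left
    have h5 : 2 * M = (k + 1) * k := by
      zify
      push_cast at h4 h2
      linear_combination (-1 : ℤ) * h2 + h4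
    have h6 : r ∣ (k + 1) * k := by
      rw [← h5]
      exact Dvd.dvd.mul_left hdvd 2
    rcases hr.dvd_mul.mp h6 with h7 | h7
    · exact absurd h7 hrN
    · rw [Nat.add_sub_cancel]
      exact h7

end Arith

section Derange

variable {F : Type*} [Field F] [Fintype F] {m : ℕ} {Q : (Fin m ⊕ Fin m → F) → F}

omit [Fintype F] in
/-- an element without non-zero fixed vectors preserves at most one of the forms `Q ∘ g⁻¹` -/
theorem bgso_fixed_unique (hQ : QS Q) (x : GL (Fin m ⊕ Fin m) F)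
    (hfix : ∀ v : Fin m ⊕ Fin m → F, x.1 *ᵥ v = v → v = 0)
    {g₁ g₂ : GL (Fin m ⊕ Fin m) F} (hg₁ : g₁ ∈ spGL m F) (hg₂ : g₂ ∈ spGL m F)
    (h₁ : ∀ w : Fin m ⊕ Fin m → F, Q ((g₁⁻¹ : GL (Fin m ⊕ Fin m) F).1 *ᵥ (x.1 *ᵥ w)) =
      Q ((g₁⁻¹ : GL (Fin m ⊕ Fin m) F).1 *ᵥ w))
    (h₂ : ∀ w : Fin m ⊕ Fin m → F, Q ((g₂⁻¹ : GL (Fin m ⊕ Fin m) F).1 *ᵥ (x.1 *ᵥ w)) =
      Q ((g₂⁻¹ : GL (Fin m ⊕ Fin m) F).1 *ᵥ w))
    (w : Fin m ⊕ Fin m → F) :
    Q ((g₁⁻¹ : GL (Fin m ⊕ Fin m) F).1 *ᵥ w) = Q ((g₂⁻¹ : GL (Fin m ⊕ Fin m) F).1 *ᵥ w) := by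
  have hinj : Function.Injective (Matrix.toLin' (x.1 + 1)) := by
    rw [injective_iff_map_eq_zero]
    intro v hv
    rw [Matrix.toLin'_apply, Matrix.add_mulVec, one_mulVec] at hv
    apply hfix
    have h3 : x.1 *ᵥ v = -v := eq_neg_of_add_eq_zero_left hv
    rw [h3]
    have h4 : v + v = 0 := by rw [← two_smul F v, hQ.two, zero_smul]
    exact neg_eq_of_add_eq_zero_left h4
  obtain ⟨u, hu⟩ := LinearMap.surjective_of_injective hinj w
  rw [Matrix.toLin'_apply, Matrix.add_mulVec, one_mulVec] at hu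
  have e1 := hQ.add ((g₁⁻¹ : GL (Fin m ⊕ Fin m) F).1 *ᵥ (x.1 *ᵥ u))
    ((g₁⁻¹ : GL (Fin m ⊕ Fin m) F).1 *ᵥ u)
  have e2 := hQ.add ((g₂⁻¹ : GL (Fin m ⊕ Fin m) F).1 *ᵥ (x.1 *ᵥ u))
    ((g₂⁻¹ : GL (Fin m ⊕ Fin m) F).1 *ᵥ u)
  rw [← Matrix.mulVec_add, hu, h₁, sp_apply (inv_mem hg₁)] at e1
  rw [← Matrix.mulVec_add, hu, h₂, sp_apply (inv_mem hg₂)] at e2
  linear_combination e1 - e2 + (Q ((g₁⁻¹ : GL (Fin m ⊕ Fin m) F).1 *ᵥ u) -
    Q ((g₂⁻¹ : GL (Fin m ⊕ Fin m) F).1 *ᵥ u)) * hQ.two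

/-- a map of prime order with exactly one fixed point on a finite set -/
theorem bgso_modEq_aux {α : Type*} [Finite α] (f : Function.End α) (r : ℕ) [Fact r.Prime]
    (hf : f ^ r ^ 1 = 1) (c₀ : α) (h0 : f c₀ = c₀) (huniq : ∀ c, f c = c → c = c₀) :
    Nat.card α ≡ 1 [MOD r] := by
  classical
  have hft : Fintype α := Fintype.ofFinite α
  have h1 := Equiv.Perm.card_fixedPoints_modEq (f := f) (p := r) (n := 1) hf
  have h2 : Nat.card ↥(Function.fixedPoints f) = 1 := by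
    rw [Nat.card_eq_one_iff_unique]
    exact ⟨⟨fun a b => Subtype.ext ((huniq a.1 a.2).trans (huniq b.1 b.2).symm)⟩, ⟨⟨c₀, h0⟩⟩⟩
  rw [← Nat.card_eq_fintype_card, ← Nat.card_eq_fintype_card, h2] at h1
  exact h1

/-- an element of prime order `r` dividing the index without non-zero fixed vectors has no
conjugate in the isometry group -/
theorem bgso_derangement (hQ : QS Q) (hm : 0 < m) (r : ℕ) [Fact r.Prime]
    (hr : r ∣ (quadSimilarityGroup Q).relIndex (spGL m F))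
    (x : GL (Fin m ⊕ Fin m) F) (hx : x ∈ spGL m F) (hxr : x ^ r = 1)
    (hfix : ∀ v : Fin m ⊕ Fin m → F, x.1 *ᵥ v = v → v = 0) :
    ¬ ∃ g ∈ spGL m F, g⁻¹ * x * g ∈ quadSimilarityGroup Q := by
  classical
  rintro ⟨g, hg, hgx⟩
  obtain ⟨f, hfdef⟩ : ∃ f : Function.End
      (↥(spGL m F) ⧸ (quadSimilarityGroup Q).subgroupOf (spGL m F)),
      ∀ c, f c = (⟨x, hx⟩ : ↥(spGL m F)) • c := ⟨fun c => (⟨x, hx⟩ : ↥(spGL m F)) • c, fun c => rfl⟩
  have hfpow : ∀ (n : ℕ) (c : ↥(spGL m F) ⧸ (quadSimilarityGroup Q).subgroupOf (spGL m F)),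
      (f ^ n) c = (⟨x, hx⟩ : ↥(spGL m F)) ^ n • c := by
    intro n
    induction n with
    | zero =>
      intro c
      rw [pow_zero, pow_zero, one_smul]
      rfl
    | succ n ih =>
      intro c
      have h1 : (f ^ (n + 1)) c = (f ^ n) (f c) := by
        rw [pow_succ]
        rfl
      rw [h1, ih, hfdef, smul_smul, pow_succ]
  have hf : f ^ r ^ 1 = 1 := by
    rw [pow_one]
    funext c
    rw [hfpow]
    have h1 : (⟨x, hx⟩ : ↥(spGL m F)) ^ r = 1 := Subtype.ext hxr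
    rw [h1, one_smul]
    rfl
  have hfixed : ∀ g₁ : ↥(spGL m F),
      f (QuotientGroup.mk g₁) = QuotientGroup.mk g₁ ↔
        ∀ w : Fin m ⊕ Fin m → F, Q ((g₁.1⁻¹ : GL (Fin m ⊕ Fin m) F).1 *ᵥ (x.1 *ᵥ w)) =
          Q ((g₁.1⁻¹ : GL (Fin m ⊕ Fin m) F).1 *ᵥ w) := by
    intro g₁
    rw [hfdef, MulAction.Quotient.smul_mk, QuotientGroup.eq, Subgroup.mem_subgroupOf]
    show (x * g₁.1)⁻¹ * g₁.1 ∈ quadSimilarityGroup Q ↔ _
    rw [bgso_coset_iff hQ hm (mul_mem hx g₁.2) g₁.2]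
    constructor
    · intro h w
      have h2 := h (x.1 *ᵥ w)
      rw [_root_.mul_inv_rev, gl_mul_mulVec, gl_inv_mulVec] at h2
      exact h2.symm
    · intro h w
      have h2 := h ((x⁻¹ : GL (Fin m ⊕ Fin m) F).1 *ᵥ w)
      rw [gl_mulVec_inv] at h2
      rw [_root_.mul_inv_rev, gl_mul_mulVec]
      exact h2.symm
  have hg' : f (QuotientGroup.mk ⟨g, hg⟩) = QuotientGroup.mk ⟨g, hg⟩ := by
    rw [hfdef, MulAction.Quotient.smul_mk, QuotientGroup.eq, Subgroup.mem_subgroupOf]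
    show (x * g)⁻¹ * g ∈ quadSimilarityGroup Q
    have h3 := inv_mem hgx
    rw [_root_.mul_inv_rev, _root_.mul_inv_rev, inv_inv, ← mul_assoc] at h3
    rw [_root_.mul_inv_rev]
    exact h3
  have h1 := bgso_modEq_aux f r hf (QuotientGroup.mk ⟨g, hg⟩) hg' (by
    intro c hc
    induction c using QuotientGroup.induction_on with
    | H g₁ =>
      have hg'' := hg'
      rw [hfixed] at hc hg''
      rw [QuotientGroup.eq, Subgroup.mem_subgroupOf]
      show g₁.1⁻¹ * g ∈ quadSimilarityGroup Q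
      rw [bgso_coset_iff hQ hm g₁.2 hg]
      exact bgso_fixed_unique hQ x hfix g₁.2 hg hc hg'')
  have h3 : Nat.card (↥(spGL m F) ⧸ (quadSimilarityGroup Q).subgroupOf (spGL m F)) =
      (quadSimilarityGroup Q).relIndex (spGL m F) := by
    rw [Subgroup.relIndex, Subgroup.index_eq_card]
  rw [h3] at h1
  have h4 : r ∣ 1 := by
    have h5 := (Nat.modEq_zero_iff_dvd.mpr hr).symm.trans h1
    exact (Nat.modEq_zero_iff_dvd.mp h5.symm)
  exact (Fact.out : r.Prime).one_lt.ne' (Nat.dvd_one.mp h4)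

end Derange

end Cfsg.Agent.Helper30
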