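import Cfsg.Agent.Helper30.BGSO2
import Cfsg.Agent.Helper30.BGPlus2
import Cfsg.Agent.Helper30.BGMinus3
import Cfsg.Agent.Helper30.BGSpTorus

set_option autoImplicit false

/-!
# Elements of `Sp_{2d}(q)`, `q` even, without conjugates in `O^±_{2d}(q)` (helper30)

Fixed-point-free elements of odd prime order dividing `q^d - 1` or `q^d + 1`, and the involution
`[[1, J], [0, 1]]` with `J` alternating non-singular, which preserves only forms of plus type.
-/

namespace Cfsg.Agent.Helper30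

open Cfsg Cfsg.Geo Matrix Cfsg.Agent.Helper94

section Elems

variable {F : Type*} [Field F] {d : ℕ}

theorem bgso_symp_elim (u w u' w' : Fin d → F) :
    sympForm d F (Sum.elim u w) (Sum.elim u' w') = w ⬝ᵥ u' - u ⬝ᵥ w' := by
  rw [symp_explicit]
  simp only [Sum.elim_inl, Sum.elim_inr]
  rw [Finset.sum_sub_distrib]
  rfl

theorem bgso_plusDiag_mem (A B : Matrix (Fin d) (Fin d) F) (hAB : A * B = 1) :
    bgPlusDiag A B hAB ∈ spGL d F := by
  rw [mem_spGL_iff]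
  intro v v'
  obtain ⟨u, w, rfl⟩ := bgPlus_exists_elim v
  obtain ⟨u', w', rfl⟩ := bgPlus_exists_elim v'
  have h1 : ∀ a b : Fin d → F, (A *ᵥ a) ⬝ᵥ (Bᵀ *ᵥ b) = a ⬝ᵥ b := by
    intro a b
    rw [dotProduct_mulVec, vecMul_transpose, mulVec_mulVec, mul_eq_one_comm.mp hAB, one_mulVec]
  rw [bgPlusDiag_mulVec, bgPlusDiag_mulVec, bgso_symp_elim, bgso_symp_elim, h1,
    dotProduct_comm (Bᵀ *ᵥ w) (A *ᵥ u'), h1, dotProduct_comm u' w]

/-- the composite of a form with a symplectic map -/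
theorem bgso_qs_comp {Q : (Fin d ⊕ Fin d → F) → F} (hQ : QS Q) {g : GL (Fin d ⊕ Fin d) F}
    (hg : g ∈ spGL d F) : QS (fun v => Q (g.1 *ᵥ v)) := by
  refine ⟨hQ.two, fun c v => ?_, fun u v => ?_, hQ.sq⟩
  · show Q (g.1 *ᵥ (c • v)) = c ^ 2 * Q (g.1 *ᵥ v)
    rw [mulVec_smul, hQ.smul]
  · show Q (g.1 *ᵥ (u + v)) = Q (g.1 *ᵥ u) + Q (g.1 *ᵥ v) + sympForm d F u v
    rw [mulVec_add, hQ.add, sp_apply hg]

end Elems

section Invol

variable {F : Type*} [Field F] [CharP F 2] {k : ℕ}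

omit [CharP F 2] in
theorem bgso_alt_symm (w w' : Fin (k + k) → F) :
    w ⬝ᵥ (bgAlt F k *ᵥ w') = (bgAlt F k *ᵥ w) ⬝ᵥ w' := by
  unfold dotProduct
  simp only [bgAlt_mulVec]
  have hinv : Function.Involutive (bgSwap k) := bgSwap_swap
  rw [← Equiv.sum_comp hinv.toPerm (fun i => w (bgSwap k i) * w' i)]
  apply Finset.sum_congr rfl
  intro i _
  show _ = w (bgSwap k (bgSwap k i)) * w' (bgSwap k i)
  rw [bgSwap_swap]

theorem bgso_inv_mem : bgInv F k ∈ spGL (k + k) F := by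
  rw [mem_spGL_iff]
  intro v v'
  obtain ⟨u, w, rfl⟩ := bgPlus_exists_elim v
  obtain ⟨u', w', rfl⟩ := bgPlus_exists_elim v'
  rw [bgInv_mulVec, bgInv_mulVec, bgso_symp_elim, bgso_symp_elim, dotProduct_add, add_dotProduct,
    bgso_alt_symm]
  ring

/-- a form invariant under the involution vanishes on the standard Lagrangian -/
theorem bgso_inv_vanish {Q₁ : (Fin (k + k) ⊕ Fin (k + k) → F) → F} (hQ₁ : QS Q₁)
    (hinv : ∀ v, Q₁ ((bgInv F k).1 *ᵥ v) = Q₁ v) (u : Fin (k + k) → F) :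
    Q₁ (Sum.elim u 0) = 0 := by
  obtain ⟨w, hw⟩ : ∃ w, w = bgAlt F k *ᵥ u := ⟨_, rfl⟩
  have hJw : bgAlt F k *ᵥ w = u := by
    funext i
    rw [bgAlt_mulVec, hw, bgAlt_mulVec, bgSwap_swap]
  have h1 := hinv (Sum.elim 0 w)
  rw [bgInv_mulVec, zero_add, hJw] at h1
  have h2 : (Sum.elim u (0 : Fin (k + k) → F) : Fin (k + k) ⊕ Fin (k + k) → F) =
      Sum.elim u w + Sum.elim (0 : Fin (k + k) → F) w := by
    funext i
    rcases i with i | i
    · simp
    · simp [CharTwo.add_self_eq_zero]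
  have h3 : u ⬝ᵥ w = 0 := by
    rw [← hJw]
    exact bgAlt_dot w
  rw [h2, hQ₁.add, h1, bgso_symp_elim, dotProduct_zero, h3]
  linear_combination (Q₁ (Sum.elim 0 w)) * hQ₁.two

theorem bgso_inv_nonscalar (hk : 0 < k) (z : F) :
    (bgInv F k).1 ≠ z • (1 : Matrix (Fin (k + k) ⊕ Fin (k + k)) (Fin (k + k) ⊕ Fin (k + k)) F) := by
  intro h
  obtain ⟨i⟩ : Nonempty (Fin (k + k)) := ⟨⟨0, by omega⟩⟩
  have h1 := bgInv_mulVec (F := F) (k := k) 0 (Pi.single i 1)
  rw [h, smul_mulVec, one_mulVec, zero_add] at h1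
  have h2 := congrFun h1 (Sum.inl (bgSwap k i))
  simp only [Pi.smul_apply, Sum.elim_inl, Pi.zero_apply, smul_eq_mul, mul_zero] at h2
  rw [bgAlt_mulVec, bgSwap_swap, Pi.single_eq_same] at h2
  exact zero_ne_one h2

end Invol

section Transport

variable {F : Type*} [Field F] {ι : Type} [Fintype ι] [DecidableEq ι] {K : Type*} [Field K]
  [Algebra F K]

/-- transport of multiplication by an element of finite order along a linear equivalence -/
theorem bgso_transport (Ψ : (ι → F) ≃ₗ[F] K) (ω : K) (r : ℕ) (hr : 0 < r) (hω : ω ^ r = 1)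
    (hω1 : ω ≠ 1) :
    ∃ g : GL ι F, (∀ v : ι → F, g.1 *ᵥ v = Ψ.symm (ω * Ψ v)) ∧ g ^ r = 1 ∧
      ∀ v : ι → F, g.1 *ᵥ v = v → v = 0 := by
  obtain ⟨G, hG⟩ : ∃ G : ℕ → Module.End F (ι → F), ∀ j v, G j v = Ψ.symm (ω ^ j * Ψ v) :=
    ⟨fun j => Ψ.symm.toLinearMap ∘ₗ LinearMap.mulLeft F (ω ^ j) ∘ₗ Ψ.toLinearMap,
      fun j v => rfl⟩
  obtain ⟨M, hMdef⟩ : ∃ M : ℕ → Matrix ι ι F, ∀ j, M j = LinearMap.toMatrix' (G j) :=
    ⟨fun j => LinearMap.toMatrix' (G j), fun j => rfl⟩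
  have hM : ∀ j v, M j *ᵥ v = Ψ.symm (ω ^ j * Ψ v) := by
    intro j v
    rw [hMdef, LinearMap.toMatrix'_mulVec, hG]
  have hmul : ∀ i j, M i * M j = M (i + j) := by
    intro i j
    rw [hMdef, hMdef, hMdef, ← LinearMap.toMatrix'_comp]
    congr 1
    apply LinearMap.ext
    intro v
    rw [LinearMap.comp_apply, hG, hG, hG, LinearEquiv.apply_symm_apply, pow_add, mul_assoc]
  have hone : ∀ j, ω ^ j = 1 → M j = 1 := by
    intro j hj
    rw [hMdef, ← LinearMap.toMatrix'_id]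
    congr 1
    apply LinearMap.ext
    intro v
    rw [hG, hj, one_mul, LinearEquiv.symm_apply_apply, LinearMap.id_apply]
  have hr1 : 1 + (r - 1) = r := by omega
  have hr2 : (r - 1) + 1 = r := by omega
  obtain ⟨g, hg⟩ : ∃ g : GL ι F, (g : Matrix ι ι F) = M 1 :=
    ⟨⟨M 1, M (r - 1), by rw [hmul, hr1, hone r hω], by rw [hmul, hr2, hone r hω]⟩, rfl⟩
  have hpow : ∀ j, ((g ^ j : GL ι F) : Matrix ι ι F) = M j := by
    intro j
    induction j with
    | zero => rw [pow_zero, hone 0 (pow_zero ω)]; rfl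
    | succ j ih =>
      rw [pow_succ, Units.val_mul, ih, hg, hmul]
  refine ⟨g, ?_, ?_, ?_⟩
  · intro v
    show (g : Matrix ι ι F) *ᵥ v = _
    rw [hg, hM, pow_one]
  · apply Units.ext
    rw [hpow, hone r hω]
    rfl
  · intro v hv
    have hv' : (g : Matrix ι ι F) *ᵥ v = v := hv
    rw [hg, hM, pow_one] at hv'
    have h1 : ω * Ψ v = Ψ v := by
      have := congrArg Ψ hv'
      rw [LinearEquiv.apply_symm_apply] at this
      exact this
    have h4 : (ω - 1) * Ψ v = 0 := by rw [sub_mul, one_mul, h1, sub_self]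
    rcases mul_eq_zero.mp h4 with h5 | h5
    · exact absurd (sub_eq_zero.mp h5) hω1
    · exact Ψ.map_eq_zero_iff.mp h5

end Transport

section Fpf

variable {F : Type*} [Field F] [Fintype F] [CharP F 2]

/-- a fixed-point-free element of prime order `r` dividing `q^d - 1` -/
theorem bgso_plus_exists (d : ℕ) (hd : 1 ≤ d) (r : ℕ) [Fact r.Prime]
    (hrd : r ∣ Fintype.card F ^ d - 1) :
    ∃ g : GL (Fin d ⊕ Fin d) F, g ∈ spGL d F ∧ g ^ r = 1 ∧
      ∀ v : Fin d ⊕ Fin d → F, g.1 *ᵥ v = v → v = 0 := by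
  have hne : NeZero d := ⟨by omega⟩
  have hp2 : Fact (Nat.Prime 2) := ⟨Nat.prime_two⟩
  obtain ⟨A, hA, hdet⟩ := bgSinger_exists (F := F) 2 d r hrd
  have hr1 := (Fact.out : r.Prime).pos
  have hAB : A * A ^ (r - 1) = 1 := by
    rw [← pow_succ', Nat.sub_add_cancel hr1, hA]
  exact ⟨bgPlusDiag A (A ^ (r - 1)) hAB, bgso_plusDiag_mem A _ hAB, bgPlusDiag_pow A _ hAB r hA,
    fun v hv => bgPlusDiag_fix A _ hAB hdet v hv⟩

/-- a fixed-point-free element of odd prime order `r` dividing `q^d + 1` -/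
theorem bgso_minus_exists (d : ℕ) (hd : 1 ≤ d) (r : ℕ) [Fact r.Prime] (hr2 : r ≠ 2)
    (hrd : r ∣ Fintype.card F ^ d + 1) :
    ∃ g : GL (Fin d ⊕ Fin d) F, g ∈ spGL d F ∧ g ^ r = 1 ∧
      ∀ v : Fin d ⊕ Fin d → F, g.1 *ᵥ v = v → v = 0 := by
  classical
  have hne : NeZero (2 * d) := ⟨by omega⟩
  have hp2 : Fact (Nat.Prime 2) := ⟨Nat.prime_two⟩
  obtain ⟨σ, c, γ, hσ, hc, hc0, hγ, hord⟩ := Helper42.SpModels.exists_unit_data F 2 d hd
  have hKfin : Finite (FiniteField.Extension F 2 (2 * d)) := Module.finite_of_finite F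
  have hKft : Fintype (FiniteField.Extension F 2 (2 * d)) := Fintype.ofFinite _
  have hK2 : CharP (FiniteField.Extension F 2 (2 * d)) 2 :=
    charP_of_injective_algebraMap (algebraMap F (FiniteField.Extension F 2 (2 * d))).injective 2
  have hγ0 : γ ≠ 0 := by
    rintro rfl
    rw [zero_mul] at hγ
    exact zero_ne_one hγ
  have hγfin : IsOfFinOrder γ := by
    rw [isOfFinOrder_iff_pow_eq_one]
    refine ⟨Fintype.card (FiniteField.Extension F 2 (2 * d)) - 1, ?_,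
      FiniteField.pow_card_sub_one_eq_one γ hγ0⟩
    have := Fintype.one_lt_card (α := FiniteField.Extension F 2 (2 * d))
    omega
  have hmpos : 0 < orderOf γ := hγfin.orderOf_pos
  have hqm : (Fintype.card F ^ d + 1) ∣ orderOf γ := hord _ (pow_orderOf_eq_one γ)
  obtain ⟨k, hk⟩ := dvd_trans hrd hqm
  have hr1 := (Fact.out : r.Prime).one_lt
  have hk0 : 0 < k := by
    rcases Nat.eq_zero_or_pos k with h0 | h0
    · rw [h0, mul_zero] at hk
      omega
    · exact h0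
  obtain ⟨ω, hωdef⟩ : ∃ ω : FiniteField.Extension F 2 (2 * d), ω = γ ^ k := ⟨_, rfl⟩
  have hωr : ω ^ r = 1 := by
    have hkr : k * r = orderOf γ := by rw [hk, Nat.mul_comm]
    rw [hωdef, ← pow_mul, hkr]
    exact pow_orderOf_eq_one γ
  have hω1 : ω ≠ 1 := by
    intro h
    rw [hωdef] at h
    have h1 := Nat.le_of_dvd hk0 (orderOf_dvd_of_pow_eq_one h)
    nlinarith
  have hωσ : ω * σ ω = 1 := by
    rw [hωdef, map_pow, ← mul_pow, hγ, one_pow]
  have hσω : σ ω ≠ ω := by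
    intro h
    rw [h] at hωσ
    exact hω1 (bgPlus_sq_one ω hωσ)
  obtain ⟨Q', hnd, hpres⟩ := bgMinus_form_exists F (FiniteField.Extension F 2 (2 * d)) σ hσ ω hσω
  have hfr : Module.finrank F (FiniteField.Extension F 2 (2 * d)) = 2 * d :=
    FiniteField.finrank_extension F 2 (2 * d)
  have halt : ∀ v, QuadraticMap.polarBilin Q' v v = 0 := by
    intro v
    show QuadraticMap.polar Q' v v = 0
    rw [QuadraticMap.polar_self, two_smul]
    exact CharTwo.add_self_eq_zero _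
  have hndB : ∀ v, (∀ w, QuadraticMap.polarBilin Q' v w = 0) → v = 0 := fun v hv => hnd.1 v hv
  obtain ⟨Φ, hΦ⟩ := Helper42.SpForm.exists_equiv_std d _ (QuadraticMap.polarBilin Q') halt hndB hfr
  obtain ⟨g, hgdef, hgr, hgfix⟩ := bgso_transport Φ.symm ω r (Fact.out : r.Prime).pos hωr hω1
  refine ⟨g, ?_, hgr, hgfix⟩
  rw [mem_spGL_iff]
  intro u v
  have h1 : ∀ x y, QuadraticMap.polarBilin Q' (ω * x) (ω * y) = QuadraticMap.polarBilin Q' x y := by
    intro x y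
    show QuadraticMap.polar Q' (ω * x) (ω * y) = QuadraticMap.polar Q' x y
    unfold QuadraticMap.polar
    rw [← mul_add, hpres ω hωσ, hpres ω hωσ, hpres ω hωσ]
  have h2 := hgdef u
  have h3 := hgdef v
  rw [LinearEquiv.symm_symm] at h2 h3
  show sympForm d F (g.1 *ᵥ u) (g.1 *ᵥ v) = sympForm d F u v
  rw [h2, h3, ← bgSp_stdForm_eq, ← bgSp_stdForm_eq, hΦ, h1, ← hΦ, LinearEquiv.apply_symm_apply,
    LinearEquiv.apply_symm_apply]

/-- if every element of prime order `r` has a conjugate in the isometry group of `Q` then `r = 2`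
and `Q` is of plus type or `d` is odd -/
theorem bgso_necessity (d : ℕ) (hd : 2 ≤ d) (Q : (Fin d ⊕ Fin d → F) → F) (hQ : QS Q) (r : ℕ)
    [Fact r.Prime] (hΩ : r ∣ (quadSimilarityGroup Q).relIndex (spGL d F))
    (H : ∀ x ∈ spGL d F, (∃ z : F, ((x ^ r : GL (Fin d ⊕ Fin d) F) :
        Matrix (Fin d ⊕ Fin d) (Fin d ⊕ Fin d) F) =
        z • (1 : Matrix (Fin d ⊕ Fin d) (Fin d ⊕ Fin d) F)) →
      (∀ z : F, (x : Matrix (Fin d ⊕ Fin d) (Fin d ⊕ Fin d) F) ≠
        z • (1 : Matrix (Fin d ⊕ Fin d) (Fin d ⊕ Fin d) F)) →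
      ∃ g ∈ spGL d F, g⁻¹ * x * g ∈ quadSimilarityGroup Q) :
    r = 2 ∧ (IsPlusTypeOn Q ⊤ ∨ Odd d) := by
  have hd0 : 0 < d := by omega
  have hr2 : r = 2 := by
    by_contra hr2
    have hfpf : ∃ g : GL (Fin d ⊕ Fin d) F, g ∈ spGL d F ∧ g ^ r = 1 ∧
        ∀ v : Fin d ⊕ Fin d → F, g.1 *ᵥ v = v → v = 0 := by
      rcases bgso_arith hQ hd0 r Fact.out hr2 hΩ with h | h
      · exact bgso_plus_exists d (by omega) r h
      · exact bgso_minus_exists d (by omega) r hr2 h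
    obtain ⟨x, hx, hxr, hfix⟩ := hfpf
    apply bgso_derangement hQ hd0 r hΩ x hx hxr hfix
    apply H x hx ⟨1, by rw [hxr, one_smul]; rfl⟩
    intro z hz
    obtain ⟨u, w, huw⟩ := bgso_exists_pair (F := F) hd0
    have h1 := sp_apply hx u w
    rw [hz, smul_mulVec, smul_mulVec, one_mulVec, one_mulVec, sf_smul_left, sf_smul_right] at h1
    have h2 : z * z = 1 := by
      have h3 : (z * z - 1) * sympForm d F u w = 0 := by linear_combination h1
      rcases mul_eq_zero.mp h3 with h4 | h4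
      · exact sub_eq_zero.mp h4
      · exact absurd h4 huw
    have h5 : z = 1 := bgPlus_sq_one z h2
    have h6 : u = 0 := by
      apply hfix
      show (x : Matrix (Fin d ⊕ Fin d) (Fin d ⊕ Fin d) F) *ᵥ u = u
      rw [hz, h5, one_smul, one_mulVec]
    rw [h6, sf_zero_left] at huw
    exact huw rfl
  refine ⟨hr2, ?_⟩
  by_contra hcon
  push Not at hcon
  obtain ⟨hplus, hodd⟩ := hcon
  obtain ⟨k, hk⟩ := Nat.not_odd_iff_even.mp hodd
  subst hk
  subst hr2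
  obtain ⟨g, hg, hgx⟩ := H (bgInv F k) bgso_inv_mem
    ⟨1, by rw [pow_two, bgInv_sq, one_smul]; rfl⟩ (bgso_inv_nonscalar (by omega))
  have hh := bgso_isom hQ hd0 hgx (mul_mem (mul_mem (inv_mem hg) bgso_inv_mem) hg)
  have hQ₁ : QS (fun v => Q ((g⁻¹ : GL (Fin (k + k) ⊕ Fin (k + k)) F).1 *ᵥ v)) :=
    bgso_qs_comp hQ (inv_mem hg)
  have hinv : ∀ v : Fin (k + k) ⊕ Fin (k + k) → F,
      Q ((g⁻¹ : GL (Fin (k + k) ⊕ Fin (k + k)) F).1 *ᵥ ((bgInv F k).1 *ᵥ v)) =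
        Q ((g⁻¹ : GL (Fin (k + k) ⊕ Fin (k + k)) F).1 *ᵥ v) := by
    intro v
    have h1 := hh ((g⁻¹ : GL (Fin (k + k) ⊕ Fin (k + k)) F).1 *ᵥ v)
    rw [gl_mul_mulVec, gl_mul_mulVec, gl_mulVec_inv] at h1
    exact h1
  have hvan := bgso_inv_vanish hQ₁ hinv
  apply hplus
  have hinj : Function.Injective
      (Matrix.toLin' (g⁻¹ : GL (Fin (k + k) ⊕ Fin (k + k)) F).1) := by
    intro a b hab
    rw [Matrix.toLin'_apply, Matrix.toLin'_apply] at hab
    have h1 := congrArg (fun t => g.1 *ᵥ t) hab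
    have h2 : g.1 *ᵥ ((g⁻¹ : GL (Fin (k + k) ⊕ Fin (k + k)) F).1 *ᵥ a) =
      g.1 *ᵥ ((g⁻¹ : GL (Fin (k + k) ⊕ Fin (k + k)) F).1 *ᵥ b) := h1
    rw [gl_mulVec_inv, gl_mulVec_inv] at h2
    exact h2
  refine ⟨(bgSpE (k + k) F).map (Matrix.toLin' (g⁻¹ : GL (Fin (k + k) ⊕ Fin (k + k)) F).1),
    le_top, ?_, ?_⟩
  · intro y hy
    obtain ⟨e, he, rfl⟩ := Submodule.mem_map.mp hy
    have he' : e = Sum.elim (fun i => e (Sum.inl i)) (0 : Fin (k + k) → F) := by
      funext i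
      rcases i with i | i
      · rfl
      · exact he i
    rw [Matrix.toLin'_apply, he']
    exact hvan _
  · have h1 := (Submodule.equivMapOfInjective _ hinj (bgSpE (k + k) F)).finrank_eq
    have h2 := (bgSp_finrank_pair ⟨(bgSpE (k + k) F, bgSpF (k + k) F), bgSp_isCompl_std,
      fun u hu v hv => bgSpE_ti u v hu hv, fun u hu v hv => bgSpF_ti u v hu hv⟩).1
    rw [← h1, h2, finrank_top, Module.finrank_fintype_fun_eq_card, Fintype.card_sum,
      Fintype.card_fin]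
    ring

end Fpf

end Cfsg.Agent.Helper30
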