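import Cfsg.Agent.Helper30.BGSO2
import Cfsg.Agent.Helper36.AltEven

set_option autoImplicit false

/-!
# Involutions of `Sp_{2m}(q)`, `q` even, and the orthogonal subgroups (helper30)

Every involution `x` of the symplectic group has a conjugate in the isometry group of `Q` when `Q`
is of plus type or `m` is odd.  With `N = x + 1` and `Q ∘ x = Q + f(c, ·)²`, a vector `a` with
`N a = c` and `Q a = φ² + φ` gives the conjugating transvection.
-/

namespace Cfsg.Agent.Helper30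

open Cfsg Cfsg.Geo Matrix Cfsg.Agent.Helper94

section Invol2

variable {F : Type*} [Field F] {m : ℕ} {Q : (Fin m ⊕ Fin m → F) → F}

theorem bgso_vadd_self (h2 : (2 : F) = 0) (v : Fin m ⊕ Fin m → F) : v + v = 0 := by
  rw [← two_smul F v, h2, zero_smul]

/-- a vector `a` with `x a + a = c` and `Q a = φ² + φ` yields a conjugate of `x` preserving `Q` -/
theorem bgso_conj_of_vec (hQ : QS Q) {x : GL (Fin m ⊕ Fin m) F} (hx : x ∈ spGL m F)
    (hxx : ∀ v : Fin m ⊕ Fin m → F, x.1 *ᵥ (x.1 *ᵥ v) = v) (c : Fin m ⊕ Fin m → F)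
    (hc : ∀ v, Q (x.1 *ᵥ v) = Q v + (sympForm m F c v) ^ 2)
    (a : Fin m ⊕ Fin m → F) (ha : x.1 *ᵥ a + a = c) (φ : F) (hφ : Q a = φ ^ 2 + φ) :
    ∃ g ∈ spGL m F, g⁻¹ * x * g ∈ quadSimilarityGroup Q := by
  obtain ⟨s, hs⟩ := qs_exists_s a φ hφ
  refine ⟨(stGL a s)⁻¹, inv_mem (stGL_mem a s), ?_⟩
  rw [inv_inv]
  refine ⟨1, fun w => ?_⟩
  rw [Units.val_one, one_mul, gl_mul_mulVec, gl_mul_mulVec]
  obtain ⟨v, hv⟩ : ∃ v, v = ((stGL a s)⁻¹ : GL (Fin m ⊕ Fin m) F).1 *ᵥ w := ⟨_, rfl⟩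
  have hw : w = (stGL a s).1 *ᵥ v := by rw [hv, gl_mulVec_inv]
  rw [← hv, hw, qs_tv hQ, qs_tv hQ, hs, mul_one, mul_one, hc]
  have h1 : sympForm m F (x.1 *ᵥ v) a = sympForm m F v a + sympForm m F v c := by
    have h2 := sp_apply hx (x.1 *ᵥ v) a
    rw [hxx] at h2
    have h3 : x.1 *ᵥ a = c - a := eq_sub_of_add_eq ha
    rw [← h2, h3, sf_sub_right]
    linear_combination (-sympForm m F v a) * hQ.two
  rw [h1, sf_swap c v]
  linear_combination (sympForm m F v a * sympForm m F v c + (sympForm m F v c) ^ 2) * hQ.two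

theorem bgso_range_eq_perp (N : (Fin m ⊕ Fin m → F) →ₗ[F] (Fin m ⊕ Fin m → F))
    (hN2 : ∀ u v, sympForm m F (N u) v = sympForm m F u (N v)) :
    LinearMap.range N = perp (LinearMap.ker N) := by
  apply Submodule.eq_of_le_of_finrank_eq
  · rintro _ ⟨u, rfl⟩
    rw [mem_perp]
    intro k hk
    rw [← hN2, LinearMap.mem_ker.mp hk, sf_zero_left]
  · rw [finrank_perp]
    have h1 := LinearMap.finrank_range_add_finrank_ker N
    rw [Module.finrank_fintype_fun_eq_card, Fintype.card_sum, Fintype.card_fin] at h1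
    omega

/-- a self-adjoint map `N` with `f(v, N v) = 0` and kernel of dimension `m` forces `m` even -/
theorem bgso_even_of_atype (N : (Fin m ⊕ Fin m → F) →ₗ[F] (Fin m ⊕ Fin m → F))
    (hN2 : ∀ u v, sympForm m F (N u) v = sympForm m F u (N v))
    (h1 : ∀ v, sympForm m F v (N v) = 0)
    (hfk : Module.finrank F (LinearMap.ker N) = m) : Even m := by
  obtain ⟨C, hC⟩ := Submodule.exists_isCompl (LinearMap.ker N)
  have hfC : Module.finrank F C = m := by
    have h2 := Submodule.finrank_add_eq_of_isCompl hC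
    rw [Module.finrank_fintype_fun_eq_card, Fintype.card_sum, Fintype.card_fin] at h2
    omega
  obtain ⟨B, hB⟩ : ∃ B : ↥C →ₗ[F] ↥C →ₗ[F] F, ∀ c₁ c₂ : ↥C, B c₁ c₂ = sympForm m F c₁.1 (N c₂.1) :=
    ⟨(Helper13.sympB m F).compl₁₂ C.subtype (N ∘ₗ C.subtype), fun _ _ => rfl⟩
  have halt : ∀ v, B v v = 0 := fun v => by rw [hB]; exact h1 v.1
  have hnd : ∀ v, (∀ w, B v w = 0) → v = 0 := by
    intro v hv
    have h5 : ∀ y, sympForm m F (N v.1) y = 0 := by
      intro y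
      have hy : y ∈ LinearMap.ker N ⊔ C := by
        rw [hC.sup_eq_top]
        exact Submodule.mem_top
      obtain ⟨k, hk, c₂, hc₂, rfl⟩ := Submodule.mem_sup.mp hy
      have h6 := hv ⟨c₂, hc₂⟩
      rw [hB] at h6
      rw [hN2, map_add, LinearMap.mem_ker.mp hk, zero_add]
      exact h6
    have h6 : N v.1 = 0 := Helper13.sympForm_sep _ h5
    have h7 : v.1 ∈ LinearMap.ker N ⊓ C := ⟨LinearMap.mem_ker.mpr h6, v.2⟩
    rw [hC.inf_eq_bot] at h7
    exact Subtype.ext ((Submodule.mem_bot F).mp h7)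
  exact Helper36.even_finrank_of_alt m ↥C B halt hnd hfC

end Invol2

section Main

variable {F : Type*} [Field F] [Fintype F] [CharP F 2] {m : ℕ} {Q : (Fin m ⊕ Fin m → F) → F}

/-- every involution of the symplectic group has a conjugate preserving `Q` when `Q` is of plus type
or `m` is odd -/
theorem bgso_invol (hQ : QS Q) {x : GL (Fin m ⊕ Fin m) F} (hx : x ∈ spGL m F)
    (hxx : ∀ v : Fin m ⊕ Fin m → F, x.1 *ᵥ (x.1 *ᵥ v) = v)
    (hcase : IsPlusTypeOn Q ⊤ ∨ Odd m) :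
    ∃ g ∈ spGL m F, g⁻¹ * x * g ∈ quadSimilarityGroup Q := by
  obtain ⟨c, φc, hφc, hc⟩ := qs_cocycle hQ hx
  obtain ⟨N, hN⟩ : ∃ N : (Fin m ⊕ Fin m → F) →ₗ[F] (Fin m ⊕ Fin m → F),
      ∀ v, N v = x.1 *ᵥ v + v :=
    ⟨Matrix.toLin' (x.1 + 1), fun v => by rw [Matrix.toLin'_apply, Matrix.add_mulVec, one_mulVec]⟩
  have hN2 : ∀ u v, sympForm m F (N u) v = sympForm m F u (N v) := by
    intro u v
    have h1 := sp_apply hx (x.1 *ᵥ u) v
    rw [hxx] at h1
    rw [hN, hN, sf_add_left, sf_add_right, h1]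
  have hNN : ∀ v, N (N v) = 0 := by
    intro v
    rw [hN, hN, mulVec_add, hxx, add_comm v (x.1 *ᵥ v)]
    exact bgso_vadd_self hQ.two _
  have hfixk : ∀ k, k ∈ LinearMap.ker N → x.1 *ᵥ k = k := by
    intro k hk
    have h1 : x.1 *ᵥ k + k = 0 := by rw [← hN]; exact LinearMap.mem_ker.mp hk
    have h2 : x.1 *ᵥ k = -k := eq_neg_of_add_eq_zero_left h1
    rw [h2]
    exact neg_eq_of_add_eq_zero_left (bgso_vadd_self hQ.two k)
  have hQN : ∀ w, Q (N w) = (sympForm m F c w) ^ 2 + sympForm m F (N w) w := by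
    intro w
    rw [hN, hQ.add, hc, sf_add_left, sf_self]
    linear_combination (Q w) * hQ.two
  have hrange := bgso_range_eq_perp N hN2
  obtain ⟨a₀, hNa₀⟩ : ∃ a₀, N a₀ = c := by
    have h1 : c ∈ LinearMap.range N := by
      rw [hrange, mem_perp]
      intro k hk
      have h2 := hc k
      rw [hfixk k hk] at h2
      have h3 : (sympForm m F c k) ^ 2 = 0 := by linear_combination -h2
      rw [sf_swap, (pow_eq_zero_iff two_ne_zero).mp h3, neg_zero]
    exact h1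
  have ha₀ : x.1 *ᵥ a₀ + a₀ = c := by rw [← hN]; exact hNa₀
  by_cases h1 : ∃ v, sympForm m F v (N v) ≠ 0
  · obtain ⟨v, hv⟩ := h1
    have hv' : sympForm m F (N v) v ≠ 0 := by
      rw [sf_swap]
      exact neg_ne_zero.mpr hv
    obtain ⟨t, ht⟩ := hQ.sq (Q a₀ / sympForm m F (N v) v)
    have ht' : t ^ 2 * sympForm m F (N v) v = Q a₀ := by rw [ht, div_mul_cancel₀ _ hv']
    have hxN : x.1 *ᵥ N v = N v := hfixk _ (LinearMap.mem_ker.mpr (hNN v))
    refine bgso_conj_of_vec hQ hx hxx c hc (a₀ + t • N v) ?_ (t * sympForm m F c v) ?_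
    · rw [mulVec_add, mulVec_smul, hxN, ← ha₀]
      have e1 := bgso_vadd_self hQ.two (t • N v)
      calc x.1 *ᵥ a₀ + t • N v + (a₀ + t • N v)
          = (x.1 *ᵥ a₀ + a₀) + (t • N v + t • N v) := by abel
        _ = x.1 *ᵥ a₀ + a₀ := by rw [e1, add_zero]
    · rw [hQ.add, hQ.smul, sf_smul_right, hQN, ← hN2, hNa₀]
      linear_combination ht' + (Q a₀) * hQ.two
  push Not at h1
  by_cases h2 : ∃ k₁ k₂ : Fin m ⊕ Fin m → F, x.1 *ᵥ k₁ = k₁ ∧ x.1 *ᵥ k₂ = k₂ ∧
      sympForm m F k₁ k₂ ≠ 0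
  · obtain ⟨k₁, k₂, hk₁, hk₂, hβ⟩ := h2
    have key : ∀ s t : F, x.1 *ᵥ (a₀ + s • k₁ + t • k₂) + (a₀ + s • k₁ + t • k₂) = c := by
      intro s t
      rw [mulVec_add, mulVec_add, mulVec_smul, mulVec_smul, hk₁, hk₂, ← ha₀]
      have e1 := bgso_vadd_self hQ.two (s • k₁)
      have e2 := bgso_vadd_self hQ.two (t • k₂)
      calc x.1 *ᵥ a₀ + s • k₁ + t • k₂ + (a₀ + s • k₁ + t • k₂)
          = (x.1 *ᵥ a₀ + a₀) + (s • k₁ + s • k₁) + (t • k₂ + t • k₂) := by abel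
        _ = x.1 *ᵥ a₀ + a₀ := by rw [e1, e2, add_zero, add_zero]
    have hQa : ∀ s t : F, Q (a₀ + s • k₁ + t • k₂) = Q a₀ + s ^ 2 * Q k₁ + t ^ 2 * Q k₂ +
        s * t * sympForm m F k₁ k₂ + s * sympForm m F a₀ k₁ + t * sympForm m F a₀ k₂ := by
      intro s t
      simp only [hQ.add, hQ.smul, sf_add_left, sf_smul_left, sf_smul_right]
      ring
    by_cases hQk : Q k₁ = 0
    · obtain ⟨t, ht⟩ : ∃ t : F, t * sympForm m F k₁ k₂ = sympForm m F a₀ k₁ + 1 :=
        ⟨(sympForm m F a₀ k₁ + 1) / sympForm m F k₁ k₂, div_mul_cancel₀ _ hβ⟩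
      obtain ⟨s, hs⟩ : ∃ s : F, s = Q a₀ + t ^ 2 * Q k₂ + t * sympForm m F a₀ k₂ := ⟨_, rfl⟩
      refine bgso_conj_of_vec hQ hx hxx c hc (a₀ + s • k₁ + t • k₂) (key s t) 0 ?_
      rw [hQa]
      linear_combination s ^ 2 * hQk - hs + s * ht + (s + s * sympForm m F a₀ k₁) * hQ.two
    · obtain ⟨t, ht⟩ : ∃ t : F, t * sympForm m F k₁ k₂ = sympForm m F a₀ k₁ :=
        ⟨sympForm m F a₀ k₁ / sympForm m F k₁ k₂, div_mul_cancel₀ _ hβ⟩
      obtain ⟨s, hs⟩ := hQ.sq ((Q a₀ + t ^ 2 * Q k₂ + t * sympForm m F a₀ k₂) / Q k₁)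
      have hs' : s ^ 2 * Q k₁ = Q a₀ + t ^ 2 * Q k₂ + t * sympForm m F a₀ k₂ := by
        rw [hs, div_mul_cancel₀ _ hQk]
      refine bgso_conj_of_vec hQ hx hxx c hc (a₀ + s • k₁ + t • k₂) (key s t) 0 ?_
      rw [hQa]
      linear_combination hs' + s * ht +
        (Q a₀ + t ^ 2 * Q k₂ + t * sympForm m F a₀ k₂ + s * sympForm m F a₀ k₁) * hQ.two
  push Not at h2
  have hker_le : LinearMap.ker N ≤ LinearMap.range N := by
    rw [hrange]
    intro k hk
    rw [mem_perp]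
    intro k' hk'
    exact h2 k' k (hfixk k' hk') (hfixk k hk)
  have hrange_le : LinearMap.range N ≤ LinearMap.ker N := by
    rintro _ ⟨u, rfl⟩
    exact LinearMap.mem_ker.mpr (hNN u)
  have hrk := LinearMap.finrank_range_add_finrank_ker N
  rw [Module.finrank_fintype_fun_eq_card, Fintype.card_sum, Fintype.card_fin] at hrk
  have hf1 := Submodule.finrank_mono hker_le
  have hf2 := Submodule.finrank_mono hrange_le
  have hfr : Module.finrank F (LinearMap.range N) = m := by omega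
  have hfk : Module.finrank F (LinearMap.ker N) = m := by omega
  rcases hcase with hplus | hodd
  · obtain ⟨U, -, hU, hUf⟩ := hplus
    rw [finrank_top, Module.finrank_fintype_fun_eq_card, Fintype.card_sum, Fintype.card_fin] at hUf
    have hS := bgsoS_of_ts hQ U hU (by omega)
    have hQ' := bgso_qs_shift hQ a₀
    have hS' := bgsoS_of_ts hQ' (LinearMap.range N) (by
      rintro _ ⟨u, rfl⟩
      show Q (N u) + (sympForm m F a₀ (N u)) ^ 2 = 0
      rw [hQN, ← hN2, hNa₀, sf_swap (N u) u, h1 u]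
      linear_combination (sympForm m F c u) ^ 2 * hQ.two) hfr
    rw [bgsoS_shift hQ a₀, hS] at hS'
    have hχ : bgsoChi (Q a₀) = 1 := by
      have hpos : ((Fintype.card F : ℤ)) ^ m ≠ 0 :=
        pow_ne_zero _ (by exact_mod_cast Fintype.card_ne_zero)
      have h3 : (bgsoChi (Q a₀) - 1) * (Fintype.card F : ℤ) ^ m = 0 := by linear_combination hS'
      rcases mul_eq_zero.mp h3 with h | h
      · linarith
      · exact absurd h hpos
    obtain ⟨φ, hφ⟩ := (bgsoChi_eq_one_iff _).mp hχ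
    exact bgso_conj_of_vec hQ hx hxx c hc a₀ ha₀ φ hφ
  · exact absurd (bgso_even_of_atype N hN2 h1 hfk) (Nat.not_even_iff_odd.mpr hodd)

end Main

end Cfsg.Agent.Helper30
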