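import Mathlib

set_option autoImplicit false

/-!
# Fixed-point-free matrices of prime order (helper30)

`bgSinger_exists`: over a finite field `F` with `q` elements, if the prime `r` divides `q ^ d - 1`
there is a `d × d` matrix `A` with `A ^ r = 1` and `A - 1` invertible (multiplication by an element
of order `r` of the extension field of degree `d`).
-/

namespace Cfsg.Agent.Helper30

open Matrix

theorem bgSinger_exists {F : Type*} [Field F] [Fintype F] (p : ℕ) [Fact p.Prime] [CharP F p]
    (d : ℕ) [NeZero d] (r : ℕ) [Fact r.Prime] (hr : r ∣ Fintype.card F ^ d - 1) :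
    ∃ A : Matrix (Fin d) (Fin d) F, A ^ r = 1 ∧ (A - 1).det ≠ 0 := by
  classical
  have hfin : Module.finrank F (FiniteField.Extension F p d) = d :=
    FiniteField.finrank_extension F p d
  have hcard : Nat.card (FiniteField.Extension F p d) = Fintype.card F ^ d := by
    rw [FiniteField.natCard_extension, Nat.card_eq_fintype_card]
  have hcardU : Nat.card (FiniteField.Extension F p d)ˣ = Fintype.card F ^ d - 1 := by
    rw [Nat.card_units, hcard]
  obtain ⟨ω, hω⟩ := exists_prime_orderOf_dvd_card' (G := (FiniteField.Extension F p d)ˣ) r
    (by rw [hcardU]; exact hr)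
  have hω1 : (ω : FiniteField.Extension F p d) ≠ 1 := by
    intro h
    have h1 : ω = 1 := Units.ext h
    rw [h1, orderOf_one] at hω
    exact (Fact.out : r.Prime).ne_one hω.symm
  have hωr : (ω : FiniteField.Extension F p d) ^ r = 1 := by
    rw [← Units.val_pow_eq_pow_val, ← hω, pow_orderOf_eq_one, Units.val_one]
  let b : Module.Basis (Fin d) F (FiniteField.Extension F p d) := Module.finBasisOfFinrankEq F _ hfin
  let T : FiniteField.Extension F p d →ₗ[F] FiniteField.Extension F p d :=
    LinearMap.mulLeft F (ω : FiniteField.Extension F p d)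
  have hTr : T ^ r = 1 := by
    have hpow : ∀ (k : ℕ) (y : FiniteField.Extension F p d),
        (T ^ k) y = (ω : FiniteField.Extension F p d) ^ k * y := by
      intro k
      induction k with
      | zero => intro y; simp
      | succ k ih =>
        intro y
        rw [pow_succ, Module.End.mul_apply, ih, pow_succ, mul_assoc]
        rfl
    apply LinearMap.ext
    intro y
    rw [hpow, hωr, one_mul]
    rfl
  refine ⟨LinearMap.toMatrixAlgEquiv b T, ?_, ?_⟩
  · rw [← map_pow, hTr, map_one]
  · have h1 : LinearMap.toMatrixAlgEquiv b T - 1 = LinearMap.toMatrix b b (T - 1) := by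
      rw [← map_one (LinearMap.toMatrixAlgEquiv b), ← map_sub]
      rfl
    rw [h1, LinearMap.det_toMatrix]
    have hc : (ω : FiniteField.Extension F p d) - 1 ≠ 0 := sub_ne_zero.mpr hω1
    have h2 : T - 1 = LinearMap.mulLeft F ((ω : FiniteField.Extension F p d) - 1) := by
      apply LinearMap.ext
      intro y
      show (ω : FiniteField.Extension F p d) * y - y = ((ω : FiniteField.Extension F p d) - 1) * y
      ring
    have h3 : LinearMap.mulLeft F ((ω : FiniteField.Extension F p d) - 1) *
        LinearMap.mulLeft F ((ω : FiniteField.Extension F p d) - 1)⁻¹ = 1 := by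
      apply LinearMap.ext
      intro y
      show ((ω : FiniteField.Extension F p d) - 1) * (((ω : FiniteField.Extension F p d) - 1)⁻¹ * y) = y
      rw [← mul_assoc, mul_inv_cancel₀ hc, one_mul]
    have h4 := congrArg LinearMap.det h3
    rw [map_mul, map_one] at h4
    rw [h2]
    intro h0
    rw [h0, zero_mul] at h4
    exact zero_ne_one h4

end Cfsg.Agent.Helper30
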