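import Mathlib

set_option autoImplicit false

/-!
# Arithmetic for the number of pairs of complementary Lagrangians (helper30)
-/

namespace Cfsg.Agent.Helper30

theorem bgSp_gl_prod (q n : ℕ) : ∏ i ∈ Finset.range n, (q ^ n - q ^ i) =
    q ^ (∑ i ∈ Finset.range n, i) * ∏ k ∈ Finset.range n, (q ^ (k + 1) - 1) := by
  have h1 : ∀ i ∈ Finset.range n, q ^ n - q ^ i = q ^ i * (q ^ (n - 1 - i + 1) - 1) := by
    intro i hi
    have hi' := Finset.mem_range.mp hi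
    have h2 : n - 1 - i + 1 = n - i := by omega
    rw [h2, Nat.mul_sub, mul_one, ← pow_add]
    congr 2
    omega
  rw [Finset.prod_congr rfl h1, Finset.prod_mul_distrib, Finset.prod_pow_eq_pow_sum,
    Finset.prod_range_reflect (fun j => q ^ (j + 1) - 1) n]

theorem bgSp_sq_eq_sum (d : ℕ) :
    d ^ 2 = (∑ i ∈ Finset.range d, i) + ∑ i ∈ Finset.range d, (i + 1) := by
  induction d with
  | zero => simp
  | succ d ih =>
    rw [Finset.sum_range_succ, Finset.sum_range_succ]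
    have h1 : (d + 1) ^ 2 = d ^ 2 + 2 * d + 1 := by ring
    omega

/-- the number `N` of pairs, from `N * |GL_d(q)| = |Sp_{2d}(q)|` -/
theorem bgSp_pairs_arith (q d N : ℕ) (hq : 2 ≤ q)
    (h : N * ∏ i : Fin d, (q ^ d - q ^ (i : ℕ)) =
      q ^ (d ^ 2) * ∏ i ∈ Finset.range d, (q ^ (2 * (i + 1)) - 1)) :
    N = q ^ (∑ i ∈ Finset.range d, (i + 1)) * ∏ i ∈ Finset.range d, (q ^ (i + 1) + 1) := by
  rw [Fin.prod_univ_eq_prod_range (fun i => q ^ d - q ^ i) d, bgSp_gl_prod] at h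
  have h1 : ∀ i ∈ Finset.range d, q ^ (2 * (i + 1)) - 1 = (q ^ (i + 1) - 1) * (q ^ (i + 1) + 1) := by
    intro i _
    have hx : 1 ≤ q ^ (i + 1) := Nat.one_le_pow _ _ (by omega)
    obtain ⟨y, hy⟩ := Nat.exists_eq_add_of_le' hx
    rw [Nat.mul_comm 2, pow_mul, hy]
    apply Nat.sub_eq_of_eq_add
    rw [Nat.add_sub_cancel]
    ring
  rw [Finset.prod_congr rfl h1, Finset.prod_mul_distrib, bgSp_sq_eq_sum d, pow_add] at h
  have hA : 0 < ∏ k ∈ Finset.range d, (q ^ (k + 1) - 1) := by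
    apply Finset.prod_pos
    intro k _
    have : 2 ≤ q ^ (k + 1) := by
      calc 2 ≤ q := hq
        _ = q ^ 1 := (pow_one q).symm
        _ ≤ q ^ (k + 1) := Nat.pow_le_pow_right (by omega) (by omega)
    omega
  have hqs : 0 < q ^ (∑ i ∈ Finset.range d, i) := Nat.pow_pos (by omega)
  apply Nat.eq_of_mul_eq_mul_right (Nat.mul_pos hqs hA)
  rw [h]
  ring

/-- an odd prime `r` prime to `q` dividing half the number of pairs divides some `q^e + 1` -/
theorem bgSp_exists_exp (q d N r : ℕ) (hq : 2 ≤ q) (hqodd : Odd q) (hd : 1 ≤ d) (hr : r.Prime)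
    (hrq : ¬ r ∣ q)
    (h : N * ∏ i : Fin d, (q ^ d - q ^ (i : ℕ)) =
      q ^ (d ^ 2) * ∏ i ∈ Finset.range d, (q ^ (2 * (i + 1)) - 1))
    (hrN : r ∣ N / 2) : ∃ e, 1 ≤ e ∧ e ≤ d ∧ r ∣ q ^ e + 1 := by
  have hN := bgSp_pairs_arith q d N hq h
  have h2B : 2 ∣ ∏ i ∈ Finset.range d, (q ^ (i + 1) + 1) := by
    have h0 : 0 ∈ Finset.range d := Finset.mem_range.mpr (by omega)
    refine dvd_trans ?_ (Finset.dvd_prod_of_mem (fun i => q ^ (i + 1) + 1) h0)
    obtain ⟨m, hm⟩ := hqodd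
    exact ⟨m + 1, by rw [zero_add, pow_one, hm]; ring⟩
  have h2N : 2 ∣ N := by
    rw [hN]
    exact Dvd.dvd.mul_left h2B _
  have hrN' : r ∣ N := dvd_trans hrN (Nat.div_dvd_of_dvd h2N)
  rw [hN] at hrN'
  rcases (Nat.Prime.dvd_mul hr).mp hrN' with h1 | h1
  · exact absurd (hr.dvd_of_dvd_pow h1) hrq
  · obtain ⟨i, hi, hri⟩ := (Prime.dvd_finsetProd_iff hr.prime _).mp h1
    exact ⟨i + 1, by omega, by have := Finset.mem_range.mp hi; omega, hri⟩

end Cfsg.Agent.Helper30
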