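import Cfsg.Agent.Helper30.JordanField

/-!
# From a Jordan division set to a finite field

Complements to `JordanField`: a pair of additive subgroups inverse to each other, and the finite
field (of type `GaloisField 2 n`) whose image is a given Jordan division set.
-/

set_option autoImplicit false
set_option linter.unusedSimpArgs false
set_option linter.unnecessarySimpa false
set_option linter.unusedVariables false
set_option linter.style.haveILetI false

namespace Cfsg.Agent.Helper30

section FieldOfJordan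

variable {R : Type*} [Ring R]

/-- If `S ∋ 1` and `T` are additive subgroups (characteristic `2`) such that the nonzero elements
of each are the inverses of the nonzero elements of the other, then `S` is closed under inverses
and `T = S`. -/
theorem jordanDiv_of_pair [CharP R 2] (S T : AddSubgroup R) (h1 : (1 : R) ∈ S)
    (hST : ∀ s ∈ S, s ≠ 0 → ∃ t ∈ T, s * t = 1 ∧ t * s = 1)
    (hTS : ∀ t ∈ T, t ≠ 0 → ∃ s ∈ S, s * t = 1 ∧ t * s = 1) : JordanDiv S ∧ T = S := by
  by_cases hR : (1 : R) = 0
  · have h0 : ∀ x : R, x = 0 := fun x => by rw [← mul_one x, hR, mul_zero]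
    refine ⟨⟨h1, fun s _ hs => absurd (h0 s) hs⟩, ?_⟩
    ext x
    rw [h0 x]
    exact ⟨fun _ => S.zero_mem, fun _ => T.zero_mem⟩
  have aux : ∀ s ∈ S, s ≠ 0 → s ≠ 1 → ∃ r ∈ S, (1 + s) * r = 1 ∧ r * (1 + s) = 1 := by
    intro s hs hs0 hs1
    obtain ⟨t1, ht1, hst1, ht1s⟩ := hST s hs hs0
    have h1T : (1 : R) ∈ T := by
      obtain ⟨t, ht, h2, _⟩ := hST 1 h1 hR
      rw [one_mul] at h2
      rw [← h2]; exact ht
    have hne : t1 + 1 ≠ 0 := by
      intro h
      have h2 : t1 = 1 := CharTwo.add_eq_zero.mp h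
      rw [h2, mul_one] at hst1
      exact hs1 hst1
    obtain ⟨s2, hs2, h21, h12⟩ := hTS (t1 + 1) (T.add_mem ht1 h1T) hne
    refine ⟨1 + s2, S.add_mem h1 hs2, ?_, ?_⟩
    · have e1 : 1 + s = s * (t1 + 1) := by rw [mul_add, hst1, mul_one]
      have e2 : (1 + s) * s2 = s := by rw [e1, mul_assoc, h12, mul_one]
      rw [mul_add, mul_one, e2, add_assoc, CharTwo.add_self_eq_zero, add_zero]
    · have e3 : 1 + s = (t1 + 1) * s := by rw [add_mul, ht1s, one_mul]
      have e4 : s2 * (1 + s) = s := by rw [e3, ← mul_assoc, h21, one_mul]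
      rw [add_mul, one_mul, e4, add_assoc, CharTwo.add_self_eq_zero, add_zero]
  have inv : ∀ s ∈ S, s ≠ 0 → ∃ s' ∈ S, s * s' = 1 ∧ s' * s = 1 := by
    intro s hs hs0
    by_cases hs1 : s = 1
    · exact ⟨1, h1, by rw [hs1, mul_one], by rw [hs1, mul_one]⟩
    have h2 : 1 + s ≠ 0 := fun h => hs1 (CharTwo.add_eq_zero.mp h).symm
    have h3 : 1 + s ≠ 1 := fun h => hs0 (add_eq_left.mp h)
    obtain ⟨r, hr, hr1, hr2⟩ := aux (1 + s) (S.add_mem h1 hs) h2 h3
    have e : 1 + (1 + s) = s := by rw [← add_assoc, CharTwo.add_self_eq_zero, zero_add]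
    rw [e] at hr1 hr2
    exact ⟨r, hr, hr1, hr2⟩
  refine ⟨⟨h1, inv⟩, le_antisymm ?_ ?_⟩
  · intro t ht
    by_cases ht0 : t = 0
    · rw [ht0]; exact S.zero_mem
    obtain ⟨s, hs, hst, hts⟩ := hTS t ht ht0
    have hs0 : s ≠ 0 := by
      intro h
      rw [h, zero_mul] at hst
      exact hR hst.symm
    obtain ⟨s', hs', hss', hs's⟩ := inv s hs hs0
    have e : t = s' := by
      calc t = (s' * s) * t := by rw [hs's, one_mul]
        _ = s' := by rw [mul_assoc, hst, mul_one]
    rw [e]; exact hs'
  · intro s hs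
    by_cases hs0 : s = 0
    · rw [hs0]; exact T.zero_mem
    obtain ⟨s', hs', hss', hs's⟩ := inv s hs hs0
    have hs'0 : s' ≠ 0 := by
      intro h
      rw [h, mul_zero] at hss'
      exact hR hss'.symm
    obtain ⟨t, ht, h2, h3⟩ := hST s' hs' hs'0
    have e : s = t := by
      calc s = s * (s' * t) := by rw [h2, mul_one]
        _ = t := by rw [← mul_assoc, hss', one_mul]
    rw [e]; exact ht

/-- A Jordan division set of order `2 ^ n` in a finite ring of characteristic `2` is the image
of the field with `2 ^ n` elements under an injective ring homomorphism. -/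
theorem exists_field_of_jordanDiv [Finite R] [CharP R 2] {S : AddSubgroup R} (hS : JordanDiv S)
    {n : ℕ} (hn : n ≠ 0) (hcard : Nat.card S = 2 ^ n) :
    ∃ (F : Type) (_ : Field F) (_ : Fintype F) (ψ : F →+* R),
      Function.Injective ψ ∧ Set.range ψ = (S : Set R) ∧ Fintype.card F = 2 ^ n := by
  haveI : Fact (Nat.Prime 2) := ⟨Nat.prime_two⟩
  let K : Subring R :=
    { carrier := S
      mul_mem' := fun ha hb => hS.mul_mem ha hb
      one_mem' := hS.one_mem
      add_mem' := S.add_mem
      zero_mem' := S.zero_mem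
      neg_mem' := S.neg_mem }
  have hKcard : Nat.card ↥K = 2 ^ n := by
    rw [← hcard]
    exact Nat.card_congr (Equiv.subtypeEquivRight (fun x => Iff.rfl))
  haveI : Nontrivial ↥K := by
    have h2 : 1 < Nat.card ↥K := by
      rw [hKcard]
      exact Nat.one_lt_two_pow hn
    exact Finite.one_lt_card_iff_nontrivial.mp h2
  haveI : NoZeroDivisors ↥K := ⟨by
    intro u v huv
    by_contra hcon
    push Not at hcon
    have hu : IsUnit (u : R) := hS.isUnit u.2 (by intro h0; exact hcon.1 (Subtype.ext h0))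
    have hv : IsUnit (v : R) := hS.isUnit v.2 (by intro h0; exact hcon.2 (Subtype.ext h0))
    have h0 : (u : R) * (v : R) = 0 := by exact_mod_cast congrArg Subtype.val huv
    have h1 : IsUnit (0 : R) := h0 ▸ hu.mul hv
    have h2 : (0 : R) = 1 := by
      obtain ⟨w, hw⟩ := h1
      have := w.mul_inv
      rw [hw, zero_mul] at this
      exact this
    apply hcon.1
    apply Subtype.ext
    show (u : R) = 0
    rw [← mul_one (u : R), ← h2, mul_zero]⟩
  haveI : IsDomain ↥K := NoZeroDivisors.to_isDomain _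
  have hf := Finite.isDomain_to_isField ↥K
  letI : Field ↥K := hf.toField
  letI : Fintype ↥K := Fintype.ofFinite _
  letI : Fintype (GaloisField 2 n) := Fintype.ofFinite _
  have hc : Fintype.card (GaloisField 2 n) = Fintype.card ↥K := by
    rw [← Nat.card_eq_fintype_card, ← Nat.card_eq_fintype_card, GaloisField.card 2 n hn, hKcard]
  let e : GaloisField 2 n ≃+* ↥K := FiniteField.ringEquivOfCardEq hc
  refine ⟨GaloisField 2 n, inferInstance, inferInstance, K.subtype.comp (e : GaloisField 2 n →+* ↥K),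
    ?_, ?_, ?_⟩
  · intro x y hxy
    apply e.injective
    apply Subtype.ext
    exact hxy
  · ext x
    constructor
    · rintro ⟨y, rfl⟩
      exact (e y).2
    · intro hx
      refine ⟨e.symm ⟨x, hx⟩, ?_⟩
      show ((e (e.symm ⟨x, hx⟩) : ↥K) : R) = x
      rw [e.apply_symm_apply]
  · rw [← Nat.card_eq_fintype_card, GaloisField.card 2 n hn]

end FieldOfJordan

end Cfsg.Agent.Helper30
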