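-- helper30: assembly of S2701 (involutory graph automorphisms of PSL_n(F), n = 2m even, F finite of
-- characteristic 2): two Inndiag-classes `grph J` and `grph 1`, with centralisers `Sp_n(F)` and
-- the centraliser of a transvection.  Built on helper43's dictionary (Helper43/GraphAut),
-- Helper44.lang_centralizer_iso, Helper51.alt_congr, Helper61.sym_congr_one_char2 and
-- helper14's pieces NE1/NE2 on the matrix `1 + E`.
import Mathlib
import Cfsg.Agent.Helper43.GraphAut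
import Cfsg.Agent.Helper51.GAAltCongr
import Cfsg.Agent.Helper30.GA2Defs
import Cfsg.Agent.Helper14.GA2NE1
import Cfsg.Agent.Helper14.GA2NE2
import Cfsg.Agent.Helper61.GBChar2Orth

set_option autoImplicit false
set_option linter.unusedSectionVars false
set_option linter.unusedVariables false

namespace Cfsg.Agent.Helper30.GA2

open Matrix Cfsg.Agent.Helper44.PSLn Cfsg.Agent.Helper43.GraphAut

universe u

variable {n m : ℕ} {F : Type u} [Field F]

/-! ### reindexing -/

theorem rx_mul {ι κ : Type*} [Fintype ι] [Fintype κ] [DecidableEq ι] [DecidableEq κ] (e : ι ≃ κ)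
    (A B : Matrix ι ι F) :
    Matrix.reindex e e (A * B) = Matrix.reindex e e A * Matrix.reindex e e B := by
  simp only [Matrix.reindex_apply]
  rw [Matrix.submatrix_mul_equiv]

theorem rx_transpose {ι κ : Type*} (e : ι ≃ κ) (A : Matrix ι ι F) :
    (Matrix.reindex e e A)ᵀ = Matrix.reindex e e Aᵀ := by
  simp only [Matrix.reindex_apply]
  rw [Matrix.transpose_submatrix]

theorem rx_one {ι κ : Type*} [DecidableEq ι] [DecidableEq κ] (e : ι ≃ κ) :
    Matrix.reindex e e (1 : Matrix ι ι F) = 1 := by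
  simp only [Matrix.reindex_apply]
  rw [Matrix.submatrix_one_equiv]

theorem rx_smul {ι κ : Type*} (e : ι ≃ κ) (c : F) (A : Matrix ι ι F) :
    Matrix.reindex e e (c • A) = c • Matrix.reindex e e A := by
  simp only [Matrix.reindex_apply]
  rfl

theorem rx_sub {ι κ : Type*} (e : ι ≃ κ) (A B : Matrix ι ι F) :
    Matrix.reindex e e (A - B) = Matrix.reindex e e A - Matrix.reindex e e B := by
  simp only [Matrix.reindex_apply]
  rfl

theorem rx_symm_rx {ι κ : Type*} (e : ι ≃ κ) (A : Matrix ι ι F) :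
    Matrix.reindex e.symm e.symm (Matrix.reindex e e A) = A := by
  ext i j
  simp [Matrix.reindex_apply]

theorem rx_rx_symm {ι κ : Type*} (e : ι ≃ κ) (A : Matrix κ κ F) :
    Matrix.reindex e e (Matrix.reindex e.symm e.symm A) = A := by
  ext i j
  simp [Matrix.reindex_apply]

/-! ### characteristic two -/

theorem ga2_sqrt [Fintype F] [CharP F 2] (c : F) : ∃ d : F, d * d = c := by
  obtain ⟨d, hd⟩ := FiniteField.isSquare_of_char_two (ringChar.eq F 2) c
  exact ⟨d, hd.symm⟩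

theorem ga2_sq_one [CharP F 2] {c : F} (h : c * c = 1) : c = 1 := by
  have h1 : (c + 1) * (c + 1) = 0 := by
    have h2 : c + c = 0 := CharTwo.add_self_eq_zero c
    have h3 : (1 : F) + 1 = 0 := CharTwo.add_self_eq_zero 1
    linear_combination h + h2 + h3
  have h4 : c + 1 = 0 := by
    rcases mul_eq_zero.mp h1 with h5 | h5 <;> exact h5
  have h3 : (1 : F) + 1 = 0 := CharTwo.add_self_eq_zero 1
  linear_combination h4 - h3

theorem ga2_neg [CharP F 2] {ι : Type*} (A : Matrix ι ι F) : -A = A := by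
  ext i j
  exact CharTwo.neg_eq _

/-! ### the standard alternating matrix on `Fin n` -/

/-- `J` transported to `Fin n` -/
def Jn (e : Fin m ⊕ Fin m ≃ Fin n) (F : Type u) [Field F] : Mn n F :=
  Matrix.reindex e e (Matrix.J (Fin m) F)

theorem Jn_transpose (e : Fin m ⊕ Fin m ≃ Fin n) : (Jn e F)ᵀ = -Jn e F := by
  unfold Jn
  rw [rx_transpose, Matrix.J_transpose]
  rfl

theorem Jn_diag (e : Fin m ⊕ Fin m ≃ Fin n) (i : Fin n) : Jn e F i i = 0 := by
  unfold Jn
  rw [Matrix.reindex_apply, Matrix.submatrix_apply]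
  rcases e.symm i with a | a <;> simp [Matrix.J]

theorem Jn_mul_self (e : Fin m ⊕ Fin m ≃ Fin n) : Jn e F * Jn e F = -1 := by
  unfold Jn
  rw [← rx_mul, Matrix.J_squared]
  have : Matrix.reindex e e (-1 : Matrix (Fin m ⊕ Fin m) (Fin m ⊕ Fin m) F)
      = -Matrix.reindex e e (1 : Matrix (Fin m ⊕ Fin m) (Fin m ⊕ Fin m) F) := rfl
  rw [this, rx_one]

/-- `J` as an invertible matrix -/
def JG (e : Fin m ⊕ Fin m ≃ Fin n) (F : Type u) [Field F] : GL (Fin n) F :=
  ⟨Jn e F, -Jn e F, by rw [Matrix.mul_neg, Jn_mul_self, neg_neg],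
    by rw [Matrix.neg_mul, Jn_mul_self, neg_neg]⟩

theorem JG_coe (e : Fin m ⊕ Fin m ≃ Fin n) : ((JG e F : GL (Fin n) F) : Mn n F) = Jn e F := rfl

theorem ga2_diag_congr {ι : Type*} [Fintype ι] (A k : Matrix ι ι F) (i : ι) :
    (kᵀ * A * k) i i = (fun a => k a i) ⬝ᵥ (A *ᵥ fun a => k a i) := by
  rw [Matrix.mul_assoc, Matrix.mul_apply]
  rfl

theorem ga2_GL_mul_inv (k : GL (Fin n) F) :
    (k : Mn n F) * ((k⁻¹ : GL (Fin n) F) : Mn n F) = 1 := by
  rw [← Units.val_mul, mul_inv_cancel, Units.val_one]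

theorem ga2_GL_inv_mul (k : GL (Fin n) F) :
    ((k⁻¹ : GL (Fin n) F) : Mn n F) * (k : Mn n F) = 1 := by
  rw [← Units.val_mul, inv_mul_cancel, Units.val_one]

/-- undoing a congruence -/
theorem ga2_congr_inv (k : GL (Fin n) F) (M M' : Mn n F)
    (h : (k : Mn n F)ᵀ * M * (k : Mn n F) = M') :
    M = ((k⁻¹ : GL (Fin n) F) : Mn n F)ᵀ * M' * ((k⁻¹ : GL (Fin n) F) : Mn n F) := by
  rw [← h]
  have h1 := ga2_GL_mul_inv k
  have h2 : ((k⁻¹ : GL (Fin n) F) : Mn n F)ᵀ * (k : Mn n F)ᵀ = 1 := by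
    rw [← Matrix.transpose_mul, h1, Matrix.transpose_one]
  calc M = (((k⁻¹ : GL (Fin n) F) : Mn n F)ᵀ * (k : Mn n F)ᵀ) * M
        * ((k : Mn n F) * ((k⁻¹ : GL (Fin n) F) : Mn n F)) := by
        rw [h1, h2, Matrix.one_mul, Matrix.mul_one]
    _ = _ := by simp only [Matrix.mul_assoc]

/-! ### the two classes -/

theorem ga2_not_conj [CharP F 2] (hn : 2 ≤ n) (e : Fin m ⊕ Fin m ≃ Fin n) :
    ¬ Cfsg.IsConjUnder (Cfsg.inndiagPSL n F) (grph (JG e F)) (grph 1) := by
  rw [isConjUnder_grph hn]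
  rintro ⟨k, c, hc⟩
  have h1 := congrFun (congrFun hc ⟨0, by omega⟩) ⟨0, by omega⟩
  rw [Units.val_one, Matrix.one_apply_eq, Matrix.smul_apply, JG_coe, ga2_diag_congr,
    Cfsg.Agent.Helper51.ga_alt_self (Jn e F) (Jn_transpose e) (Jn_diag e), smul_zero] at h1
  exact one_ne_zero h1

theorem ga2_classify [Fintype F] [CharP F 2] (hn : 3 ≤ n) (e : Fin m ⊕ Fin m ≃ Fin n)
    (γ : MulAut (PSLn n F)) (hγ : Cfsg.IsGraphAutClassPSL γ) (h2 : orderOf γ = 2) :
    Cfsg.IsConjUnder (Cfsg.inndiagPSL n F) (grph (JG e F)) γ ∨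
      Cfsg.IsConjUnder (Cfsg.inndiagPSL n F) (grph 1) γ := by
  obtain ⟨M, rfl⟩ := exists_grph γ hγ
  have hs : (M : Mn n F)ᵀ = (M : Mn n F) := by
    rcases (orderOf_grph hn M).mp h2 with h | h
    · exact h
    · rw [h, ga2_neg]
  have hdet : (M : Mn n F).det ≠ 0 :=
    ((Matrix.isUnit_iff_isUnit_det _).mp M.isUnit).ne_zero
  by_cases hd : ∀ i, (M : Mn n F) i i = 0
  · left
    obtain ⟨k, hk⟩ := Cfsg.Agent.Helper51.alt_congr e (M : Mn n F) hdet
      (by rw [hs, ga2_neg]) hd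
    rw [isConjUnder_grph (by omega)]
    refine ⟨k⁻¹, 1, ?_⟩
    rw [one_smul, JG_coe]
    exact ga2_congr_inv k _ _ hk
  · right
    push Not at hd
    obtain ⟨k, hk⟩ := Cfsg.Agent.Helper61.sym_congr_one_char2 (CharTwo.two_eq_zero (R := F))
      (M : Mn n F) hs hdet hd
    rw [isConjUnder_grph (by omega)]
    refine ⟨k⁻¹, 1, ?_⟩
    rw [one_smul, Units.val_one]
    exact ga2_congr_inv k _ _ hk

/-! ### the centralisers -/

/-- the symplectic group inside `GL (Fin n) F` -/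
def th1 (e : Fin m ⊕ Fin m ≃ Fin n) (F : Type u) [Field F] :
    ↥(Matrix.symplecticGroup (Fin m) F) →* GL (Fin n) F :=
  ((Matrix.reindexAlgEquiv F F e).toMulEquiv.toMonoidHom.comp
    (Matrix.symplecticGroup (Fin m) F).subtype).toHomUnits

theorem th1_coe (e : Fin m ⊕ Fin m ≃ Fin n) (γ : ↥(Matrix.symplecticGroup (Fin m) F)) :
    ((th1 e F γ : GL (Fin n) F) : Mn n F)
      = Matrix.reindex e e (γ : Matrix (Fin m ⊕ Fin m) (Fin m ⊕ Fin m) F) := rfl

theorem th1_symp (e : Fin m ⊕ Fin m ≃ Fin n) (γ : ↥(Matrix.symplecticGroup (Fin m) F)) :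
    ((th1 e F γ : GL (Fin n) F) : Mn n F)ᵀ * Jn e F * ((th1 e F γ : GL (Fin n) F) : Mn n F)
      = Jn e F := by
  rw [th1_coe]
  unfold Jn
  rw [rx_transpose, ← rx_mul, ← rx_mul, SymplecticGroup.mem_iff'.mp γ.2]

/-- a matrix on `Fin n` preserving `Jn` comes from the symplectic group -/
theorem ga2_symp_of (e : Fin m ⊕ Fin m ≃ Fin n) (Γ : Mn n F) (h : Γᵀ * Jn e F * Γ = Jn e F) :
    Matrix.reindex e.symm e.symm Γ ∈ Matrix.symplecticGroup (Fin m) F := by
  rw [SymplecticGroup.mem_iff']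
  have h1 : Matrix.J (Fin m) F = Matrix.reindex e.symm e.symm (Jn e F) := by
    unfold Jn
    rw [rx_symm_rx]
  rw [h1, rx_transpose, ← rx_mul, ← rx_mul, h]

theorem ga2_scalar_symp [CharP F 2] (hm : 1 ≤ m) (c : F)
    (h : (c • (1 : Matrix (Fin m ⊕ Fin m) (Fin m ⊕ Fin m) F)) ∈ Matrix.symplecticGroup (Fin m) F) :
    c = 1 := by
  rw [SymplecticGroup.mem_iff'] at h
  have h1 := congrFun (congrFun h (Sum.inl ⟨0, by omega⟩)) (Sum.inr ⟨0, by omega⟩)
  simp [Matrix.J, Matrix.smul_apply, Matrix.mul_apply, Matrix.one_apply] at h1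
  exact ga2_sq_one h1

theorem ga2_cent_one [Fintype F] [CharP F 2] (hn : 2 ≤ n) (hm : 1 ≤ m)
    (e : Fin m ⊕ Fin m ≃ Fin n) :
    Nonempty (↥(Cfsg.inndiagPSL n F ⊓ Subgroup.centralizer {grph (JG e F)}) ≃*
      ↥(Matrix.symplecticGroup (Fin m) F)) := by
  have key := lang_centralizer_iso hn (th1 e F) (grph (JG e F)) 1 ?_ ?_ ⊥ ?_
  · rw [map_one, one_mul, inv_one, mul_one] at key
    obtain ⟨φ⟩ := key
    exact ⟨φ.trans QuotientGroup.quotientBot⟩
  · intro γ
    rw [mem_cGL_grph hn]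
    exact ⟨1, by rw [one_smul, JG_coe, th1_symp]⟩
  · intro g hg
    rw [mem_cGL_grph hn, JG_coe] at hg
    obtain ⟨c, hc⟩ := hg
    have hc0 : c ≠ 0 := by
      rintro rfl
      rw [zero_smul] at hc
      have hne : Nonempty (Fin n) := ⟨⟨0, by omega⟩⟩
      have h1 := congrArg Matrix.det hc
      rw [Matrix.det_mul, Matrix.det_mul, Matrix.det_transpose, Matrix.det_zero] at h1
      have hg0 : (g : Mn n F).det ≠ 0 := ((Matrix.isUnit_iff_isUnit_det _).mp g.isUnit).ne_zero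
      have hJ0 : (Jn e F).det ≠ 0 := by
        intro h0
        have h2 := congrArg Matrix.det (Jn_mul_self (F := F) e)
        rw [Matrix.det_mul, h0, zero_mul] at h2
        have h3 : (-1 : Mn n F).det * (-1 : Mn n F).det = 1 := by
          rw [← Matrix.det_mul, neg_mul_neg, one_mul, Matrix.det_one]
        rw [← h2, zero_mul] at h3
        exact zero_ne_one h3
      exact mul_ne_zero (mul_ne_zero hg0 hJ0) hg0 h1
    obtain ⟨d, hd⟩ := ga2_sqrt c
    have hd0 : d ≠ 0 := by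
      rintro rfl
      rw [zero_mul] at hd
      exact hc0 hd.symm
    have h1 : (d⁻¹ • (g : Mn n F))ᵀ * Jn e F * (d⁻¹ • (g : Mn n F)) = Jn e F := by
      rw [Matrix.transpose_smul, Matrix.smul_mul, Matrix.smul_mul, Matrix.mul_smul, hc, smul_smul,
        smul_smul, ← hd]
      have : d⁻¹ * d⁻¹ * (d * d) = 1 := by field_simp
      rw [this, one_smul]
    refine ⟨⟨_, ga2_symp_of e _ h1⟩, d, ?_⟩
    rw [th1_coe]
    show (g : Mn n F) = d • Matrix.reindex e e (Matrix.reindex e.symm e.symm (d⁻¹ • (g : Mn n F)))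
    rw [rx_rx_symm, smul_smul, mul_inv_cancel₀ hd0, one_smul]
  · intro γ
    rw [Subgroup.mem_bot]
    constructor
    · rintro rfl
      exact ⟨1, by rw [map_one, Units.val_one, one_smul]⟩
    · rintro ⟨c, hc⟩
      rw [th1_coe] at hc
      have h1 : (γ : Matrix (Fin m ⊕ Fin m) (Fin m ⊕ Fin m) F) = c • 1 := by
        have h2 := congrArg (Matrix.reindex e.symm e.symm) hc
        rw [rx_symm_rx, rx_smul, rx_one] at h2
        exact h2
      have h3 : c = 1 := ga2_scalar_symp hm c (by rw [← h1]; exact γ.2)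
      apply Subtype.ext
      rw [h1, h3, one_smul]
      rfl

/-- conjugation of the symplectic group (on `Fin n`) by `k` -/
def th3 (e : Fin m ⊕ Fin m ≃ Fin n) (k : GL (Fin n) F)
    (t : ↥(Matrix.symplecticGroup (Fin m) F)) :
    ↥(Subgroup.centralizer ({t} : Set ↥(Matrix.symplecticGroup (Fin m) F))) →* GL (Fin n) F :=
  (MulAut.conj k).toMonoidHom.comp ((th1 e F).comp (Subgroup.subtype _))

theorem th3_coe (e : Fin m ⊕ Fin m ≃ Fin n) (k : GL (Fin n) F)
    (t : ↥(Matrix.symplecticGroup (Fin m) F))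
    (γ : ↥(Subgroup.centralizer ({t} : Set ↥(Matrix.symplecticGroup (Fin m) F)))) :
    ((th3 e k t γ : GL (Fin n) F) : Mn n F)
      = (k : Mn n F) * Matrix.reindex e e
          ((γ : ↥(Matrix.symplecticGroup (Fin m) F)) : Matrix (Fin m ⊕ Fin m) (Fin m ⊕ Fin m) F)
        * ((k⁻¹ : GL (Fin n) F) : Mn n F) := rfl

theorem ga2_cent_three [Fintype F] [CharP F 2] (hn : 2 ≤ n) (hm : 1 ≤ m) (hnm : n = 2 * m)
    (e : Fin m ⊕ Fin m ≃ Fin n) :
    ∃ t : ↥(Matrix.symplecticGroup (Fin m) F),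
      Cfsg.IsTransvection (t : Matrix (Fin m ⊕ Fin m) (Fin m ⊕ Fin m) F) ∧
      Nonempty (↥(Cfsg.inndiagPSL n F ⊓ Subgroup.centralizer {(grph 1 : MulAut (PSLn n F))}) ≃*
        ↥(Subgroup.centralizer ({t} : Set ↥(Matrix.symplecticGroup (Fin m) F)))) := by
  have hne : Nonempty (Fin n) := ⟨⟨0, by omega⟩⟩
  have hev : Even (Fintype.card (Fin n)) := by
    rw [Fintype.card_fin, hnm]
    exact even_two_mul m
  obtain ⟨hNt, hNd, hNN, hrk, hsq⟩ := Cfsg.Agent.Helper14.nE_props (F := F) hev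
  obtain ⟨N, hNdef⟩ : ∃ N : Mn n F, N = nE (Fin n) F := ⟨_, rfl⟩
  rw [← hNdef] at hNt hNd hNN hrk hsq
  have horth : ∀ g : Mn n F, gᵀ * g = 1 ↔ (gᵀ * N * g = N ∧ g * N = N * g) := by
    intro g
    rw [hNdef]
    exact Cfsg.Agent.Helper14.nE_orth_iff hev g
  have hNdet : N.det ≠ 0 := by
    intro h0
    have h1 := congrArg Matrix.det hNN
    rw [Matrix.det_mul, h0, zero_mul, Matrix.det_one] at h1
    exact zero_ne_one h1
  obtain ⟨k, hk⟩ := Cfsg.Agent.Helper51.alt_congr e N hNdet (by rw [hNt, ga2_neg]) hNd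
  obtain ⟨K, hKdef⟩ : ∃ K : Mn n F, K = (k : Mn n F) := ⟨_, rfl⟩
  obtain ⟨K', hK'def⟩ : ∃ K' : Mn n F, K' = ((k⁻¹ : GL (Fin n) F) : Mn n F) := ⟨_, rfl⟩
  have hKK' : K * K' = 1 := by rw [hKdef, hK'def]; exact ga2_GL_mul_inv k
  have hK'K : K' * K = 1 := by rw [hKdef, hK'def]; exact ga2_GL_inv_mul k
  rw [← hKdef] at hk
  have hk' : Jn e F = Kᵀ * N * K := hk.symm
  have hKt : K'ᵀ * Kᵀ = 1 := by rw [← Matrix.transpose_mul, hKK', Matrix.transpose_one]
  have hKt' : Kᵀ * K'ᵀ = 1 := by rw [← Matrix.transpose_mul, hK'K, Matrix.transpose_one]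
  -- `N` in terms of `Jn`
  have hNJ : K'ᵀ * Jn e F * K' = N := by
    rw [hk']
    calc K'ᵀ * (Kᵀ * N * K) * K' = (K'ᵀ * Kᵀ) * N * (K * K') := by simp only [Matrix.mul_assoc]
      _ = N := by rw [hKt, hKK', Matrix.one_mul, Matrix.mul_one]
  -- the transvection
  have hTJ : (K' * N * K)ᵀ * Jn e F * (K' * N * K) = Jn e F := by
    rw [Matrix.transpose_mul, Matrix.transpose_mul, hNt]
    calc Kᵀ * (N * K'ᵀ) * Jn e F * (K' * N * K)
        = Kᵀ * N * (K'ᵀ * Jn e F * K') * N * K := by simp only [Matrix.mul_assoc]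
      _ = Kᵀ * (N * N) * N * K := by rw [hNJ]; simp only [Matrix.mul_assoc]
      _ = Jn e F := by rw [hNN, Matrix.mul_one, hk']
  obtain ⟨t, htdef⟩ : ∃ t : ↥(Matrix.symplecticGroup (Fin m) F),
      (t : Matrix (Fin m ⊕ Fin m) (Fin m ⊕ Fin m) F) = Matrix.reindex e.symm e.symm (K' * N * K) :=
    ⟨⟨_, ga2_symp_of e _ hTJ⟩, rfl⟩
  have htr : Matrix.reindex e e (t : Matrix (Fin m ⊕ Fin m) (Fin m ⊕ Fin m) F) = K' * N * K := by
    rw [htdef, rx_rx_symm]
  refine ⟨t, ?_, ?_⟩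
  · -- transvection
    have h1 : (t : Matrix (Fin m ⊕ Fin m) (Fin m ⊕ Fin m) F) - 1
        = Matrix.reindex e.symm e.symm (K' * (N - 1) * K) := by
      rw [htdef, Matrix.mul_sub, Matrix.sub_mul, Matrix.mul_one, hK'K, rx_sub, rx_one]
    constructor
    · rw [h1, Matrix.rank_reindex,
        Matrix.rank_mul_eq_left_of_isUnit_det K (K' * (N - 1))
          (by rw [hKdef]; exact (Matrix.isUnit_iff_isUnit_det _).mp k.isUnit),
        Matrix.rank_mul_eq_right_of_isUnit_det K' (N - 1)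
          (by rw [hK'def]; exact (Matrix.isUnit_iff_isUnit_det _).mp (k⁻¹).isUnit), hrk]
    · rw [h1, ← rx_mul]
      have h2 : K' * (N - 1) * K * (K' * (N - 1) * K) = 0 := by
        calc K' * (N - 1) * K * (K' * (N - 1) * K)
            = K' * (N - 1) * (K * K') * (N - 1) * K := by simp only [Matrix.mul_assoc]
          _ = K' * ((N - 1) * (N - 1)) * K := by rw [hKK', Matrix.mul_one]; simp only [Matrix.mul_assoc]
          _ = 0 := by rw [hsq, Matrix.mul_zero, Matrix.zero_mul]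
      rw [h2]
      rfl
  · have key := lang_centralizer_iso hn (th3 e k t) (grph 1) 1 ?_ ?_ ⊥ ?_
    · rw [map_one, one_mul, inv_one, mul_one] at key
      obtain ⟨φ⟩ := key
      exact ⟨φ.trans QuotientGroup.quotientBot⟩
    · intro γ
      rw [mem_cGL_grph hn]
      refine ⟨1, ?_⟩
      rw [one_smul, Units.val_one, Matrix.mul_one, th3_coe, ← hKdef, ← hK'def]
      obtain ⟨Γ, hΓdef⟩ : ∃ Γ : Mn n F, Γ = Matrix.reindex e e
          ((γ : ↥(Matrix.symplecticGroup (Fin m) F)) : Matrix (Fin m ⊕ Fin m) (Fin m ⊕ Fin m) F) :=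
        ⟨_, rfl⟩
      rw [← hΓdef]
      have hΓJ : Γᵀ * Jn e F * Γ = Jn e F := by
        rw [hΓdef]
        exact th1_symp e γ.1
      have hcomm : (K' * N * K) * Γ = Γ * (K' * N * K) := by
        have h1 : t * γ.1 = γ.1 * t := (Subgroup.mem_centralizer_iff.mp γ.2) t rfl
        have h2 : Matrix.reindex e e ((t * γ.1 : ↥(Matrix.symplecticGroup (Fin m) F)) :
            Matrix (Fin m ⊕ Fin m) (Fin m ⊕ Fin m) F)
            = Matrix.reindex e e ((γ.1 * t : ↥(Matrix.symplecticGroup (Fin m) F)) :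
              Matrix (Fin m ⊕ Fin m) (Fin m ⊕ Fin m) F) := by rw [h1]
        rw [Submonoid.coe_mul, Submonoid.coe_mul, rx_mul, rx_mul, htr, ← hΓdef] at h2
        exact h2
      rw [horth]
      constructor
      · rw [Matrix.transpose_mul, Matrix.transpose_mul]
        calc K'ᵀ * (Γᵀ * Kᵀ) * N * (K * Γ * K')
            = K'ᵀ * (Γᵀ * (Kᵀ * N * K) * Γ) * K' := by simp only [Matrix.mul_assoc]
          _ = N := by rw [← hk', hΓJ]; exact hNJ
      · calc K * Γ * K' * N = K * (Γ * (K' * N * K)) * K' := by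
              simp only [Matrix.mul_assoc]
              rw [hKK', Matrix.mul_one]
          _ = K * ((K' * N * K) * Γ) * K' := by rw [hcomm]
          _ = N * (K * Γ * K') := by
              simp only [← Matrix.mul_assoc]
              rw [hKK', Matrix.one_mul]
    · intro g hg
      rw [mem_cGL_grph hn, Units.val_one, Matrix.mul_one] at hg
      obtain ⟨c, hc⟩ := hg
      have hc0 : c ≠ 0 := by
        rintro rfl
        rw [zero_smul] at hc
        have h1 := congrArg Matrix.det hc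
        rw [Matrix.det_mul, Matrix.det_transpose, Matrix.det_zero] at h1
        have hg0 : (g : Mn n F).det ≠ 0 := ((Matrix.isUnit_iff_isUnit_det _).mp g.isUnit).ne_zero
        exact mul_ne_zero hg0 hg0 h1
      obtain ⟨d, hd⟩ := ga2_sqrt c
      have hd0 : d ≠ 0 := by
        rintro rfl
        rw [zero_mul] at hd
        exact hc0 hd.symm
      obtain ⟨g₁, hg₁def⟩ : ∃ g₁ : Mn n F, g₁ = d⁻¹ • (g : Mn n F) := ⟨_, rfl⟩
      have h1 : g₁ᵀ * g₁ = 1 := by
        rw [hg₁def, Matrix.transpose_smul, Matrix.smul_mul, Matrix.mul_smul, hc, smul_smul,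
          smul_smul, ← hd]
        have : d⁻¹ * d⁻¹ * (d * d) = 1 := by field_simp
        rw [this, one_smul]
      obtain ⟨h3, h4⟩ := (horth g₁).mp h1
      have hΓJ : (K' * g₁ * K)ᵀ * Jn e F * (K' * g₁ * K) = Jn e F := by
        rw [Matrix.transpose_mul, Matrix.transpose_mul]
        calc Kᵀ * (g₁ᵀ * K'ᵀ) * Jn e F * (K' * g₁ * K)
            = Kᵀ * (g₁ᵀ * (K'ᵀ * Jn e F * K') * g₁) * K := by simp only [Matrix.mul_assoc]
          _ = Jn e F := by rw [hNJ, h3, hk']
      obtain ⟨γ₀, hγ₀⟩ : ∃ γ₀ : ↥(Matrix.symplecticGroup (Fin m) F),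
          (γ₀ : Matrix (Fin m ⊕ Fin m) (Fin m ⊕ Fin m) F)
            = Matrix.reindex e.symm e.symm (K' * g₁ * K) := ⟨⟨_, ga2_symp_of e _ hΓJ⟩, rfl⟩
      have hγ₀c : γ₀ ∈ Subgroup.centralizer ({t} : Set ↥(Matrix.symplecticGroup (Fin m) F)) := by
        rw [Subgroup.mem_centralizer_iff]
        intro h hh
        rw [Set.mem_singleton_iff] at hh
        subst hh
        apply Subtype.ext
        rw [Submonoid.coe_mul, Submonoid.coe_mul, hγ₀, htdef, ← rx_mul, ← rx_mul]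
        congr 1
        calc K' * N * K * (K' * g₁ * K) = K' * (N * (K * K') * g₁) * K := by
              simp only [Matrix.mul_assoc]
          _ = K' * (g₁ * (K * K') * N) * K := by
              rw [hKK', Matrix.mul_one, Matrix.mul_one, h4]
          _ = K' * g₁ * K * (K' * N * K) := by simp only [Matrix.mul_assoc]
      refine ⟨⟨γ₀, hγ₀c⟩, d, ?_⟩
      rw [th3_coe, ← hKdef, ← hK'def]
      show (g : Mn n F) = d • (K * Matrix.reindex e e
        (γ₀ : Matrix (Fin m ⊕ Fin m) (Fin m ⊕ Fin m) F) * K')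
      rw [hγ₀, rx_rx_symm]
      have h5 : K * (K' * g₁ * K) * K' = g₁ := by
        calc K * (K' * g₁ * K) * K' = (K * K') * g₁ * (K * K') := by simp only [Matrix.mul_assoc]
          _ = g₁ := by rw [hKK', Matrix.one_mul, Matrix.mul_one]
      rw [h5, hg₁def, smul_smul, mul_inv_cancel₀ hd0, one_smul]
    · intro γ
      rw [Subgroup.mem_bot]
      constructor
      · rintro rfl
        exact ⟨1, by rw [map_one, Units.val_one, one_smul]⟩
      · rintro ⟨c, hc⟩
        rw [th3_coe, ← hKdef, ← hK'def] at hc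
        have h1 : Matrix.reindex e e
            ((γ : ↥(Matrix.symplecticGroup (Fin m) F)) : Matrix (Fin m ⊕ Fin m) (Fin m ⊕ Fin m) F)
            = c • 1 := by
          have h2 : K' * (K * Matrix.reindex e e
              ((γ : ↥(Matrix.symplecticGroup (Fin m) F)) : Matrix (Fin m ⊕ Fin m) (Fin m ⊕ Fin m) F)
              * K') * K = K' * (c • (1 : Mn n F)) * K := by rw [hc]
          have h3 : K' * (K * Matrix.reindex e e
              ((γ : ↥(Matrix.symplecticGroup (Fin m) F)) : Matrix (Fin m ⊕ Fin m) (Fin m ⊕ Fin m) F)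
              * K') * K = Matrix.reindex e e
              ((γ : ↥(Matrix.symplecticGroup (Fin m) F)) : Matrix (Fin m ⊕ Fin m) (Fin m ⊕ Fin m) F) := by
            calc _ = (K' * K) * Matrix.reindex e e
                  ((γ : ↥(Matrix.symplecticGroup (Fin m) F)) :
                    Matrix (Fin m ⊕ Fin m) (Fin m ⊕ Fin m) F) * (K' * K) := by
                  simp only [Matrix.mul_assoc]
              _ = _ := by rw [hK'K, Matrix.one_mul, Matrix.mul_one]
          rw [h3, Matrix.mul_smul, Matrix.mul_one, Matrix.smul_mul, hK'K] at h2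
          exact h2
        have h4 : ((γ : ↥(Matrix.symplecticGroup (Fin m) F)) :
            Matrix (Fin m ⊕ Fin m) (Fin m ⊕ Fin m) F) = c • 1 := by
          have h5 := congrArg (Matrix.reindex e.symm e.symm) h1
          rw [rx_symm_rx, rx_smul, rx_one] at h5
          exact h5
        have h6 : c = 1 := ga2_scalar_symp hm c (by rw [← h4]; exact γ.1.2)
        apply Subtype.ext
        apply Subtype.ext
        rw [h4, h6, one_smul]
        rfl

/-- **S2701**, in the notation of the libraries. -/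
theorem ga2_main [Fintype F] [CharP F 2] (hm : 2 ≤ m) (hnm : n = 2 * m) :
    ∃ (γ₁ γ₃ : MulAut (PSLn n F)) (t : ↥(Matrix.symplecticGroup (Fin m) F)),
      Cfsg.IsTransvection (t : Matrix (Fin m ⊕ Fin m) (Fin m ⊕ Fin m) F) ∧
      Cfsg.IsGraphAutClassPSL γ₁ ∧ orderOf γ₁ = 2 ∧ Cfsg.IsGraphAutClassPSL γ₃ ∧ orderOf γ₃ = 2 ∧
      ¬ Cfsg.IsConjUnder (Cfsg.inndiagPSL n F) γ₁ γ₃ ∧
      (∀ γ : MulAut (PSLn n F), Cfsg.IsGraphAutClassPSL γ → orderOf γ = 2 →
        Cfsg.IsConjUnder (Cfsg.inndiagPSL n F) γ₁ γ ∨ Cfsg.IsConjUnder (Cfsg.inndiagPSL n F) γ₃ γ) ∧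
      Nonempty (↥(Cfsg.inndiagPSL n F ⊓ Subgroup.centralizer {γ₁}) ≃*
        ↥(Matrix.symplecticGroup (Fin m) F)) ∧
      Nonempty (↥(Cfsg.inndiagPSL n F ⊓ Subgroup.centralizer {γ₃}) ≃*
        ↥(Subgroup.centralizer ({t} : Set ↥(Matrix.symplecticGroup (Fin m) F)))) := by
  have hn : 3 ≤ n := by omega
  obtain ⟨e⟩ : Nonempty (Fin m ⊕ Fin m ≃ Fin n) :=
    ⟨finSumFinEquiv.trans (finCongr (by omega))⟩
  obtain ⟨t, ht, hc3⟩ := ga2_cent_three (F := F) (by omega) (by omega) hnm e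
  refine ⟨grph (JG e F), grph 1, t, ht, isGraph_grph hn _,
    (orderOf_grph hn _).mpr (Or.inr (Jn_transpose e)), isGraph_grph hn _,
    (orderOf_grph hn 1).mpr (Or.inl (by rw [Units.val_one, Matrix.transpose_one])),
    ga2_not_conj (by omega) e, fun γ hγ h2 => ga2_classify hn e γ hγ h2,
    ga2_cent_one (by omega) (by omega) e, hc3⟩

end Cfsg.Agent.Helper30.GA2
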