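-- helper30: piece SumSqMinus of CALL S2700: a scalar multiple of the sum of `2m` squares has no
-- totally singular `m`-space when `m` is odd and `-1` is a nonsquare (discriminant criterion).
import Mathlib
import Cfsg.Prelude.Def_GeometricClasses
import Cfsg.Prelude.Def_LieTypeDatum
import Cfsg.Agent.Helper43.GraphGram
import Cfsg.Agent.Helper43.OrthEven
import Cfsg.Agent.Helper33.ODisc

set_option autoImplicit false

namespace Cfsg.Agent.Helper30

open Matrix Module Cfsg.Agent.Helper43 Cfsg.Agent.Helper43.GraphForm Cfsg.Agent.Helper43.OrthEven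

theorem not_hasTS_sumsq {F : Type*} [Field F] [Finite F] {κ : Type*} [Fintype κ] [DecidableEq κ]
    (h2 : (2 : F) ≠ 0) {m : ℕ} (hκ : Fintype.card κ = 2 * m) (Q : QuadraticForm F (κ → F)) (c : F)
    (hc : c ≠ 0) (hQ : ∀ v, Q v = c * ∑ i, v i ^ 2) (hm : Odd m) (h : ¬ IsSquare (-1 : F)) :
    ¬ HasTS Q m := by
  classical
  have hm1 : 1 ≤ m := hm.pos
  have hV : Module.finrank F (κ → F) = 2 * m := by
    rw [Module.finrank_fintype_fun_eq_card, hκ]
  have hpol : ∀ u v : κ → F, QuadraticMap.polar (⇑Q) u v = 2 * c * ∑ i, u i * v i := by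
    intro u v
    unfold QuadraticMap.polar
    have h3 : ∑ i, (u + v) i ^ 2 - ∑ i, u i ^ 2 - ∑ i, v i ^ 2 = 2 * ∑ i, u i * v i := by
      rw [← Finset.sum_sub_distrib, ← Finset.sum_sub_distrib, Finset.mul_sum]
      refine Finset.sum_congr rfl fun i _ => ?_
      simp only [Pi.add_apply]
      ring
    rw [hQ, hQ, hQ]
    linear_combination c * h3
  have hnd : PolarNondeg Q := by
    intro v hv
    funext i
    have h3 := hv (Pi.single i 1)
    rw [hpol, Finset.sum_eq_single i] at h3
    · rw [Pi.single_eq_same, mul_one] at h3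
      rcases mul_eq_zero.mp h3 with h4 | h4
      · exact absurd h4 (mul_ne_zero h2 hc)
      · exact h4
    · intro l _ hl
      rw [Pi.single_eq_of_ne hl, mul_zero]
    · intro h'
      exact absurd (Finset.mem_univ i) h'
  rw [Cfsg.Agent.Helper33.ODisc.hasTS_iff_disc h2 hm1 hV Q hnd (Pi.basisFun F κ)]
  have hG : (Matrix.of fun i j : κ => QuadraticMap.polar (⇑Q) ((Pi.basisFun F κ) i)
      ((Pi.basisFun F κ) j)) = Matrix.diagonal (fun _ : κ => 2 * c) := by
    ext i j
    rw [Matrix.of_apply, hpol, Pi.basisFun_apply, Pi.basisFun_apply, Finset.sum_eq_single i]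
    · by_cases hij : i = j
      · subst hij
        rw [Matrix.diagonal_apply_eq, Pi.single_eq_same]
        ring
      · rw [Matrix.diagonal_apply_ne _ hij, Pi.single_eq_of_ne hij]
        ring
    · intro l _ hl
      rw [Pi.single_eq_of_ne hl, zero_mul]
    · intro h'
      exact absurd (Finset.mem_univ i) h'
  rw [hG, Matrix.det_diagonal, Finset.prod_const, Finset.card_univ, hκ, hm.neg_one_pow]
  have h5 : (-1 : F) * (2 * c) ^ (2 * m) = ((2 * c) ^ m) ^ 2 * (-1) := by
    rw [← pow_mul, mul_comm m 2]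
    ring
  rw [h5, Helper43.isSquare_sq_mul_iff (pow_ne_zero _ (mul_ne_zero h2 hc))]
  exact h

end Cfsg.Agent.Helper30
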