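import Mathlib
import Cfsg.Agent.Helper44.OmGB
import Cfsg.Agent.Helper45.GmEXR
import Cfsg.Agent.Helper45.GmCNT2

/-!
# CALL S2719, piece BCNT (helper30): the class count in the case `-1 ∈ Ω`
-/

set_option autoImplicit false
set_option linter.unusedSectionVars false
set_option linter.unusedVariables false

namespace Cfsg.Agent.Helper30.GmBCNT

open Matrix Cfsg

universe u

variable {ι : Type} [Fintype ι] [DecidableEq ι] {F : Type u} [Field F] [Fintype F]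
  (Q : QuadraticForm F (ι → F))

/-- **BCNT**: if `-1 ∈ Ω`, the `autK`-class of an involutory automorphism induced by an improper
similarity is the union of two `PΩ`-classes. -/
theorem graph_count_neg (hodd : Odd (Fintype.card F))
    (hQ : (QuadraticMap.polarBilin Q).Nondegenerate) (hn5 : 5 ≤ Fintype.card ι)
    {n : ℕ} {J : Matrix ι ι F} {v₀ : ι → F} (D : Helper45.KData ⇑Q n J v₀)
    (g₁ : GL ι F) (c₁ : F) (hg₁ : ∀ v, Q ((g₁ : Matrix ι ι F) *ᵥ v) = c₁ * Q v)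
    (hc₁ : ¬ IsSquare c₁) (hdet₁ : (g₁ : Matrix ι ι F).det = c₁ ^ n)
    (hneg : Helper45.negO Q ∈ Omega F ⇑Q)
    (h : GL ι F) (hh : h ∈ Geo.quadSimilarityGroup (F := F) ⇑Q)
    (hnp : (h : Matrix ι ι F).det ≠ Helper45.mult ⇑Q v₀ h ^ n)
    (hh2 : Helper44.POm.simHom ⇑Q ⟨h, hh⟩ * Helper44.POm.simHom ⇑Q ⟨h, hh⟩ = 1) :
    splitClassCount (Helper45.ID.autK Q D) (Inn (POmega F ⇑Q))
      (Helper44.POm.simHom ⇑Q ⟨h, hh⟩) = 2 := by
  rw [← map_mul] at hh2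
  obtain ⟨ν, hν⟩ := (Helper44.POm.simHom_eq_one_iff Q hQ hn5 _).mp hh2
  have hHH : (h : Matrix ι ι F) * (h : Matrix ι ι F) = ν • (1 : Matrix ι ι F) := hν
  obtain ⟨c, hc⟩ := id hh
  obtain ⟨u, w, hu, hw, hns, hid⟩ := Helper45.GmEXR.graph_exists_refl Q hodd hQ hn5
    (h : Matrix ι ι F) (c : F) c.ne_zero hc ν hHH
  refine Helper45.GmCNT2.graph_count_two Q hodd hQ hn5 D g₁ c₁ hg₁ hc₁ hdet₁ hneg h hh hnp u w hu
    hw hns ?_
  have hc1 := Helper44.POm.refl_conj_sim Q h (c : F) c.ne_zero hc u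
  have hc2 := Helper44.POm.refl_conj_sim Q h (c : F) c.ne_zero hc w
  rw [← Matrix.mul_assoc, hc1, Matrix.mul_assoc, hc2, ← Matrix.mul_assoc, hid]

end Cfsg.Agent.Helper30.GmBCNT
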