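import Mathlib
import Cfsg.Agent.Helper44.OmGB
import Cfsg.Agent.Helper45.GmSWAP
import Cfsg.Agent.Helper72.GmDETI
import Cfsg.Agent.Helper72.GmDETS
import Cfsg.Agent.Helper72.GmPAR

/-!
# CALL S2719, piece CCNT (helper30): the class count in the case `-1 ∉ Ω`, `n` even

An involutory automorphism induced by an improper similarity is then induced by an isometry
involution of determinant `-1`, and no element of `autK` outside `Inn` centralises it.
-/

set_option autoImplicit false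
set_option linter.unusedSectionVars false
set_option linter.unusedVariables false
set_option linter.unusedSimpArgs false

namespace Cfsg.Agent.Helper30.GmCCNT

open Matrix Cfsg

universe u

variable {ι : Type} [Fintype ι] [DecidableEq ι] {F : Type u} [Field F] [Fintype F]
  (Q : QuadraticForm F (ι → F))

set_option maxHeartbeats 1600000 in
/-- **CCNT**: if `-1 ∉ Ω` and `n` is even, the `autK`-class of an involutory automorphism induced
by an improper similarity is the union of two `PΩ`-classes. -/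
theorem graph_count_even (hodd : Odd (Fintype.card F))
    (hQ : (QuadraticMap.polarBilin Q).Nondegenerate) (hn5 : 5 ≤ Fintype.card ι)
    {n : ℕ} {J : Matrix ι ι F} {v₀ : ι → F} (D : Helper45.KData ⇑Q n J v₀)
    (g₁ : GL ι F) (c₁ : F) (hg₁ : ∀ v, Q ((g₁ : Matrix ι ι F) *ᵥ v) = c₁ * Q v)
    (hc₁ : ¬ IsSquare c₁) (hdet₁ : (g₁ : Matrix ι ι F).det = c₁ ^ n)
    (hneg : Helper45.negO Q ∉ Omega F ⇑Q) (hn : Even n)
    (h : GL ι F) (hh : h ∈ Geo.quadSimilarityGroup (F := F) ⇑Q)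
    (hnp : (h : Matrix ι ι F).det ≠ Helper45.mult ⇑Q v₀ h ^ n)
    (hh2 : Helper44.POm.simHom ⇑Q ⟨h, hh⟩ * Helper44.POm.simHom ⇑Q ⟨h, hh⟩ = 1) :
    splitClassCount (Helper45.ID.autK Q D) (Inn (POmega F ⇑Q))
      (Helper44.POm.simHom ⇑Q ⟨h, hh⟩) = 2 := by
  classical
  have h2F : (2 : F) ≠ 0 := D.h2
  have hchar : ringChar F ≠ 2 := Helper45.ringChar_ne_two h2F
  have hcard : Fintype.card ι = n + n := D.hcard
  have hcard' : Fintype.card ι = 2 * n := by omega
  have hcard2 : 2 ≤ Fintype.card ι := by omega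
  have heven : Even (Fintype.card ι) := ⟨n, hcard⟩
  have hscal : ∀ g : GL ι F, g ∈ Geo.quadSimilarityGroup (F := F) ⇑Q → Helper45.Ind ⇑Q g 1 →
      ∃ c : F, (g : Matrix ι ι F) = c • (1 : Matrix ι ι F) :=
    fun g hg h1 => Helper45.OO.scalar_of_ind Q hQ hn5 g hg h1
  obtain ⟨hmult, hc0⟩ := D.mult_spec hh
  obtain ⟨c, hcdef⟩ : ∃ c : F, c = Helper45.mult ⇑Q v₀ h := ⟨_, rfl⟩
  rw [← hcdef] at hmult hc0 hnp
  -- `h * h` is a scalar
  rw [← map_mul] at hh2
  obtain ⟨ν, hν⟩ := (Helper44.POm.simHom_eq_one_iff Q hQ hn5 _).mp hh2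
  have hHH : (h : Matrix ι ι F) * (h : Matrix ι ι F) = ν • (1 : Matrix ι ι F) := hν
  have hν2 : ν * ν = c * c := by
    have h3 := hmult ((h : Matrix ι ι F) *ᵥ v₀)
    rw [Matrix.mulVec_mulVec, hHH, Matrix.smul_mulVec, Matrix.one_mulVec, QuadraticMap.map_smul,
      hmult, D.hv₀, smul_eq_mul] at h3
    linear_combination h3
  have hdetsq := D.det_sq hh
  rw [← hcdef] at hdetsq
  have hdet : (h : Matrix ι ι F).det = -c ^ n := by
    have h4 : ((h : Matrix ι ι F).det - c ^ n) * ((h : Matrix ι ι F).det + c ^ n) = 0 := by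
      linear_combination hdetsq
    rcases mul_eq_zero.mp h4 with h5 | h5
    · exact absurd (sub_eq_zero.mp h5) hnp
    · exact eq_neg_of_add_eq_zero_left h5
  have hG := Helper45.gram_of_sim ⇑Q J h2F D.hJ D.hJs (h : Matrix ι ι F) c hmult
  have h6 : (ν - c) * (ν + c) = 0 := by linear_combination hν2
  have hνc : ν = c ∧ IsSquare c := by
    rcases mul_eq_zero.mp h6 with h7 | h7
    · have hνc : ν = c := sub_eq_zero.mp h7
      refine ⟨hνc, ?_⟩
      by_contra hsq
      have hd := Helper72.GmDETI.det_of_sq_nonsquare (h : Matrix ι ι F) ν (by rw [hνc]; exact hsq)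
        hHH n hcard'
      apply hnp
      rw [hd, hνc, Even.neg_pow hn]
    · exfalso
      have hνc : ν = -c := eq_neg_of_add_eq_zero_left h7
      have hν0 : ν ≠ 0 := by
        rw [hνc]
        exact neg_ne_zero.mpr hc0
      have hd := Helper72.GmDETS.det_of_skew h2F (h : Matrix ι ι F) J D.hJdet ν hν0 hHH
        (by rw [hG, hνc, neg_neg]) n hcard'
      apply hnp
      rw [hd, hνc, neg_neg]
  obtain ⟨hνc, s, hs⟩ := hνc
  have hs0 : s ≠ 0 := by
    rintro rfl
    rw [mul_zero] at hs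
    exact hc0 hs
  -- the isometry involution `k = s⁻¹ h`
  obtain ⟨sc, hsc⟩ := Helper45.OO.exists_scGL (ι := ι) s⁻¹ (inv_ne_zero hs0)
  have hkv : ((sc * h : GL ι F) : Matrix ι ι F) = s⁻¹ • (h : Matrix ι ι F) := by
    rw [Units.val_mul, hsc, Matrix.smul_mul, Matrix.one_mul]
  have hkiso : sc * h ∈ isometryGroup F ⇑Q := by
    rw [Helper45.mem_iso_iff]
    intro v
    rw [hkv, Matrix.smul_mulVec, QuadraticMap.map_smul, hmult, smul_eq_mul, hs]
    field_simp
  obtain ⟨k, hk⟩ : ∃ k : ↥(isometryGroup F ⇑Q), k = ⟨sc * h, hkiso⟩ := ⟨_, rfl⟩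
  have hkc : ((k : GL ι F) : Matrix ι ι F) = s⁻¹ • (h : Matrix ι ι F) := by
    rw [hk]
    exact hkv
  have hkk : ((k : GL ι F) : Matrix ι ι F) * ((k : GL ι F) : Matrix ι ι F) = 1 := by
    rw [hkc, Matrix.smul_mul, Matrix.mul_smul, hHH, smul_smul, smul_smul, hνc, hs]
    have e : s⁻¹ * s⁻¹ * (s * s) = 1 := by field_simp
    rw [e, one_smul]
  have hkdet : ((k : GL ι F) : Matrix ι ι F).det = -1 := by
    rw [hkc, Matrix.det_smul, hdet, hcard, hs]
    have e : s⁻¹ ^ (n + n) * (s * s) ^ n = 1 := by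
      rw [pow_add, ← mul_pow, ← mul_pow]
      have e' : s⁻¹ * s⁻¹ * (s * s) = 1 := by field_simp
      rw [e', one_pow]
    linear_combination (-1 : F) * e
  have hInnG : Inn (POmega F ⇑Q) ≤ Helper45.ID.autK Q D := Helper45.ID.inn_le_autK Q D
  have hpso : psoAut F ⇑Q ≤ Inn (POmega F ⇑Q) :=
    Subgroup.relIndex_eq_one.mp (Helper45.pso_relIndex_one Q h2F hQ hcard2 heven hneg)
  obtain ⟨x, hxdef⟩ : ∃ x, x = Helper44.POm.simHom ⇑Q ⟨h, hh⟩ := ⟨_, rfl⟩
  rw [← hxdef]
  -- the centraliser in `autK` lies in `Inn`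
  have hcent : ∀ y ∈ Helper45.ID.autK Q D, y * x = x * y → y ∈ Inn (POmega F ⇑Q) := by
    intro y hy hyx
    rw [Helper45.ID.mem_autK_iff] at hy
    obtain ⟨d, hd, hind⟩ := hy
    have hyd : y = Helper44.POm.simHom ⇑Q ⟨d, hd.1⟩ :=
      (Helper45.OO.semi_ind_iff _ d (RingEquiv.refl F) (Helper44.POm.semi_of_mem _ d hd.1) y).mp hind
    obtain ⟨hdm, hcd0⟩ := D.mult_spec hd.1
    obtain ⟨cd, hcddef⟩ : ∃ cd : F, cd = Helper45.mult ⇑Q v₀ d := ⟨_, rfl⟩
    rw [← hcddef] at hdm hcd0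
    by_cases hsqd : IsSquare cd
    · apply hpso
      have e1 : Helper45.mult ⇑Q v₀ d ^ (Fintype.card F / 2) = 1 := by
        rw [← hcddef]
        exact (FiniteField.isSquare_iff hchar hcd0).mp hsqd
      exact Helper45.ID.pso_of_theta Q D hd.1 e1 hd.2 hind
    · exfalso
      -- the commutator of `d` and `h` is a scalar isometry
      obtain ⟨zS, hzS⟩ : ∃ zS : ↥(Geo.quadSimilarityGroup (F := F) ⇑Q),
          zS = ⟨d, hd.1⟩ * ⟨h, hh⟩ * (⟨d, hd.1⟩ : ↥(Geo.quadSimilarityGroup (F := F) ⇑Q))⁻¹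
            * (⟨h, hh⟩ : ↥(Geo.quadSimilarityGroup (F := F) ⇑Q))⁻¹ := ⟨_, rfl⟩
      have hzgl : (zS : GL ι F) = d * h * d⁻¹ * h⁻¹ := by
        rw [hzS]
        rfl
      have hz1 : Helper44.POm.simHom ⇑Q zS = 1 := by
        rw [hzS, map_mul, map_mul, map_mul, map_inv, map_inv, ← hyd, ← hxdef, hyx]
        group
      obtain ⟨lam, hlam⟩ := (Helper44.POm.simHom_eq_one_iff Q hQ hn5 zS).mp hz1
      have hziso : (zS : GL ι F) ∈ isometryGroup F ⇑Q := by
        rw [hzgl]
        exact Helper44.POm.comm_mem_iso Q d h cd c hcd0 hc0 hdm hmult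
      have hlam2 : lam * lam = 1 := by
        have h3 := (Helper45.mem_iso_iff _ _).mp hziso v₀
        rw [hlam, Matrix.smul_mulVec, Matrix.one_mulVec, QuadraticMap.map_smul, D.hv₀, smul_eq_mul,
          mul_one] at h3
        exact h3
      have hdh : (d : Matrix ι ι F) * (h : Matrix ι ι F)
          = lam • ((h : Matrix ι ι F) * (d : Matrix ι ι F)) := by
        have e1 : d * h = (zS : GL ι F) * (h * d) := by
          rw [hzgl]
          group
        have e2 := congrArg (fun g : GL ι F => (g : Matrix ι ι F)) e1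
        simp only [Units.val_mul] at e2
        rw [e2, hlam, Matrix.smul_mul, Matrix.one_mul]
      have hdk : (d : Matrix ι ι F) * ((k : GL ι F) : Matrix ι ι F)
          = lam • (((k : GL ι F) : Matrix ι ι F) * (d : Matrix ι ι F)) := by
        rw [hkc, Matrix.mul_smul, hdh, Matrix.smul_mul, smul_smul, smul_smul, mul_comm]
      have h4 : (lam - 1) * (lam + 1) = 0 := by linear_combination hlam2
      rcases mul_eq_zero.mp h4 with h5 | h5
      · have hl1 : lam = 1 := sub_eq_zero.mp h5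
        rw [hl1, one_smul] at hdk
        exact Helper45.GmSWAP.sim_not_comm Q hodd hQ hcard2 k hkdet d cd hsqd hdm hdk
      · have hl1 : lam = -1 := eq_neg_of_add_eq_zero_left h5
        rw [hl1, neg_smul, one_smul] at hdk
        have hddet : (d : Matrix ι ι F).det ≠ 0 := by
          have h7 := d.isUnit
          have h8 := (Matrix.isUnit_iff_isUnit_det _).mp h7
          exact h8.ne_zero
        have h6 := Helper72.GmPAR.det_of_anticomm h2F ((k : GL ι F) : Matrix ι ι F)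
          (d : Matrix ι ι F) hkk hddet hdk n hcard'
        rw [hkdet, Even.neg_one_pow hn] at h6
        apply h2F
        linear_combination (-1 : F) * h6
  -- the index of `Inn` in `autK`
  obtain ⟨φ, hφs, hφk⟩ := Helper45.ID.autK_mod_inn_two Q hodd hQ hcard2 heven D hscal g₁ c₁ hg₁
    hc₁ hdet₁ hneg
  have hidx : (Inn (POmega F ⇑Q)).relIndex (Helper45.ID.autK Q D) = 2 := by
    show ((Inn (POmega F ⇑Q)).subgroupOf (Helper45.ID.autK Q D)).index = 2
    rw [← hφk, Subgroup.index_ker, MonoidHom.range_eq_top.mpr hφs, Subgroup.card_top,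
      Nat.card_eq_fintype_card]
    rfl
  have hnormT : ∀ g ∈ Helper45.ID.autK Q D, ∀ t ∈ Inn (POmega F ⇑Q),
      g * t * g⁻¹ ∈ Inn (POmega F ⇑Q) :=
    fun g _ t ht => (innNormal (POmega F ⇑Q)).conj_mem t ht g
  rw [Helper44.POm.splitCount_eq_relIndex (Helper45.ID.autK Q D) (Inn (POmega F ⇑Q))
    (Inn (POmega F ⇑Q)) x hnormT ?_, hidx]
  intro g hg
  constructor
  · intro hgT
    exact ⟨g, hgT, rfl⟩
  · rintro ⟨t, ht, hgt⟩
    have h3 : (t⁻¹ * g) * x = x * (t⁻¹ * g) := by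
      have h4 : t⁻¹ * (g * x * g⁻¹) * g = t⁻¹ * (t * x * t⁻¹) * g := by rw [hgt]
      calc t⁻¹ * g * x = t⁻¹ * (g * x * g⁻¹) * g := by group
        _ = t⁻¹ * (t * x * t⁻¹) * g := h4
        _ = x * (t⁻¹ * g) := by group
    have h5 := hcent (t⁻¹ * g) (mul_mem (inv_mem (hInnG ht)) hg) h3
    have h6 : g = t * (t⁻¹ * g) := by group
    rw [h6]
    exact mul_mem ht h5

end Cfsg.Agent.Helper30.GmCCNT
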