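import Mathlib
import Cfsg.Agent.Helper30.GmBCNT
import Cfsg.Agent.Helper30.GmCCNT
import Cfsg.Agent.Helper47.GmSEMI
import Cfsg.Agent.Helper72.GmGRS
import Cfsg.Agent.Helper72.GmL
import Cfsg.Agent.Helper45.IDMinus
import Cfsg.Agent.Helper44.OmL

/-!
# Involutory graph automorphisms of `PΩ⁻_{2m+2}(q)`, `q` odd: the class count (helper30)
-/

set_option autoImplicit false
set_option linter.unusedSectionVars false
set_option linter.unusedVariables false
set_option linter.unusedSimpArgs false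

namespace Cfsg.Agent.Helper30.Gm

open Matrix Cfsg
open Cfsg.Agent.Helper45.OO (semiAut semiMap glMap)
open Cfsg.Agent.S2726 (gramM)

universe u

section minus

variable {F : Type u} [Field F] [Fintype F] {m : ℕ}

/-- an involutory automorphism of `PΩ⁻` induced by a semisimilarity pair `(g, σ)` with
`σ ∘ σ = id` has `σ = 1` -/
theorem minus_semi_invol (hodd : Odd (Fintype.card F)) (hm : 3 ≤ m) (a b : F)
    (hab : ∀ z₁ z₂ : F, z₁ ^ 2 + a * z₁ * z₂ + b * z₂ ^ 2 = 0 → z₁ = 0 ∧ z₂ = 0)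
    (g : GL ((Fin m ⊕ Fin m) ⊕ Fin 2) F) (σ : F ≃+* F)
    (hg : IsSemisimilarityPair (quadFormMinus m F a b) g σ) (hσ2 : ∀ x, σ (σ x) = x)
    (hγ2 : semiAut (quadFormMinus m F a b) g σ hg * semiAut (quadFormMinus m F a b) g σ hg = 1) :
    σ = RingEquiv.refl F := by
  by_contra hσ
  have h2 := Helper45.two_ne_zero_of_odd_card hodd
  have hL := Helper72.GmL.isSquare_of_fixed h2 σ hσ hσ2
  have hneg1 : IsSquare (-1 : F) := hL (-1) (by rw [map_neg, map_one])
  obtain ⟨i₀⟩ : Nonempty (Fin m) := ⟨⟨0, by omega⟩⟩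
  have hQ := Helper45.qMinus_nondeg (m := m) a b h2 hab
  have hcard : Fintype.card ((Fin m ⊕ Fin m) ⊕ Fin 2) = 2 * (m + 1) := by
    rw [Fintype.card_sum, Fintype.card_sum, Fintype.card_fin, Fintype.card_fin]
    omega
  have hn5 : 5 ≤ Fintype.card ((Fin m ⊕ Fin m) ⊕ Fin 2) := by omega
  have hmul := Helper45.OO.semiAut_mul (quadFormMinus m F a b) g g σ σ hg hg
  rw [hγ2] at hmul
  have hone := Helper45.OO.semiAut_one (quadFormMinus m F a b)
    (Helper45.OO.semi_one (quadFormMinus m F a b))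
  obtain ⟨-, l, hl⟩ := Helper45.OO.semi_unique (Helper45.qMinus m F a b h2) hQ hn5 1
    (g * glMap σ g) (RingEquiv.refl F) (σ * σ : RingAut F)
    (Helper45.OO.semi_one (quadFormMinus m F a b))
    (Helper45.OO.semi_mul (quadFormMinus m F a b) hg hg) (hone.trans hmul)
  obtain ⟨c, hc⟩ := id hg
  -- the product is a scalar
  have hl' : ∀ x : (Fin m ⊕ Fin m) ⊕ Fin 2 → F,
      ((g : Matrix ((Fin m ⊕ Fin m) ⊕ Fin 2) ((Fin m ⊕ Fin m) ⊕ Fin 2) F) * (g : Matrix ((Fin m ⊕ Fin m) ⊕ Fin 2) ((Fin m ⊕ Fin m) ⊕ Fin 2) F).map σ) *ᵥ x = l • x := by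
    intro x
    have h3 := hl x
    unfold semiMap at h3
    rw [Units.val_one, Matrix.one_mulVec, Units.val_mul, Helper45.OO.glMap_coe] at h3
    have e1 : (fun i => (σ * σ : RingAut F) (x i)) = x := by
      funext i
      exact hσ2 (x i)
    have e2 : (fun i => (RingEquiv.refl F) (x i)) = x := rfl
    rw [e1, e2] at h3
    exact h3
  have hAA : (g : Matrix ((Fin m ⊕ Fin m) ⊕ Fin 2) ((Fin m ⊕ Fin m) ⊕ Fin 2) F) * (g : Matrix ((Fin m ⊕ Fin m) ⊕ Fin 2) ((Fin m ⊕ Fin m) ⊕ Fin 2) F).map σ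
      = l • (1 : Matrix ((Fin m ⊕ Fin m) ⊕ Fin 2) ((Fin m ⊕ Fin m) ⊕ Fin 2) F) := by
    apply Helper13.mulVec_ext
    intro x
    rw [hl', Matrix.smul_mulVec, Matrix.one_mulVec]
  have hAJ := Helper72.GmGRS.gram_of_semi h2 (quadFormMinus m F a b) (gramM a b m) (S2726.quadM_eq a b)
    (S2726.gramM_transpose a b) (g : Matrix ((Fin m ⊕ Fin m) ⊕ Fin 2) ((Fin m ⊕ Fin m) ⊕ Fin 2) F) σ (c : F) hc
  have hv₀ : quadFormMinus m F a b (S2726.v0M F i₀) = 1 := S2726.quad_v0M a b i₀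
  have hlam : l * l = (c : F) * σ (c : F) := by
    have h3 := hc ((g : Matrix ((Fin m ⊕ Fin m) ⊕ Fin 2) ((Fin m ⊕ Fin m) ⊕ Fin 2) F) *ᵥ fun i => σ (S2726.v0M F i₀ i))
    have h4 : (fun i => σ (((g : Matrix ((Fin m ⊕ Fin m) ⊕ Fin 2) ((Fin m ⊕ Fin m) ⊕ Fin 2) F) *ᵥ fun j => σ (S2726.v0M F i₀ j)) i))
        = (g : Matrix ((Fin m ⊕ Fin m) ⊕ Fin 2) ((Fin m ⊕ Fin m) ⊕ Fin 2) F).map σ *ᵥ S2726.v0M F i₀ := by
      funext i
      have h5 := RingHom.map_mulVec (σ : F →+* F)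
        (g : Matrix ((Fin m ⊕ Fin m) ⊕ Fin 2) ((Fin m ⊕ Fin m) ⊕ Fin 2) F)
        (fun j => σ (S2726.v0M F i₀ j)) i
      have e6 : ((σ : F →+* F) : F → F) ∘ (fun j => σ (S2726.v0M F i₀ j)) = S2726.v0M F i₀ := by
        funext j
        exact hσ2 _
      rw [e6] at h5
      exact h5
    rw [h4, Matrix.mulVec_mulVec, hl', hc, hv₀, map_one, mul_one] at h3
    have h6 : quadFormMinus m F a b (l • S2726.v0M F i₀) = l * l * 1 := by
      have h7 := QuadraticMap.map_smul (Helper45.qMinus m F a b h2) l (S2726.v0M F i₀)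
      rw [smul_eq_mul] at h7
      rw [← hv₀]
      exact h7
    rw [h6, mul_one] at h3
    exact h3
  have hJ : ¬ IsSquare (gramM a b m).det := by
    rw [Helper45.isSquare_gramM_det_iff a b h2 hab, not_not]
    exact hneg1.pow (m + 1)
  exact Helper47.GmSEMI.no_semi_involution σ hσ2 hL (g : Matrix ((Fin m ⊕ Fin m) ⊕ Fin 2) ((Fin m ⊕ Fin m) ⊕ Fin 2) F) (gramM a b m) (c : F) l c.ne_zero hJ
    hAJ hAA hlam (m + 1) hcard

set_option maxHeartbeats 1600000 in
/-- **involutory graph automorphisms of `PΩ⁻_{2m+2}(q)`, `q` odd: the number of `PΩ⁻`-classes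
in the `Inndiag`-class** -/
theorem minus_graph_class (hodd : Odd (Fintype.card F)) (hm : 3 ≤ m) (a b : F)
    (hab : ∀ z₁ z₂ : F, z₁ ^ 2 + a * z₁ * z₂ + b * z₂ ^ 2 = 0 → z₁ = 0 ∧ z₂ = 0)
    (γ : MulAut (POmega F (quadFormMinus m F a b)))
    (hγ : IsGraphAutClassPOmegaMinus m a b γ) (hγ2 : orderOf γ = 2) :
    (splitClassCount (inndiagPOmegaMinus m F a b) (Inn (POmega F (quadFormMinus m F a b))) γ = 1
      ∨ splitClassCount (inndiagPOmegaMinus m F a b)
        (Inn (POmega F (quadFormMinus m F a b))) γ = 2) ∧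
    (¬ (Even m ∧ Fintype.card F % 4 = 1) →
      splitClassCount (inndiagPOmegaMinus m F a b)
        (Inn (POmega F (quadFormMinus m F a b))) γ = 2) := by
  classical
  have h2 := Helper45.two_ne_zero_of_odd_card hodd
  have hchar : ringChar F ≠ 2 := Helper45.ringChar_ne_two h2
  obtain ⟨i₀⟩ : Nonempty (Fin m) := ⟨⟨0, by omega⟩⟩
  have hR : Fintype.card F % 2 = 1 := by
    rcases hodd with ⟨k, hk⟩
    omega
  obtain ⟨Q, hQdef⟩ : ∃ Q, Q = Helper45.qMinus m F a b h2 := ⟨_, rfl⟩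
  have hQc : ⇑Q = quadFormMinus m F a b := by rw [hQdef]; rfl
  have hQ : (QuadraticMap.polarBilin Q).Nondegenerate := by
    rw [hQdef]
    exact Helper45.qMinus_nondeg a b h2 hab
  have hcard : Fintype.card ((Fin m ⊕ Fin m) ⊕ Fin 2) = 2 * (m + 1) := by
    rw [Fintype.card_sum, Fintype.card_sum, Fintype.card_fin, Fintype.card_fin]
    omega
  have hn5 : 5 ≤ Fintype.card ((Fin m ⊕ Fin m) ⊕ Fin 2) := by omega
  have hcard2 : 2 ≤ Fintype.card ((Fin m ⊕ Fin m) ⊕ Fin 2) := by omega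
  have heven : Even (Fintype.card ((Fin m ⊕ Fin m) ⊕ Fin 2)) := by
    rw [hcard]
    exact even_two_mul _
  have D : Helper45.KData ⇑(Helper45.qMinus m F a b h2) (m + 1) (gramM a b m)
      (S2726.v0M F i₀) := by
    constructor
    · simp only [Fintype.card_sum, Fintype.card_fin]
      omega
    · exact S2726.quadM_eq a b
    · exact S2726.gramM_transpose a b
    · exact S2726.gramM_det a b h2 hab
    · exact S2726.quad_v0M a b _
    · exact h2
  subst hQdef
  obtain ⟨c₁, hc₁⟩ := FiniteField.exists_nonsquare hchar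
  have hc₁0 : c₁ ≠ 0 := by
    rintro rfl
    exact hc₁ ⟨0, by simp⟩
  obtain ⟨z₁, z₂, hz⟩ := S2726.exists_norm a b hR h2 (S2726.disc_ne a b h2 hab) c₁
  obtain ⟨g₁, hg₁, hdet₁⟩ := S2726.exists_g1M (m := m) a b h2 c₁ hc₁0 z₁ z₂ hz
  have hscal : ∀ g : GL ((Fin m ⊕ Fin m) ⊕ Fin 2) F,
      g ∈ Geo.quadSimilarityGroup (F := F) ⇑(Helper45.qMinus m F a b h2) →
      Helper45.Ind ⇑(Helper45.qMinus m F a b h2) g 1 →
      ∃ c : F, (g : Matrix ((Fin m ⊕ Fin m) ⊕ Fin 2) ((Fin m ⊕ Fin m) ⊕ Fin 2) F) = c • (1 : Matrix ((Fin m ⊕ Fin m) ⊕ Fin 2) ((Fin m ⊕ Fin m) ⊕ Fin 2) F) :=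
    fun g hg h1 => Helper45.scalar_of_ind_one_minus h2 hm a b hab g hg h1
  have hG : inndiagPOmegaMinus m F a b = Helper45.ID.autK (Helper45.qMinus m F a b h2) D :=
    Helper45.ID.inndiag_minus_eq hodd a b hab i₀ D
  have hiff := Helper45.negO_minus_mem_iff (m := m) hodd h2 a b hab
  rw [(Helper45.pow_mod_four _ (m + 1) hodd).2] at hiff
  have hγγ : γ * γ = 1 := by
    have h3 := pow_orderOf_eq_one γ
    rw [hγ2, pow_two] at h3
    exact h3
  -- `γ` is induced by an improper similarity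
  have hred : ∃ (h : GL ((Fin m ⊕ Fin m) ⊕ Fin 2) F)
      (hh : h ∈ Geo.quadSimilarityGroup (F := F) ⇑(Helper45.qMinus m F a b h2)),
      γ = Helper44.POm.simHom ⇑(Helper45.qMinus m F a b h2) ⟨h, hh⟩ ∧
      (h : Matrix ((Fin m ⊕ Fin m) ⊕ Fin 2) ((Fin m ⊕ Fin m) ⊕ Fin 2) F).det ≠ Helper45.mult ⇑(Helper45.qMinus m F a b h2) (S2726.v0M F i₀) h
        ^ (m + 1) := by
    obtain ⟨Θ, hΘ1, hΘ2⟩ := Helper44.POm.minus_theta hm a b hab
    obtain ⟨g, hg, hγeq⟩ := hΘ2 γ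
    have hσσ : Θ γ * Θ γ = 1 := by rw [← map_mul, hγγ, map_one]
    have hσ2 : ∀ x, (Θ γ) ((Θ γ) x) = x := fun x => by
      have h3 := congrArg (fun τ : RingAut F => τ x) hσσ
      exact h3
    have hσ1 : Θ γ = RingEquiv.refl F :=
      minus_semi_invol hodd hm a b hab g (Θ γ) hg hσ2 (by rw [← hγeq]; exact hγγ)
    have key : ∀ (σ : F ≃+* F) (hg : IsSemisimilarityPair (quadFormMinus m F a b) g σ),
        σ = RingEquiv.refl F → γ = semiAut (quadFormMinus m F a b) g σ hg →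
        ∃ hh : g ∈ Geo.quadSimilarityGroup (F := F) (quadFormMinus m F a b),
          γ = Helper44.POm.simHom (quadFormMinus m F a b) ⟨g, hh⟩ := by
      intro σ hg hσ hγe
      subst hσ
      exact ⟨hg, hγe⟩
    obtain ⟨hh, hγe⟩ := key (Θ γ) hg hσ1 hγeq
    refine ⟨g, hh, hγe, ?_⟩
    intro hdet
    apply hγ.2.1
    rw [hG]
    refine (Helper45.ID.mem_autK_iff (Helper45.qMinus m F a b h2) D γ).mpr ⟨g, ⟨hh, hdet⟩, ?_⟩
    rw [hγe]
    exact (Helper45.OO.semi_ind_iff _ g (RingEquiv.refl F) (Helper44.POm.semi_of_mem _ g hh) _).mpr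
      rfl
  by_cases hneg : Helper45.negO (Helper45.qMinus m F a b h2)
      ∈ Omega F ⇑(Helper45.qMinus m F a b h2)
  · -- `-1 ∈ Ω`
    obtain ⟨h, hh, hγe, hnp⟩ := hred
    have hcount : splitClassCount (inndiagPOmegaMinus m F a b)
        (Inn (POmega F (quadFormMinus m F a b))) γ = 2 := by
      rw [hG, hγe]
      exact GmBCNT.graph_count_neg (Helper45.qMinus m F a b h2) hodd hQ hn5 D g₁ c₁ hg₁ hc₁ hdet₁
        hneg h hh hnp (by rw [← hγe]; exact hγγ)
    exact ⟨Or.inr hcount, fun _ => hcount⟩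
  · by_cases hpar : Even (m + 1)
    · obtain ⟨h, hh, hγe, hnp⟩ := hred
      have hcount : splitClassCount (inndiagPOmegaMinus m F a b)
          (Inn (POmega F (quadFormMinus m F a b))) γ = 2 := by
        rw [hG, hγe]
        exact GmCCNT.graph_count_even (Helper45.qMinus m F a b h2) hodd hQ hn5 D g₁ c₁ hg₁ hc₁
          hdet₁ hneg hpar h hh hnp (by rw [← hγe]; exact hγγ)
      exact ⟨Or.inr hcount, fun _ => hcount⟩
    · have hmeven : Even m := by
        rcases Nat.even_or_odd m with he | ho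
        · exact he
        · exact absurd ho.add_one hpar
      have hq1 : Fintype.card F % 4 = 1 := by
        have hq4 : Fintype.card F % 4 = 1 ∨ Fintype.card F % 4 = 3 := by
          rcases hodd with ⟨k, hk⟩
          omega
        rcases hq4 with h1 | h3
        · exact h1
        · exact absurd (hiff.mpr ⟨hmeven.add_one, h3⟩) hneg
      refine ⟨?_, fun hnot => absurd ⟨hmeven, hq1⟩ hnot⟩
      obtain ⟨φ, hφs, hφk⟩ := Helper45.ID.autK_mod_inn_two (Helper45.qMinus m F a b h2) hodd hQ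
        hcard2 heven D hscal g₁ c₁ hg₁ hc₁ hdet₁ hneg
      have hidx : (Inn (POmega F (quadFormMinus m F a b))).relIndex
          (inndiagPOmegaMinus m F a b) = 2 := by
        rw [hG]
        show ((Inn (POmega F ⇑(Helper45.qMinus m F a b h2))).subgroupOf
          (Helper45.ID.autK (Helper45.qMinus m F a b h2) D)).index = 2
        rw [← hφk, Subgroup.index_ker, MonoidHom.range_eq_top.mpr hφs, Subgroup.card_top,
          Nat.card_eq_fintype_card]
        rfl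
      have hInnG : Inn (POmega F (quadFormMinus m F a b)) ≤ inndiagPOmegaMinus m F a b := by
        rw [hG]
        exact Helper45.ID.inn_le_autK (Helper45.qMinus m F a b h2) D
      have hnormT : ∀ g ∈ inndiagPOmegaMinus m F a b,
          ∀ t ∈ Inn (POmega F (quadFormMinus m F a b)),
          g * t * g⁻¹ ∈ Inn (POmega F (quadFormMinus m F a b)) :=
        fun g _ t ht => (innNormal (POmega F (quadFormMinus m F a b))).conj_mem t ht g
      exact Helper44.POm.splitCount_one_or_two _ _ γ hInnG hnormT hidx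

end minus

end Cfsg.Agent.Helper30.Gm
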