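import Mathlib

/-!
# Finite special Jordan division rings in characteristic two are fields

Let `R` be a finite ring of characteristic `2` and `S` an additive subgroup of `R` containing `1`
such that every nonzero element of `S` has an inverse lying in `S`.  Then the elements of `S`
commute with one another, and `S` is closed under multiplication (so `S` is a finite field).
-/

set_option autoImplicit false
set_option linter.unusedSimpArgs false
set_option linter.unnecessarySimpa false
set_option linter.unusedVariables false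
set_option linter.style.haveILetI false

namespace Cfsg.Agent.Helper30

open MulOpposite

section JordanField

variable {R : Type*} [Ring R]

/-- `S` contains `1` and the inverse of each of its nonzero elements. -/
structure JordanDiv (S : AddSubgroup R) : Prop where
  one_mem : (1 : R) ∈ S
  inv_mem : ∀ s ∈ S, s ≠ 0 → ∃ t ∈ S, s * t = 1 ∧ t * s = 1

theorem JordanDiv.isUnit {S : AddSubgroup R} (hS : JordanDiv S) {s : R} (hs : s ∈ S) (h0 : s ≠ 0) :
    IsUnit s := by
  obtain ⟨t, _, h1, h2⟩ := hS.inv_mem s hs h0
  exact ⟨⟨s, t, h1, h2⟩, rfl⟩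

/-- Hua's identity: `S` is closed under `b ↦ a b a`. -/
theorem JordanDiv.hua [CharP R 2] {S : AddSubgroup R} (hS : JordanDiv S) {a b : R}
    (ha : a ∈ S) (hb : b ∈ S) : a * b * a ∈ S := by
  by_cases ha0 : a = 0
  · subst ha0; simp
  by_cases hb0 : b = 0
  · subst hb0; simp
  obtain ⟨a', ha', haa', ha'a⟩ := hS.inv_mem a ha ha0
  obtain ⟨b', hb', hbb', hb'b⟩ := hS.inv_mem b hb hb0
  by_cases hc0 : b' + a = 0
  · have hba : b' = a := CharTwo.add_eq_zero.mp hc0
    rw [hba] at hb'b
    rw [hb'b, one_mul]; exact ha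
  obtain ⟨c', hc', hcc', hc'c⟩ := hS.inv_mem (b' + a) (S.add_mem hb' ha) hc0
  have hd : a' + c' ∈ S := S.add_mem ha' hc'
  have key : (a' + c') * (a + a * b * a) = 1 := by
    have h1 : (b' + a) * (b * a) = a + a * b * a := by
      rw [add_mul, ← mul_assoc b' b a, hb'b, one_mul, mul_assoc]
    have h2 : c' * (a + a * b * a) = b * a := by
      rw [← h1, ← mul_assoc, hc'c, one_mul]
    have h3 : a' * (a + a * b * a) = 1 + b * a := by
      rw [mul_add, ha'a, mul_assoc a b a, ← mul_assoc a' a (b * a), ha'a, one_mul]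
    rw [add_mul, h2, h3, add_assoc, CharTwo.add_self_eq_zero, add_zero]
  have hd0 : a' + c' ≠ 0 := by
    intro h
    rw [h, zero_mul] at key
    exact ha0 (by rw [← mul_one a, ← key, mul_zero])
  obtain ⟨d', hd', hdd', hd'd⟩ := hS.inv_mem _ hd hd0
  have h4 : d' = a + a * b * a := by
    calc d' = d' * ((a' + c') * (a + a * b * a)) := by rw [key, mul_one]
      _ = a + a * b * a := by rw [← mul_assoc, hd'd, one_mul]
  have h5 : a * b * a = a + d' := by
    rw [h4, ← add_assoc, CharTwo.add_self_eq_zero, zero_add]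
  rw [h5]; exact S.add_mem ha hd'

theorem JordanDiv.triple [CharP R 2] {S : AddSubgroup R} (hS : JordanDiv S) {a b c : R}
    (ha : a ∈ S) (hb : b ∈ S) (hc : c ∈ S) : a * b * c + c * b * a ∈ S := by
  have h := S.sub_mem (S.sub_mem (hS.hua (S.add_mem ha hc) hb) (hS.hua ha hb)) (hS.hua hc hb)
  have e : (a + c) * b * (a + c) - a * b * a - c * b * c = a * b * c + c * b * a := by
    noncomm_ring
  rwa [e] at h

theorem JordanDiv.pow_mem [CharP R 2] {S : AddSubgroup R} (hS : JordanDiv S) {a : R}
    (ha : a ∈ S) : ∀ n : ℕ, a ^ n ∈ S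
  | 0 => by simpa using hS.one_mem
  | 1 => by simpa using ha
  | (n + 2) => by
      have h := hS.hua ha (JordanDiv.pow_mem hS ha n)
      have e : a * a ^ n * a = a ^ (n + 2) := by
        rw [pow_succ a (n + 1), pow_succ' a n]
      rwa [e] at h

theorem exists_pow_eq_one_of_isUnit [Finite R] {x : R} (hx : IsUnit x) :
    ∃ n : ℕ, 0 < n ∧ x ^ n = 1 := by
  obtain ⟨u, rfl⟩ := hx
  refine ⟨orderOf u, orderOf_pos u, ?_⟩
  rw [← Units.val_pow_eq_pow_val, pow_orderOf_eq_one, Units.val_one]

/-- Every element of `S` is the square of one of its powers. -/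
theorem JordanDiv.exists_pow_sq [Finite R] [CharP R 2] {S : AddSubgroup R} (hS : JordanDiv S)
    {a : R} (ha : a ∈ S) : ∃ m : ℕ, a ^ m * a ^ m = a := by
  by_cases ha0 : a = 0
  · subst ha0; exact ⟨1, by simp⟩
  obtain ⟨u, rfl⟩ := hS.isUnit ha ha0
  have hn : (u : R) ^ orderOf u = 1 := by
    rw [← Units.val_pow_eq_pow_val, pow_orderOf_eq_one, Units.val_one]
  have hpos := orderOf_pos u
  rcases Nat.even_or_odd (orderOf u) with hev | hodd
  · exfalso
    obtain ⟨k, hk⟩ := hev
    have hkpos : 0 < k := by omega
    have hj : (u : R) ^ k ∈ S := hS.pow_mem ha k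
    have hjj : (u : R) ^ k * (u : R) ^ k = 1 := by rw [← pow_add, ← hk, hn]
    have hsq : ((u : R) ^ k + 1) * ((u : R) ^ k + 1) = 0 := by
      have e : ((u : R) ^ k + 1) * ((u : R) ^ k + 1)
          = (u : R) ^ k * (u : R) ^ k + 1 + ((u : R) ^ k + (u : R) ^ k) := by noncomm_ring
      rw [e, hjj, CharTwo.add_self_eq_zero, CharTwo.add_self_eq_zero, add_zero]
    by_cases h1 : (u : R) ^ k + 1 = 0
    · have h2 : (u : R) ^ k = 1 := CharTwo.add_eq_zero.mp h1
      have h3 : u ^ k = 1 := by
        apply Units.ext
        rw [Units.val_pow_eq_pow_val, h2, Units.val_one]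
      exact pow_ne_one_of_lt_orderOf hkpos.ne' (by omega) h3
    · have hu := hS.isUnit (S.add_mem hj hS.one_mem) h1
      have h2 : IsUnit ((0 : R)) := by rw [← hsq]; exact hu.mul hu
      have h3 : (0 : R) = 1 := by
        obtain ⟨v, hv⟩ := h2
        have := v.mul_inv
        rw [hv, zero_mul] at this
        exact this
      exact ha0 (by rw [← mul_one (u : R), ← h3, mul_zero])
  · obtain ⟨k, hk⟩ := hodd
    refine ⟨k + 1, ?_⟩
    rw [← pow_add, show k + 1 + (k + 1) = orderOf u + 1 by omega, pow_succ, hn, one_mul]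

/-! ### Words and their reverses -/

/-- The "reversal" relation: the subring of `R × Rᵐᵒᵖ` generated by `(a, a)` and `(b, b)`. -/
def rho (a b : R) : Subring (R × Rᵐᵒᵖ) :=
  Subring.closure ({(a, op a), (b, op b)} : Set (R × Rᵐᵒᵖ))

theorem rho_left (a b : R) : (a, op a) ∈ rho a b := Subring.subset_closure (by simp)

theorem rho_right (a b : R) : (b, op b) ∈ rho a b := Subring.subset_closure (by simp)

theorem rho_symm (a b : R) : ∀ p ∈ rho a b, (p.2.unop, op p.1) ∈ rho a b := by
  intro p hp
  unfold rho at hp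
  induction hp using Subring.closure_induction with
  | mem x hx =>
    rcases hx with rfl | rfl
    · exact rho_left a b
    · exact rho_right a b
  | zero =>
    have e : (((0 : R × Rᵐᵒᵖ).2.unop, op (0 : R × Rᵐᵒᵖ).1) : R × Rᵐᵒᵖ) = 0 := by
      ext <;> simp
    rw [e]; exact Subring.zero_mem (rho a b)
  | one =>
    have e : (((1 : R × Rᵐᵒᵖ).2.unop, op (1 : R × Rᵐᵒᵖ).1) : R × Rᵐᵒᵖ) = 1 := by
      ext <;> simp
    rw [e]; exact Subring.one_mem (rho a b)
  | add x y hx hy ihx ihy =>
    have := Subring.add_mem _ ihx ihy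
    simpa using this
  | neg x hx ih =>
    have := Subring.neg_mem _ ih
    simpa using this
  | mul x y hx hy ihx ihy =>
    have := Subring.mul_mem _ ihy ihx
    simpa using this

theorem rho_list (a b : R) : ∀ p ∈ rho a b, p ∈ AddSubgroup.closure
    {q : R × Rᵐᵒᵖ | ∃ L : List R, (∀ c ∈ L, c = a ∨ c = b) ∧ q = (L.prod, op L.reverse.prod)} := by
  intro p hp
  rw [rho, Subring.mem_closure_iff] at hp
  refine AddSubgroup.closure_mono ?_ hp
  intro q hq
  induction hq using Submonoid.closure_induction with
  | mem x hx =>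
    rcases hx with rfl | rfl
    · exact ⟨[a], by simp, by simp⟩
    · exact ⟨[b], by simp, by simp⟩
  | one => exact ⟨[], by simp, by simp [Prod.ext_iff]⟩
  | mul x y hx hy ihx ihy =>
    obtain ⟨L1, h1, rfl⟩ := ihx
    obtain ⟨L2, h2, rfl⟩ := ihy
    refine ⟨L1 ++ L2, ?_, ?_⟩
    · intro c hc
      rcases List.mem_append.mp hc with h | h
      · exact h1 c h
      · exact h2 c h
    · simp [List.prod_append, List.reverse_append]

/-- Letters of type `τ`: the powers of `g τ`. -/
def IsLt (g : Bool → R) (τ : Bool) (c : R) : Prop := ∃ i : ℕ, c = g τ ^ i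

theorem IsLt.commute {g : Bool → R} {τ : Bool} {c d : R} (hc : IsLt g τ c) (hd : IsLt g τ d) :
    c * d = d * c := by
  obtain ⟨i, rfl⟩ := hc
  obtain ⟨j, rfl⟩ := hd
  rw [← pow_add, ← pow_add, add_comm]

theorem IsLt.mul {g : Bool → R} {τ : Bool} {c d : R} (hc : IsLt g τ c) (hd : IsLt g τ d) :
    IsLt g τ (c * d) := by
  obtain ⟨i, rfl⟩ := hc
  obtain ⟨j, rfl⟩ := hd
  exact ⟨i + j, (pow_add _ _ _).symm⟩

theorem IsLt.split {g : Bool → R} {τ : Bool} {c d : R} (hc : IsLt g τ c) (hd : IsLt g τ d) :
    ∃ u r, IsLt g τ u ∧ IsLt g τ r ∧ ((c = u ∧ d = r * u) ∨ (c = u * r ∧ d = u)) := by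
  obtain ⟨i, rfl⟩ := hc
  obtain ⟨j, rfl⟩ := hd
  rcases le_total i j with h | h
  · refine ⟨g τ ^ i, g τ ^ (j - i), ⟨i, rfl⟩, ⟨_, rfl⟩, Or.inl ⟨rfl, ?_⟩⟩
    rw [← pow_add, Nat.sub_add_cancel h]
  · refine ⟨g τ ^ j, g τ ^ (i - j), ⟨j, rfl⟩, ⟨_, rfl⟩, Or.inr ⟨?_, rfl⟩⟩
    rw [← pow_add, Nat.add_sub_cancel' h]

theorem word_aux1 (c d m1 M0 M0' : R) (h : m1 * d = d * m1) :
    c * (m1 * M0 * d) + d * (M0' * m1 * c)
      = (c * (m1 * M0 + M0' * m1) * d + d * (m1 * M0 + M0' * m1) * c)
        - (c * (M0' * (m1 * d)) + (m1 * d) * (M0 * c)) := by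
  have h' : (m1 * d) * (M0 * c) = d * m1 * (M0 * c) := by rw [h]
  rw [h']; noncomm_ring

/-- For a word `L` in the powers of two elements of `S`, the sum of `L` and its reverse lies
in `S`. -/
theorem word_add_reverse_mem [CharP R 2] {S : AddSubgroup R} (hS : JordanDiv S) (g : Bool → R)
    (hg : ∀ τ, g τ ∈ S) :
    ∀ n : ℕ, ∀ L : List R, L.length ≤ n → (∀ c ∈ L, ∃ τ, IsLt g τ c) →
      L.prod + L.reverse.prod ∈ S := by
  have hLt : ∀ {τ : Bool} {c : R}, IsLt g τ c → c ∈ S := by
    rintro τ c ⟨i, rfl⟩; exact hS.pow_mem (hg τ) i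
  intro n
  induction n with
  | zero =>
    intro L hL _
    have : L = [] := List.length_eq_zero_iff.mp (Nat.le_zero.mp hL)
    subst this
    simpa using S.add_mem hS.one_mem hS.one_mem
  | succ n ih =>
    intro L hL hlet
    rcases L with _ | ⟨c, L'⟩
    · simpa using S.add_mem hS.one_mem hS.one_mem
    rcases List.eq_nil_or_concat L' with rfl | ⟨m, d, hmd⟩
    · obtain ⟨τ, hτ⟩ := hlet c (by simp)
      simpa using S.add_mem (hLt hτ) (hLt hτ)
    rw [List.concat_eq_append] at hmd
    subst hmd
    obtain ⟨τc, hc⟩ := hlet c (by simp)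
    obtain ⟨τd, hd⟩ := hlet d (by simp)
    have hm : ∀ x ∈ m, ∃ τ, IsLt g τ x := fun x hx => hlet x (by simp [hx])
    have hlen : m.length + 1 ≤ n := by simp at hL; omega
    have hprod : (c :: (m ++ [d])).prod + (c :: (m ++ [d])).reverse.prod
        = c * (m.prod * d) + d * (m.reverse.prod * c) := by
      simp [List.prod_append, mul_assoc]
    rw [hprod]
    by_cases hτ : τc = τd
    · subst hτ
      obtain ⟨u, r, hu, hr, h | h⟩ := hc.split hd
      · obtain ⟨hcu, hdu⟩ := h
        have hur : u * r = r * u := hu.commute hr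
        have h1 := ih (m ++ [r]) (by simp; omega) (by
          intro x hx
          rcases List.mem_append.mp hx with h | h
          · exact hm x h
          · rw [List.mem_singleton] at h; subst h; exact ⟨_, hr⟩)
        have h2 := hS.hua (hLt hu) h1
        have e : u * ((m ++ [r]).prod + (m ++ [r]).reverse.prod) * u
            = c * (m.prod * d) + d * (m.reverse.prod * c) := by
          have e1 : d * (m.reverse.prod * c) = u * r * (m.reverse.prod * u) := by
            rw [hdu, hcu, hur]
          rw [e1, hcu, hdu]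
          simp only [List.prod_append, List.reverse_append, List.prod_singleton,
            List.reverse_singleton, List.prod_cons, List.prod_nil, List.singleton_append, mul_one]
          noncomm_ring
        rwa [e] at h2
      · obtain ⟨hcu, hdu⟩ := h
        have hur : u * r = r * u := hu.commute hr
        have h1 := ih (r :: m) (by simp; omega) (by
          intro x hx
          rcases List.mem_cons.mp hx with h | h
          · subst h; exact ⟨_, hr⟩
          · exact hm x h)
        have h2 := hS.hua (hLt hu) h1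
        have e : u * ((r :: m).prod + (r :: m).reverse.prod) * u
            = c * (m.prod * d) + d * (m.reverse.prod * c) := by
          have e1 : d * (m.reverse.prod * c) = u * (m.reverse.prod * (r * u)) := by
            rw [hdu, hcu, hur]
          rw [e1, hcu, hdu]
          simp only [List.prod_append, List.reverse_cons, List.prod_singleton,
            List.prod_cons, List.prod_nil, mul_one]
          noncomm_ring
        rwa [e] at h2
    · rcases m with _ | ⟨m1, m'⟩
      · have := hS.triple (hLt hc) hS.one_mem (hLt hd)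
        simpa using this
      · obtain ⟨τ1, h1⟩ := hm m1 (by simp)
        have hτ1 : τ1 = τc ∨ τ1 = τd := by
          revert hτ; cases τ1 <;> cases τc <;> cases τd <;> simp
        rcases hτ1 with rfl | rfl
        · have hcm : c * m1 = m1 * c := hc.commute h1
          have h2 := ih ((c * m1) :: (m' ++ [d])) (by simp at hlen ⊢; omega) (by
            intro x hx
            rcases List.mem_cons.mp hx with h | h
            · subst h; exact ⟨_, hc.mul h1⟩
            · exact hlet x (by simp at h ⊢; tauto))
          have e : ((c * m1) :: (m' ++ [d])).prod + ((c * m1) :: (m' ++ [d])).reverse.prod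
              = c * ((m1 :: m').prod * d) + d * ((m1 :: m').reverse.prod * c) := by
            have e1 : d * ((m1 :: m').reverse.prod * c) = d * (m'.reverse.prod * (c * m1)) := by
              rw [hcm]
              simp only [List.prod_append, List.reverse_cons, List.prod_singleton,
                List.prod_cons, List.prod_nil, List.reverse_nil, one_mul, List.nil_append, mul_one, mul_assoc]
            rw [e1]
            simp only [List.prod_append, List.reverse_cons, List.reverse_append,
              List.prod_singleton, List.reverse_singleton, List.singleton_append,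
              List.prod_cons, List.prod_nil, List.reverse_nil, one_mul, List.nil_append, mul_one, mul_assoc]
          rwa [e] at h2
        · have hmd : m1 * d = d * m1 := h1.commute hd
          have ht := ih (m1 :: m') (by omega) hm
          have h3 := hS.triple (hLt hc) ht (hLt hd)
          have h2 := ih (c :: (m'.reverse ++ [m1 * d])) (by simp at hlen ⊢; omega) (by
            intro x hx
            rcases List.mem_cons.mp hx with h | h
            · subst h; exact ⟨_, hc⟩
            · rcases List.mem_append.mp h with h | h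
              · exact hm x (by simp at h ⊢; tauto)
              · rw [List.mem_singleton] at h; subst h; exact ⟨_, h1.mul hd⟩)
          have e : c * ((m1 :: m').prod * d) + d * ((m1 :: m').reverse.prod * c)
              = (c * ((m1 :: m').prod + (m1 :: m').reverse.prod) * d
                  + d * ((m1 :: m').prod + (m1 :: m').reverse.prod) * c)
                - ((c :: (m'.reverse ++ [m1 * d])).prod
                  + (c :: (m'.reverse ++ [m1 * d])).reverse.prod) := by
            have := word_aux1 c d m1 m'.prod m'.reverse.prod hmd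
            simp only [List.prod_append, List.reverse_cons, List.reverse_append,
              List.prod_singleton, List.reverse_singleton, List.singleton_append,
              List.prod_cons, List.prod_nil, List.reverse_nil, one_mul, List.nil_append, mul_one, List.reverse_reverse, List.cons_append]
            rw [this]
          rw [e]; exact S.sub_mem h3 h2


theorem list_mem_rho (a b : R) : ∀ L : List R, (∀ c ∈ L, c = a ∨ c = b) →
    (L.prod, op L.reverse.prod) ∈ rho a b
  | [], _ => by
    have e : ((([] : List R).prod, op ([] : List R).reverse.prod) : R × Rᵐᵒᵖ) = 1 := by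
      ext <;> simp
    rw [e]; exact Subring.one_mem _
  | c :: m, h => by
    have ih := list_mem_rho a b m (fun x hx => h x (by simp [hx]))
    have hc : (c, op c) ∈ rho a b := by
      rcases h c (by simp) with rfl | rfl
      · exact rho_left _ _
      · exact rho_right _ _
    have := Subring.mul_mem _ hc ih
    have e : (c, op c) * (m.prod, op m.reverse.prod)
        = ((c :: m).prod, op (c :: m).reverse.prod) := by
      ext <;> simp [List.prod_append]
    rwa [e] at this

theorem rho_add_mem [CharP R 2] {S : AddSubgroup R} (hS : JordanDiv S) {a b : R}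
    (ha : a ∈ S) (hb : b ∈ S) : ∀ p ∈ rho a b, p.1 + p.2.unop ∈ S := by
  intro p hp
  have h := rho_list a b p hp
  clear hp
  induction h using AddSubgroup.closure_induction with
  | mem x hx =>
    obtain ⟨L, hL, rfl⟩ := hx
    refine word_add_reverse_mem hS (fun τ => if τ then a else b)
      (by intro τ; cases τ <;> simp [ha, hb]) L.length L le_rfl ?_
    intro c hc
    rcases hL c hc with rfl | rfl
    · exact ⟨true, 1, by simp⟩
    · exact ⟨false, 1, by simp⟩
  | zero => simp
  | add x y hx hy ihx ihy =>
    have := S.add_mem ihx ihy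
    have e : (x + y).1 + (x + y).2.unop = (x.1 + x.2.unop) + (y.1 + y.2.unop) := by
      simp only [Prod.fst_add, Prod.snd_add, unop_add]; abel
    rw [e]; exact this
  | neg x hx ih =>
    have e : (-x).1 + (-x).2.unop = -(x.1 + x.2.unop) := by
      simp only [Prod.fst_neg, Prod.snd_neg, unop_neg]; abel
    rw [e]; exact S.neg_mem ih

theorem list_mul_reverse_mem [CharP R 2] {S : AddSubgroup R} (hS : JordanDiv S) :
    ∀ L : List R, (∀ c ∈ L, c ∈ S) → L.prod * L.reverse.prod ∈ S
  | [], _ => by simpa using hS.one_mem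
  | c :: m, h => by
    have ih := list_mul_reverse_mem hS m (fun x hx => h x (by simp [hx]))
    have := hS.hua (h c (by simp)) ih
    have e : c * (m.prod * m.reverse.prod) * c = (c :: m).prod * (c :: m).reverse.prod := by
      simp [List.prod_append, mul_assoc]
    rwa [e] at this

theorem rho_mul_mem [CharP R 2] {S : AddSubgroup R} (hS : JordanDiv S) {a b : R}
    (ha : a ∈ S) (hb : b ∈ S) : ∀ p ∈ rho a b, p.1 * p.2.unop ∈ S := by
  intro p hp
  have h := rho_list a b p hp
  clear hp
  have key : p ∈ rho a b ∧ p.1 * p.2.unop ∈ S := by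
    induction h using AddSubgroup.closure_induction with
    | mem x hx =>
      obtain ⟨L, hL, rfl⟩ := hx
      refine ⟨list_mem_rho a b L hL, list_mul_reverse_mem hS L ?_⟩
      intro c hc
      rcases hL c hc with rfl | rfl
      · exact ha
      · exact hb
    | zero => exact ⟨Subring.zero_mem _, by simp⟩
    | add x y hx hy ihx ihy =>
      refine ⟨Subring.add_mem _ ihx.1 ihy.1, ?_⟩
      have hcross := rho_add_mem hS ha hb _ (Subring.mul_mem _ ihx.1 (rho_symm a b y ihy.1))
      have e : (x + y).1 * (x + y).2.unop = x.1 * x.2.unop + y.1 * y.2.unop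
          + ((x * (y.2.unop, op y.1)).1 + (x * (y.2.unop, op y.1)).2.unop) := by
        simp only [Prod.fst_add, Prod.snd_add, unop_add, Prod.fst_mul, Prod.snd_mul, unop_mul,
          unop_op]
        noncomm_ring
      rw [e]; exact S.add_mem (S.add_mem ihx.2 ihy.2) hcross
    | neg x hx ih =>
      refine ⟨Subring.neg_mem _ ih.1, ?_⟩
      have e : (-x).1 * (-x).2.unop = x.1 * x.2.unop := by
        simp only [Prod.fst_neg, Prod.snd_neg, unop_neg, neg_mul_neg]
      rw [e]; exact ih.2
  exact key.2

/-- A finite subring all of whose nonzero elements are units is commutative (Wedderburn). -/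
theorem subring_comm_of_units [Finite R] (T : Subring R) (h : ∀ x ∈ T, x ≠ 0 → IsUnit x) :
    ∀ x ∈ T, ∀ y ∈ T, x * y = y * x := by
  intro x hx y hy
  by_cases hR : Nontrivial R
  · haveI : NoZeroDivisors ↥T := ⟨by
      intro u v huv
      by_contra hcon
      push Not at hcon
      have hu : IsUnit (u : R) := h u u.2 (by intro h0; exact hcon.1 (Subtype.ext h0))
      have hv : IsUnit (v : R) := h v v.2 (by intro h0; exact hcon.2 (Subtype.ext h0))
      have h0 : (u : R) * (v : R) = 0 := by exact_mod_cast congrArg Subtype.val huv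
      have h1 : IsUnit (0 : R) := h0 ▸ hu.mul hv
      exact not_isUnit_zero h1⟩
    haveI : IsDomain ↥T := NoZeroDivisors.to_isDomain _
    have hf := Finite.isDomain_to_isField ↥T
    have := hf.mul_comm ⟨x, hx⟩ ⟨y, hy⟩
    exact congrArg Subtype.val this
  · rw [not_nontrivial_iff_subsingleton] at hR
    exact Subsingleton.elim _ _

/-- A central idempotent `e` whose reverse is `1 + e` kills the commutator of `a` and `b`. -/
theorem jordan_idem_aux [Finite R] [CharP R 2] {S : AddSubgroup R} (hS : JordanDiv S) {a b : R}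
    (ha : a ∈ S) (hb : b ∈ S) (e : R) (hee : e * e = e) (he0 : e ≠ 0)
    (heρ : (e, op (1 + e)) ∈ rho a b) (hea : e * a = a * e) (heb : e * b = b * e) :
    e * (a * b) = e * (b * a) := by
  have F1 := rho_add_mem hS ha hb
  have hc1 : ∀ p ∈ rho a b, e * p.1 = p.1 * e := by
    intro p hp
    unfold rho at hp
    induction hp using Subring.closure_induction with
    | mem x hx =>
      rcases hx with rfl | rfl
      · exact hea
      · exact heb
    | zero => simp
    | one => simp
    | add x y hx hy ihx ihy => simp only [Prod.fst_add, mul_add, add_mul, ihx, ihy]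
    | neg x hx ih => simp only [Prod.fst_neg, mul_neg, neg_mul, ih]
    | mul x y hx hy ihx ihy =>
      simp only [Prod.fst_mul]
      rw [← mul_assoc, ihx, mul_assoc, ihy, mul_assoc]
  have hc2 : ∀ p ∈ rho a b, e * p.2.unop = p.2.unop * e := by
    intro p hp
    exact hc1 _ (rho_symm a b p hp)
  have hef : e * (1 + e) = 0 := by
    rw [mul_add, mul_one, hee, CharTwo.add_self_eq_zero]
  have hmul : ∀ u v : R, e * u = u * e → e * (u * v) = (e * u) * (e * v) := by
    intro u v h
    calc e * (u * v) = u * (e * e) * v := by rw [hee, ← mul_assoc, h]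
      _ = (e * u) * (e * v) := by rw [h]; noncomm_ring
  let R1 : Subring R := (rho a b).map (RingHom.fst R Rᵐᵒᵖ)
  have hcR1 : ∀ x : ↥R1, e * (x : R) = (x : R) * e := by
    rintro ⟨x, p, hp, rfl⟩
    exact hc1 p hp
  let c : RingCon ↥R1 :=
    { r := fun x y => e * (x : R) = e * (y : R)
      iseqv := ⟨fun _ => rfl, fun h => h.symm, fun h1 h2 => h1.trans h2⟩
      mul' := by
        intro w x y z h1 h2
        show e * ((w * y : ↥R1) : R) = e * ((x * z : ↥R1) : R)
        rw [Subring.coe_mul, Subring.coe_mul, hmul _ _ (hcR1 w), hmul _ _ (hcR1 x), h1, h2]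
      add' := by
        intro w x y z h1 h2
        show e * ((w + y : ↥R1) : R) = e * ((x + z : ↥R1) : R)
        rw [Subring.coe_add, Subring.coe_add, mul_add, mul_add, h1, h2] }
  have hcdef : ∀ x y : ↥R1, c x y ↔ e * (x : R) = e * (y : R) := fun x y => Iff.rfl
  haveI : Finite c.Quotient :=
    Finite.of_surjective (fun x : ↥R1 => (x : c.Quotient)) (fun q => Quotient.inductionOn' q
      (fun x => ⟨x, rfl⟩))
  haveI : Nontrivial c.Quotient := ⟨⟨0, 1, by
    intro h
    rw [← RingCon.coe_zero, ← RingCon.coe_one, RingCon.eq, hcdef] at h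
    apply he0
    simpa using h.symm⟩⟩
  haveI : NoZeroDivisors c.Quotient := ⟨by
    intro X Y
    refine Quotient.inductionOn₂' X Y ?_
    intro x y hxy
    change ((x : c.Quotient) * (y : c.Quotient) = 0) at hxy
    rw [← RingCon.coe_mul, ← RingCon.coe_zero, RingCon.eq, hcdef] at hxy
    by_contra hcon
    push Not at hcon
    obtain ⟨hx0, hy0⟩ := hcon
    change (x : c.Quotient) ≠ 0 at hx0
    change (y : c.Quotient) ≠ 0 at hy0
    have hx0' : e * (x : R) ≠ 0 := by
      intro h
      apply hx0
      rw [← RingCon.coe_zero, RingCon.eq, hcdef]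
      simpa using h
    have hy0' : e * (y : R) ≠ 0 := by
      intro h
      apply hy0
      rw [← RingCon.coe_zero, RingCon.eq, hcdef]
      simpa using h
    obtain ⟨p, hp, hpx⟩ := x.2
    obtain ⟨q, hq, hqy⟩ := y.2
    change p.1 = (x : R) at hpx
    change q.1 = (y : R) at hqy
    have key : ∀ r ∈ rho a b, e * r.1 ≠ 0 →
        IsUnit (e * r.1 + r.2.unop * (1 + e)) ∧ e * (e * r.1 + r.2.unop * (1 + e)) = e * r.1 := by
      intro r hr hr0
      have h1 := F1 _ (Subring.mul_mem _ heρ hr)
      have h2 : ((e, op (1 + e)) * r).1 + ((e, op (1 + e)) * r).2.unop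
          = e * r.1 + r.2.unop * (1 + e) := by
        simp only [Prod.fst_mul, Prod.snd_mul, unop_mul, unop_op]
      rw [h2] at h1
      have h3 : e * (e * r.1 + r.2.unop * (1 + e)) = e * r.1 := by
        rw [mul_add, ← mul_assoc, hee, ← mul_assoc, hc2 r hr, mul_assoc, hef, mul_zero, add_zero]
      refine ⟨hS.isUnit h1 ?_, h3⟩
      intro h0
      rw [h0, mul_zero] at h3
      exact hr0 h3.symm
    obtain ⟨hux, hex⟩ := key p hp (by rw [hpx]; exact hx0')
    obtain ⟨huy, hey⟩ := key q hq (by rw [hqy]; exact hy0')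
    have h5 : e * ((e * p.1 + p.2.unop * (1 + e)) * (e * q.1 + q.2.unop * (1 + e))) = 0 := by
      rw [← mul_assoc, hex, mul_add]
      have h6 : e * p.1 * (e * q.1) = 0 := by
        rw [← hmul _ _ (hc1 p hp), hpx, hqy]
        simpa using hxy
      have h7 : e * p.1 * (q.2.unop * (1 + e)) = 0 := by
        rw [hc1 p hp, mul_assoc, ← mul_assoc e, hc2 q hq, mul_assoc, hef, mul_zero, mul_zero]
      rw [h6, h7, add_zero]
    obtain ⟨u, hu⟩ := hux.mul huy
    apply he0
    calc e = e * ((e * p.1 + p.2.unop * (1 + e)) * (e * q.1 + q.2.unop * (1 + e))) * ↑u⁻¹ := by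
          rw [← hu, mul_assoc, Units.mul_inv, mul_one]
      _ = 0 := by rw [h5, zero_mul]⟩
  haveI : IsDomain c.Quotient := NoZeroDivisors.to_isDomain _
  have hf := Finite.isDomain_to_isField c.Quotient
  have haR1 : a ∈ R1 := ⟨(a, op a), rho_left a b, rfl⟩
  have hbR1 : b ∈ R1 := ⟨(b, op b), rho_right a b, rfl⟩
  have := hf.mul_comm ((⟨a, haR1⟩ : ↥R1) : c.Quotient) ((⟨b, hbR1⟩ : ↥R1) : c.Quotient)
  rw [← RingCon.coe_mul, ← RingCon.coe_mul, RingCon.eq, hcdef] at this
  exact this


/-- **Main theorem**: the elements of `S` commute with one another. -/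
theorem JordanDiv.mul_comm [Finite R] [CharP R 2] {S : AddSubgroup R} (hS : JordanDiv S)
    {a b : R} (ha : a ∈ S) (hb : b ∈ S) : a * b = b * a := by
  have F1 := rho_add_mem hS ha hb
  have F2 := rho_mul_mem hS ha hb
  have hsym := rho_symm a b
  let R1 : Subring R := (rho a b).map (RingHom.fst R Rᵐᵒᵖ)
  have haR1 : a ∈ R1 := ⟨(a, op a), rho_left a b, rfl⟩
  have hbR1 : b ∈ R1 := ⟨(b, op b), rho_right a b, rfl⟩
  have hab : a * b + b * a ∈ S := by simpa using hS.triple ha hS.one_mem hb
  have hnu : ∀ p ∈ rho a b, ¬ IsUnit p.1 → p.1 * p.2.unop = 0 := by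
    intro p hp hu
    by_contra h0
    exact hu (isUnit_of_mul_isUnit_left (hS.isUnit (F2 p hp) h0))
  by_cases hA : ∃ z : R, z ≠ 0 ∧ ((0 : R), op z) ∈ rho a b
  · obtain ⟨z, hz0, hz⟩ := hA
    have hzS : z ∈ S := by simpa using F1 _ hz
    obtain ⟨n, hn, hzn⟩ := exists_pow_eq_one_of_isUnit (hS.isUnit hzS hz0)
    have h01 : ((0 : R), op (1 : R)) ∈ rho a b := by
      have := Subring.pow_mem (rho a b) hz n
      have e : ((0 : R), op z) ^ n = ((0 : R), op (1 : R)) := by
        rw [Prod.pow_mk, zero_pow hn.ne', ← op_pow, hzn]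
      rwa [e] at this
    have hsnd : ∀ p ∈ rho a b, p.2.unop ∈ S := by
      intro p hp
      have := F1 _ (Subring.mul_mem (rho a b) h01 hp)
      simpa using this
    have hfst : ∀ p ∈ rho a b, p.1 ∈ S := by
      intro p hp
      simpa using hsnd _ (hsym p hp)
    refine subring_comm_of_units R1 ?_ a haR1 b hbR1
    rintro x ⟨p, hp, rfl⟩ hx0
    exact hS.isUnit (hfst p hp) hx0
  push Not at hA
  have hB : ∀ z : R, ((0 : R), op z) ∈ rho a b → z = 0 := fun z hz =>
    by_contra fun h => hA z h hz
  have hB' : ∀ z : R, (z, op (0 : R)) ∈ rho a b → z = 0 := by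
    intro z hz
    have := hsym _ hz
    simp only [unop_op] at this
    exact hB z this
  by_cases hU : ∀ x ∈ R1, x ≠ 0 → IsUnit x
  · exact subring_comm_of_units R1 hU a haR1 b hbR1
  push Not at hU
  obtain ⟨x, ⟨p, hp, rfl⟩, hx0, hxu⟩ := hU
  change p.1 ≠ 0 at hx0
  change ¬ IsUnit p.1 at hxu
  have hnu2 : ∀ p ∈ rho a b, ¬ IsUnit p.1 → ¬ IsUnit p.2.unop := by
    intro p hp hu hu2
    obtain ⟨n, hn, hzn⟩ := exists_pow_eq_one_of_isUnit hu2
    have h1 : p ^ n - 1 ∈ rho a b :=
      Subring.sub_mem _ (Subring.pow_mem _ hp n) (Subring.one_mem _)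
    have e : p ^ n - 1 = (p.1 ^ n - 1, op (0 : R)) := by
      ext
      · simp
      · have h2' : p.2 ^ n = 1 := by
          have := congrArg op hzn
          simpa using this
        simp only [Prod.snd_sub, Prod.pow_snd, Prod.snd_one, h2', sub_self, op_zero]
    rw [e] at h1
    have h2 := hB' _ h1
    have h3 : p.1 ^ n = 1 := sub_eq_zero.mp h2
    apply hu
    have h4 : p.1 * p.1 ^ (n - 1) = 1 := by rw [← pow_succ', Nat.sub_add_cancel hn, h3]
    exact IsUnit.of_mul_eq_one _ h4
  have hnu' : ∀ p ∈ rho a b, ¬ IsUnit p.1 → p.2.unop * p.1 = 0 := by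
    intro p hp hu
    have := hnu _ (hsym p hp) (hnu2 p hp hu)
    simpa using this
  by_cases hBa : ∀ q ∈ rho a b, ¬ IsUnit q.1 → q.2.unop = q.1
  · have hx' : p.2.unop = p.1 := hBa p hp hxu
    have h1 : p.1 * a = a * p.1 := by
      have hq : (a, op a) * p ∈ rho a b := Subring.mul_mem _ (rho_left a b) hp
      have := hBa _ hq (fun hu => hxu (isUnit_of_mul_isUnit_right hu))
      simpa [hx'] using this
    have h2 : p.1 * b = b * p.1 := by
      have hq : (b, op b) * p ∈ rho a b := Subring.mul_mem _ (rho_right a b) hp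
      have := hBa _ hq (fun hu => hxu (isUnit_of_mul_isUnit_right hu))
      simpa [hx'] using this
    have h3 : p.1 * (b * a) = a * b * p.1 := by
      have hq : (a, op a) * (b, op b) * p ∈ rho a b :=
        Subring.mul_mem _ (Subring.mul_mem _ (rho_left a b) (rho_right a b)) hp
      have := hBa _ hq (fun hu => hxu (isUnit_of_mul_isUnit_right hu))
      simpa [hx', mul_assoc] using this
    have h4 : p.1 * (a * b + b * a) = 0 := by
      have h5 : p.1 * (a * b) = a * b * p.1 := by
        rw [← mul_assoc, h1, mul_assoc, h2, ← mul_assoc]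
      rw [mul_add, h5, h3, CharTwo.add_self_eq_zero]
    by_contra hne
    have hne' : a * b + b * a ≠ 0 := fun h => hne (CharTwo.add_eq_zero.mp h)
    obtain ⟨u, hu⟩ := hS.isUnit hab hne'
    apply hx0
    calc p.1 = p.1 * (a * b + b * a) * ↑u⁻¹ := by rw [← hu, mul_assoc, Units.mul_inv, mul_one]
      _ = 0 := by rw [h4, zero_mul]
  · push Not at hBa
    obtain ⟨q, hq, hqu, hqne⟩ := hBa
    have hyy' : q.1 * q.2.unop = 0 := hnu q hq hqu
    have hy'y : q.2.unop * q.1 = 0 := hnu' q hq hqu
    have ht : q.1 + q.2.unop ∈ S := F1 q hq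
    have ht0 : q.1 + q.2.unop ≠ 0 := fun h => hqne (CharTwo.add_eq_zero.mp h).symm
    have htρ : (q.1 + q.2.unop, op (q.1 + q.2.unop)) ∈ rho a b := by
      have := Subring.add_mem _ hq (hsym q hq)
      have e : q + (q.2.unop, op q.1) = (q.1 + q.2.unop, op (q.1 + q.2.unop)) := by
        ext
        · simp
        · simp [add_comm]
      rwa [e] at this
    obtain ⟨n, hn, htn⟩ := exists_pow_eq_one_of_isUnit (hS.isUnit ht ht0)
    obtain ⟨t, ht_def⟩ : ∃ t, t = q.1 + q.2.unop := ⟨_, rfl⟩
    rw [← ht_def] at ht ht0 htρ htn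
    obtain ⟨y, hy_def⟩ : ∃ y, y = q.1 := ⟨_, rfl⟩
    obtain ⟨y', hy'_def⟩ : ∃ y', y' = q.2.unop := ⟨_, rfl⟩
    rw [← hy_def, ← hy'_def] at hyy' hy'y ht_def
    obtain ⟨s, hs⟩ : ∃ s, s = t ^ (n - 1) := ⟨_, rfl⟩
    have hts : t * s = 1 := by rw [hs, ← pow_succ', Nat.sub_add_cancel hn, htn]
    have hst : s * t = 1 := by rw [hs, ← pow_succ, Nat.sub_add_cancel hn, htn]
    have hsρ : (s, op s) ∈ rho a b := by
      have := Subring.pow_mem _ htρ (n - 1)
      rwa [Prod.pow_mk, ← op_pow, ← hs] at this
    have hyt : y * t = t * y := by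
      rw [ht_def, mul_add, add_mul, hyy', hy'y]
    have hys : y * s = s * y := by
      rw [hs]; exact (Commute.pow_right hyt (n - 1))
    obtain ⟨e, he⟩ : ∃ e, e = y * s := ⟨_, rfl⟩
    have heρ : (e, op (s * y')) ∈ rho a b := by
      have := Subring.mul_mem _ hq hsρ
      have e1 : q * (s, op s) = (e, op (s * y')) := by
        ext
        · simp [he, hy_def]
        · simp [hy'_def]
      rwa [e1] at this
    have hsum : e + s * y' = 1 := by
      rw [he, hys, ← mul_add, ← ht_def, hst]
    have he' : s * y' = 1 + e := CharTwo.add_eq_iff_eq_add.mp (by rw [add_comm]; exact hsum)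
    rw [he'] at heρ
    have hee : e * e = e := by
      calc e * e = y * (s * y) * s := by rw [he]; noncomm_ring
        _ = y * (y * s) * s := by rw [hys]
        _ = y * y * s * s := by noncomm_ring
        _ = y * t * s * s := by
            rw [show y * t = y * y from by rw [ht_def, mul_add, hyy', add_zero]]
        _ = y * (t * s) * s := by noncomm_ring
        _ = e := by rw [hts, mul_one, he]
    have he0 : e ≠ 0 := by
      intro h
      have hy0 : y = 0 := by
        calc y = y * s * t := by rw [mul_assoc, hst, mul_one]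
          _ = 0 := by rw [← he, h, zero_mul]
      have hq' : q = ((0 : R), op y') := by
        ext
        · simp [← hy_def, hy0]
        · simp [hy'_def]
      rw [hq'] at hq
      have := hB y' hq
      apply hqne
      rw [← hy'_def, ← hy_def, this, hy0]
    have he1 : e ≠ 1 := by
      intro h
      apply hqu
      rw [← hy_def]
      exact IsUnit.of_mul_eq_one s (by rw [← he]; exact h)
    -- the complementary idempotent
    obtain ⟨f, hf⟩ : ∃ f, f = 1 + e := ⟨_, rfl⟩
    have hff : f * f = f := by
      rw [hf]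
      have e2 : (1 + e) * (1 + e) = 1 + e * e + (e + e) := by noncomm_ring
      rw [e2, hee, CharTwo.add_self_eq_zero, add_zero]
    have hf0 : f ≠ 0 := by
      intro h
      rw [hf] at h
      exact he1 (CharTwo.add_eq_zero.mp h).symm
    have hfe : 1 + f = e := by
      rw [hf, ← add_assoc, CharTwo.add_self_eq_zero, zero_add]
    have hfρ' : (f, op e) ∈ rho a b := by
      have := hsym _ heρ
      simp only [unop_op] at this
      rw [← hf] at this
      exact this
    have hfρ : (f, op (1 + f)) ∈ rho a b := by rw [hfe]; exact hfρ'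
    have heρf : (e, op f) ∈ rho a b := by rw [hf]; exact heρ
    have henu : ¬ IsUnit e := by
      intro hu
      obtain ⟨u, hu⟩ := hu
      apply he1
      calc e = ↑u⁻¹ * (e * e) := by rw [← hu, ← mul_assoc, Units.inv_mul, one_mul]
        _ = 1 := by rw [hee, ← hu, Units.inv_mul]
    have hfnu : ¬ IsUnit f := by
      intro hu
      obtain ⟨u, hu⟩ := hu
      have hf1 : f = 1 := by
        calc f = ↑u⁻¹ * (f * f) := by rw [← hu, ← mul_assoc, Units.inv_mul, one_mul]
          _ = 1 := by rw [hff, ← hu, Units.inv_mul]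
      apply he0
      rw [← hfe, hf1, CharTwo.add_self_eq_zero]
    have hef : e * f = 0 := by
      rw [hf, mul_add, mul_one, hee, CharTwo.add_self_eq_zero]
    have hfe0 : f * e = 0 := by
      rw [hf, add_mul, one_mul, hee, CharTwo.add_self_eq_zero]
    -- `e` commutes with every element of `S ∩ {a, b}`
    have hcomm : ∀ c ∈ S, (c, op c) ∈ rho a b → e * c = c * e := by
      intro c hc hcρ
      obtain ⟨m, hm⟩ := hS.exists_pow_sq hc
      have hcm : (c ^ m, op (c ^ m)) ∈ rho a b := by
        have := Subring.pow_mem _ hcρ m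
        rwa [Prod.pow_mk, ← op_pow] at this
      have h1 : e * c * f = 0 := by
        have hq1 := Subring.mul_mem _ heρf hcm
        have := hnu _ hq1 (fun hu => henu (isUnit_of_mul_isUnit_left hu))
        simp only [Prod.fst_mul, Prod.snd_mul, unop_mul, unop_op] at this
        calc e * c * f = e * (c ^ m * c ^ m) * f := by rw [hm]
          _ = e * c ^ m * (c ^ m * f) := by noncomm_ring
          _ = 0 := this
      have h2 : f * c * e = 0 := by
        have hq1 := Subring.mul_mem _ hfρ' hcm
        have := hnu _ hq1 (fun hu => hfnu (isUnit_of_mul_isUnit_left hu))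
        simp only [Prod.fst_mul, Prod.snd_mul, unop_mul, unop_op] at this
        calc f * c * e = f * (c ^ m * c ^ m) * e := by rw [hm]
          _ = f * c ^ m * (c ^ m * e) := by noncomm_ring
          _ = 0 := this
      have h3 : e * c = e * c * e := by
        have : e * c * f = e * c + e * c * e := by rw [hf]; noncomm_ring
        rw [this] at h1
        exact CharTwo.add_eq_zero.mp h1
      have h4 : c * e = e * c * e := by
        have : f * c * e = c * e + e * c * e := by rw [hf]; noncomm_ring
        rw [this] at h2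
        exact CharTwo.add_eq_zero.mp h2
      rw [h3, ← h4]
    have hea := hcomm a ha (rho_left a b)
    have heb := hcomm b hb (rho_right a b)
    have hfa : f * a = a * f := by rw [hf, add_mul, mul_add, one_mul, mul_one, hea]
    have hfb : f * b = b * f := by rw [hf, add_mul, mul_add, one_mul, mul_one, heb]
    have h1 := jordan_idem_aux hS ha hb e hee he0 heρ hea heb
    have h2 := jordan_idem_aux hS ha hb f hff hf0 hfρ hfa hfb
    have h3 : e + f = 1 := by
      rw [hf, add_comm 1 e, ← add_assoc, CharTwo.add_self_eq_zero, zero_add]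
    calc a * b = (e + f) * (a * b) := by rw [h3, one_mul]
      _ = (e + f) * (b * a) := by rw [add_mul, h1, h2, ← add_mul]
      _ = b * a := by rw [h3, one_mul]

/-- `S` is closed under multiplication. -/
theorem JordanDiv.mul_mem [Finite R] [CharP R 2] {S : AddSubgroup R} (hS : JordanDiv S)
    {a b : R} (ha : a ∈ S) (hb : b ∈ S) : a * b ∈ S := by
  obtain ⟨m, hm⟩ := hS.exists_pow_sq ha
  have hc : a ^ m ∈ S := hS.pow_mem ha m
  have h1 := hS.hua hc hb
  have h2 : a ^ m * b * a ^ m = a * b := by
    rw [mul_assoc, hS.mul_comm hb hc, ← mul_assoc, hm]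
  rwa [h2] at h1

end JordanField

end Cfsg.Agent.Helper30
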