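-- helper30 library: the type of an orthogonal sum of two non-degenerate odd-dimensional quadratic
-- spaces (piece X5 of the shared Ω^± type library, for S5847 / S5850): `Q` is of plus type iff
-- (the two blocks are isometric iff `-1` is a square).
import Cfsg.Agent.Helper33.ODisc
import Cfsg.Agent.Helper43.QuadFin2
import Cfsg.Agent.Helper76.O12L2

set_option autoImplicit false
set_option linter.unusedSectionVars false
set_option linter.unusedVariables false

namespace Cfsg.Agent.Helper30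

open Cfsg Cfsg.Geo Matrix Module

variable {ι : Type} [Fintype ι] [DecidableEq ι] {F : Type*} [Field F]

/-- A diagonal basis of a non-degenerate subspace: pairwise orthogonal, all values one except the
last. -/
theorem ox5_diag [Fintype F] (h2 : (2 : F) ≠ 0) (Q : (ι → F) → F)
    (hQ : IsNondegenerateQuadraticForm Q) (W : Submodule F (ι → F))
    (hW : IsNondegenerateOn (QuadraticMap.polar Q) W) {n : ℕ} (hdim : finrank F W = n + 1) :
    ∃ b : Module.Basis (Fin (n + 1)) F W,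
      (∀ i j, i ≠ j → QuadraticMap.polar Q (b i : ι → F) (b j : ι → F) = 0) ∧
      (∀ i, i ≠ Fin.last n → Q (b i : ι → F) = 1) ∧ Q (b (Fin.last n) : ι → F) ≠ 0 := by
  classical
  obtain ⟨v, hv, h1, hd⟩ := Helper43.diag_family h2 n W (Helper33.OType.restr Q hQ W) hdim
    (Helper33.OType.polarNondeg_restr Q hQ W hW)
  have hne : ∀ i, Helper33.OType.restr Q hQ W (v i) ≠ 0 := by
    intro i
    by_cases hi : i = Fin.last n
    · rw [hi]
      exact hd
    · rw [h1 i hi]
      exact one_ne_zero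
  have hli := Helper43.linIndep_of_ortho (Helper33.OType.restr Q hQ W) h2 v hv hne
  refine ⟨basisOfLinearIndependentOfCardEqFinrank hli (by rw [Fintype.card_fin, hdim]), ?_, ?_, ?_⟩
  · intro i j hij
    rw [coe_basisOfLinearIndependentOfCardEqFinrank]
    exact hv i j hij
  · intro i hi
    rw [coe_basisOfLinearIndependentOfCardEqFinrank]
    exact h1 i hi
  · rw [coe_basisOfLinearIndependentOfCardEqFinrank]
    exact hd

/-- The value of `Q` on a combination of pairwise orthogonal vectors. -/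
theorem ox5_sum (Q : (ι → F) → F) (hQ : IsNondegenerateQuadraticForm Q) {κ : Type*} [Fintype κ]
    [DecidableEq κ] (u : κ → ι → F)
    (hu : ∀ i j, i ≠ j → QuadraticMap.polar Q (u i) (u j) = 0) (a : κ → F) :
    Q (∑ j, a j • u j) = ∑ j, a j * a j * Q (u j) :=
  Helper43.map_sum_of_ortho (Helper98.op_qf Q hQ) Finset.univ u hu a

/-- Two subspaces with orthogonal bases whose values agree up to unit squares are isometric. -/
theorem ox5_iso_of_units (Q : (ι → F) → F) (hQ : IsNondegenerateQuadraticForm Q)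
    (W₀ W₁ : Submodule F (ι → F)) {κ : Type*} [Fintype κ] [DecidableEq κ]
    (b₀ : Module.Basis κ F W₀) (b₁ : Module.Basis κ F W₁)
    (h₀ : ∀ i j, i ≠ j → QuadraticMap.polar Q (b₀ i : ι → F) (b₀ j : ι → F) = 0)
    (h₁ : ∀ i j, i ≠ j → QuadraticMap.polar Q (b₁ i : ι → F) (b₁ j : ι → F) = 0)
    (w : κ → Fˣ)
    (hw : ∀ j, (w j : F) * (w j : F) * Q (b₁ j : ι → F) = Q (b₀ j : ι → F)) :
    AreIsometricFor Q W₀ W₁ := by
  classical
  refine ⟨b₀.equiv (b₁.unitsSMul w) (Equiv.refl κ), fun x => ?_⟩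
  have hx : (x : ι → F) = ∑ j, b₀.repr x j • (b₀ j : ι → F) := by
    conv_lhs => rw [← b₀.sum_repr x]
    rw [Submodule.coe_sum]
    rfl
  have hφ : ((b₀.equiv (b₁.unitsSMul w) (Equiv.refl κ) x : W₁) : ι → F)
      = ∑ j, b₀.repr x j • ((w j : F) • (b₁ j : ι → F)) := by
    conv_lhs => rw [← b₀.sum_repr x]
    rw [map_sum, Submodule.coe_sum]
    refine Finset.sum_congr rfl (fun j _ => ?_)
    rw [map_smul, Module.Basis.equiv_apply, Equiv.refl_apply, Module.Basis.unitsSMul_apply]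
    rfl
  rw [hφ, hx, ox5_sum Q hQ _ h₀, ox5_sum Q hQ]
  · refine Finset.sum_congr rfl (fun j _ => ?_)
    rw [hQ.smul, ← hw j]
    ring
  · intro i j hij
    rw [hQ.polar_bilinear.smul_left, hQ.polar_bilinear.smul_right, h₁ i j hij, mul_zero, mul_zero]

/-- The discriminant criterion for an orthogonal sum of two blocks of odd dimension. -/
theorem ox5_disc [Fintype F] (h2 : (2 : F) ≠ 0) (Q : (ι → F) → F)
    (hQ : IsNondegenerateQuadraticForm Q) {k : ℕ} (hk : Odd k)
    (D : Fin 2 → Submodule F (ι → F))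
    (hD : IsNondegenerateMDecomposition (QuadraticMap.polar Q) k D)
    (b₀ : Module.Basis (Fin k) F (D 0)) (b₁ : Module.Basis (Fin k) F (D 1)) :
    IsPlusTypeOn Q ⊤ ↔ IsSquare
      (-((Matrix.of fun i j => QuadraticMap.polar Q (b₀ i : ι → F) (b₀ j : ι → F)).det *
        (Matrix.of fun i j => QuadraticMap.polar Q (b₁ i : ι → F) (b₁ j : ι → F)).det)) := by
  classical
  have hc : IsCompl (D 0) (D 1) := by
    refine ⟨hD.decomp.indep.pairwiseDisjoint (by decide : (0 : Fin 2) ≠ 1), ?_⟩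
    rw [codisjoint_iff, eq_top_iff, ← hD.decomp.iSup_eq_top]
    refine iSup_le (fun i => ?_)
    have hi : i = 0 ∨ i = 1 := by
      revert i
      decide
    rcases hi with rfl | rfl
    · exact le_sup_left
    · exact le_sup_right
  obtain ⟨b, hb⟩ : ∃ b : Module.Basis (Fin k ⊕ Fin k) F (ι → F),
      b = (b₀.prod b₁).map (Submodule.prodEquivOfIsCompl (D 0) (D 1) hc) := ⟨_, rfl⟩
  have hbl : ∀ i, b (Sum.inl i) = (b₀ i : ι → F) := by
    intro i
    rw [hb, Module.Basis.map_apply, Submodule.coe_prodEquivOfIsCompl']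
    simp
  have hbr : ∀ i, b (Sum.inr i) = (b₁ i : ι → F) := by
    intro i
    rw [hb, Module.Basis.map_apply, Submodule.coe_prodEquivOfIsCompl']
    simp
  have hcard : Fintype.card ι = 2 * k := by
    have h1 := Module.finrank_eq_card_basis b
    rw [Module.finrank_fintype_fun_eq_card, Fintype.card_sum, Fintype.card_fin] at h1
    omega
  have hkpos : 1 ≤ k := hk.pos
  rw [Helper33.o_plus_iff_disc h2 Q hQ hkpos hcard b, hk.neg_one_pow, neg_one_mul]
  have hG : (Matrix.of fun i j => QuadraticMap.polar Q (b i) (b j))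
      = Matrix.fromBlocks
        (Matrix.of fun i j => QuadraticMap.polar Q (b₀ i : ι → F) (b₀ j : ι → F)) 0 0
        (Matrix.of fun i j => QuadraticMap.polar Q (b₁ i : ι → F) (b₁ j : ι → F)) := by
    ext i j
    rcases i with i | i <;> rcases j with j | j
    · simp [hbl]
    · simp only [Matrix.of_apply, Matrix.fromBlocks_apply₁₂, Matrix.zero_apply, hbl, hbr]
      exact hD.orthogonal 0 1 (by decide) _ (b₀ i).2 _ (b₁ j).2
    · simp only [Matrix.of_apply, Matrix.fromBlocks_apply₂₁, Matrix.zero_apply, hbl, hbr]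
      exact hD.orthogonal 1 0 (by decide) _ (b₁ i).2 _ (b₀ j).2
    · simp [hbr]
  rw [hG, Matrix.det_fromBlocks_zero₁₂]

/-- The Gram determinant of an orthogonal basis. -/
theorem ox5_gram_det (Q : (ι → F) → F) (hQ : IsNondegenerateQuadraticForm Q)
    (W : Submodule F (ι → F)) {κ : Type*} [Fintype κ] [DecidableEq κ] (b : Module.Basis κ F W)
    (hb : ∀ i j, i ≠ j → QuadraticMap.polar Q (b i : ι → F) (b j : ι → F) = 0) :
    (Matrix.of fun i j => QuadraticMap.polar Q (b i : ι → F) (b j : ι → F)).det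
      = ∏ i, 2 * Q (b i : ι → F) := by
  have h1 : (Matrix.of fun i j => QuadraticMap.polar Q (b i : ι → F) (b j : ι → F))
      = Matrix.diagonal (fun i => 2 * Q (b i : ι → F)) := by
    ext i j
    by_cases hij : i = j
    · subst hij
      rw [Matrix.of_apply, Matrix.diagonal_apply_eq]
      have h1 : (b i : ι → F) + (b i : ι → F) = (2 : F) • (b i : ι → F) := (two_smul F _).symm
      rw [QuadraticMap.polar, h1, hQ.smul]
      ring
    · rw [Matrix.of_apply, Matrix.diagonal_apply_ne _ hij, hb i j hij]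
  rw [h1, Matrix.det_diagonal]

/-- Isometric blocks. -/
theorem ox5_of_iso [Fintype F] (h2 : (2 : F) ≠ 0) (Q : (ι → F) → F)
    (hQ : IsNondegenerateQuadraticForm Q) {k : ℕ} (hk : Odd k)
    (D : Fin 2 → Submodule F (ι → F))
    (hD : IsNondegenerateMDecomposition (QuadraticMap.polar Q) k D)
    (hiso : AreIsometricFor Q (D 0) (D 1)) : IsPlusTypeOn Q ⊤ ↔ IsSquare (-1 : F) := by
  classical
  obtain ⟨n, rfl⟩ : ∃ n, k = n + 1 := ⟨k - 1, by have := hk.pos; omega⟩
  obtain ⟨b₀, hb₀, h1₀, hd₀⟩ := ox5_diag h2 Q hQ (D 0) (hD.nondegenerate 0) (hD.decomp.finrank_eq 0)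
  obtain ⟨φ, hφ⟩ := hiso
  have hpol : ∀ x y : D 0, QuadraticMap.polar Q ((φ x : D 1) : ι → F) ((φ y : D 1) : ι → F)
      = QuadraticMap.polar Q (x : ι → F) (y : ι → F) := by
    intro x y
    unfold QuadraticMap.polar
    have h3 : ((φ x : D 1) : ι → F) + ((φ y : D 1) : ι → F) = ((φ (x + y) : D 1) : ι → F) := by
      rw [map_add]
      rfl
    rw [h3, hφ, hφ, hφ]
    rfl
  rw [ox5_disc h2 Q hQ hk D hD b₀ (b₀.map φ)]
  have hG : (Matrix.of fun i j => QuadraticMap.polar Q ((b₀.map φ) i : ι → F) ((b₀.map φ) j : ι → F))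
      = (Matrix.of fun i j => QuadraticMap.polar Q (b₀ i : ι → F) (b₀ j : ι → F)) := by
    ext i j
    rw [Matrix.of_apply, Matrix.of_apply, Module.Basis.map_apply, Module.Basis.map_apply, hpol]
  rw [hG, ox5_gram_det Q hQ (D 0) b₀ hb₀]
  obtain ⟨g, hg⟩ : ∃ g : F, g = ∏ i, 2 * Q (b₀ i : ι → F) := ⟨_, rfl⟩
  rw [← hg]
  have hg0 : g ≠ 0 := by
    rw [hg, Finset.prod_ne_zero_iff]
    intro i _
    refine mul_ne_zero h2 ?_
    by_cases hi : i = Fin.last n
    · rw [hi]
      exact hd₀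
    · rw [h1₀ i hi]
      exact one_ne_zero
  constructor
  · rintro ⟨s, hs⟩
    refine ⟨s / g, ?_⟩
    field_simp
    linear_combination hs
  · rintro ⟨s, hs⟩
    refine ⟨s * g, ?_⟩
    linear_combination (g * g) * hs

/-- Non-isometric blocks. -/
theorem ox5_of_not_iso [Fintype F] (h2 : (2 : F) ≠ 0) (Q : (ι → F) → F)
    (hQ : IsNondegenerateQuadraticForm Q) {k : ℕ} (hk : Odd k)
    (D : Fin 2 → Submodule F (ι → F))
    (hD : IsNondegenerateMDecomposition (QuadraticMap.polar Q) k D)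
    (hiso : ¬ AreIsometricFor Q (D 0) (D 1)) : IsPlusTypeOn Q ⊤ ↔ ¬ IsSquare (-1 : F) := by
  classical
  obtain ⟨n, rfl⟩ : ∃ n, k = n + 1 := ⟨k - 1, by have := hk.pos; omega⟩
  obtain ⟨b₀, hb₀, h1₀, hd₀⟩ := ox5_diag h2 Q hQ (D 0) (hD.nondegenerate 0) (hD.decomp.finrank_eq 0)
  obtain ⟨b₁, hb₁, h1₁, hd₁⟩ := ox5_diag h2 Q hQ (D 1) (hD.nondegenerate 1) (hD.decomp.finrank_eq 1)
  rw [ox5_disc h2 Q hQ hk D hD b₀ b₁, ox5_gram_det Q hQ (D 0) b₀ hb₀,
    ox5_gram_det Q hQ (D 1) b₁ hb₁]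
  obtain ⟨d₀, hd₀def⟩ : ∃ d₀ : F, d₀ = Q (b₀ (Fin.last n) : ι → F) := ⟨_, rfl⟩
  obtain ⟨d₁, hd₁def⟩ : ∃ d₁ : F, d₁ = Q (b₁ (Fin.last n) : ι → F) := ⟨_, rfl⟩
  have hp₀ : ∏ i, 2 * Q (b₀ i : ι → F) = 2 ^ n * (2 * d₀) := by
    rw [Fin.prod_univ_castSucc, ← hd₀def]
    congr 1
    rw [Finset.prod_eq_pow_card (b := (2 : F)), Finset.card_univ, Fintype.card_fin]
    intro i _
    rw [h1₀ _ (Fin.castSucc_lt_last i).ne, mul_one]
  have hp₁ : ∏ i, 2 * Q (b₁ i : ι → F) = 2 ^ n * (2 * d₁) := by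
    rw [Fin.prod_univ_castSucc, ← hd₁def]
    congr 1
    rw [Finset.prod_eq_pow_card (b := (2 : F)), Finset.card_univ, Fintype.card_fin]
    intro i _
    rw [h1₁ _ (Fin.castSucc_lt_last i).ne, mul_one]
  rw [hp₀, hp₁]
  have h2n : (2 : F) ^ n ≠ 0 := pow_ne_zero n h2
  have hns : ¬ IsSquare (2 ^ n * (2 * d₀) * (2 ^ n * (2 * d₁))) := by
    rintro ⟨s, hs⟩
    apply hiso
    have hsq : d₀ * d₁ = (s / (2 ^ n * 2)) * (s / (2 ^ n * 2)) := by
      field_simp
      linear_combination hs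
    obtain ⟨t, ht⟩ : ∃ t : F, t = s / (2 ^ n * 2) := ⟨_, rfl⟩
    rw [← ht] at hsq
    obtain ⟨c, hc⟩ : ∃ c : F, c = t / d₁ := ⟨_, rfl⟩
    have hd₁0 : d₁ ≠ 0 := hd₁def ▸ hd₁
    have hd₀0 : d₀ ≠ 0 := hd₀def ▸ hd₀
    have hcc : c * c * d₁ = d₀ := by
      have h5 : c * d₁ = t := by
        rw [hc, div_mul_cancel₀ _ hd₁0]
      have h6 : c * c * d₁ * d₁ = d₀ * d₁ := by
        rw [hsq]
        linear_combination (c * d₁ + t) * h5
      exact mul_right_cancel₀ hd₁0 h6
    have hc0 : c ≠ 0 := by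
      rintro rfl
      rw [zero_mul, zero_mul] at hcc
      exact hd₀0 hcc.symm
    refine ox5_iso_of_units Q hQ (D 0) (D 1) b₀ b₁ hb₀ hb₁
      (fun j => if j = Fin.last n then Units.mk0 c hc0 else 1) (fun j => ?_)
    by_cases hj : j = Fin.last n
    · rw [if_pos hj, hj, Units.val_mk0, ← hd₁def, ← hd₀def, hcc]
    · rw [if_neg hj, Units.val_one, one_mul, one_mul, h1₀ j hj, h1₁ j hj]
  have h3 := Helper43.isSquare_mul_nonsquare_iff (s := (-1 : F)) (neg_ne_zero.mpr one_ne_zero) hns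
  rw [neg_one_mul] at h3
  exact h3

/-- **Piece X5**: an orthogonal sum of two non-degenerate blocks of the same odd dimension is of
plus type iff (the blocks are isometric iff `-1` is a square). -/
theorem o_two_blocks_plus_iff [Fintype F] (Q : (ι → F) → F) (hQ : IsNondegenerateQuadraticForm Q)
    {k : ℕ} (hk : Odd k) (D : Fin 2 → Submodule F (ι → F))
    (hD : IsNondegenerateMDecomposition (QuadraticMap.polar Q) k D) :
    IsPlusTypeOn Q ⊤ ↔ (AreIsometricFor Q (D 0) (D 1) ↔ IsSquare (-1 : F)) := by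
  have h2 : (2 : F) ≠ 0 := Cfsg.Agent.Helper76.o12_two_ne_of_odd Q hQ (D 0) (hD.nondegenerate 0)
    (by rw [hD.decomp.finrank_eq]; exact hk)
  by_cases hiso : AreIsometricFor Q (D 0) (D 1)
  · rw [ox5_of_iso h2 Q hQ hk D hD hiso]
    exact ⟨fun h => ⟨fun _ => h, fun _ => hiso⟩, fun h => h.mp hiso⟩
  · rw [ox5_of_not_iso h2 Q hQ hk D hD hiso]
    exact ⟨fun hns => ⟨fun h => absurd h hiso, fun h => absurd h hns⟩, fun h hs => hiso (h.mpr hs)⟩

end Cfsg.Agent.Helper30
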