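-- helper30 library: PIECE ZA2 of CALL S5874 (helper95) — the analysis of the centre of the centraliser
-- of a normal subgroup of an irreducible group of isometries of a quadratic form, characteristic two.
-- The first half is a copy of Helper96.Sy.z_analysis (helper96), the ending is new.
import Cfsg.Agent.Helper96.SpZ2
import Cfsg.Agent.Helper95.O12ZP

set_option autoImplicit false
set_option linter.unusedSectionVars false
set_option linter.unusedVariables false
open Cfsg Cfsg.Geo Matrix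
open Cfsg.Agent.Helper96 Cfsg.Agent.Helper96.Sy

namespace Cfsg.Agent.Helper30

variable {F : Type*} [Field F]

/-- CALL S5874, PIECE ZA2. -/
theorem o12_z_two [Fintype F] (h2 : (2 : F) = 0) {n : ℕ} (hn : 2 ≤ n) (Q : (Fin n → F) → F)
    (hQ : IsNondegenerateQuadraticForm Q) (H N : Subgroup (GL (Fin n) F))
    (hH : ∀ h ∈ H, ∀ x, Q ((h : Matrix (Fin n) (Fin n) F) *ᵥ x) = Q x)
    (hirr : ActsIrreducibly (matrixSet H)) (hNH : N ≤ H)
    (hNn : ∀ h ∈ H, ∀ x ∈ N, h * x * h⁻¹ ∈ N) :
    (∃ (t k : ℕ) (D : Fin t → Submodule F (Fin n → F)),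
      IsNondegenerateMDecomposition (QuadraticMap.polar Q) k D ∧ H ≤ decompositionStabilizer D) ∨
    (∃ (r : ℕ) (K : Subalgebra F (Matrix (Fin n) (Fin n) F)), r.Prime ∧ IsFieldSubalgebra r K ∧
      H ≤ subalgebraNormalizer K) ∨
    IsPlusTypeOn Q ⊤ ∨
    (∀ k, Cfsg.Agent.Helper96.ZCent (matrixSet N) k →
      ∃ c : F, k = c • (1 : Matrix (Fin n) (Fin n) F)) := by
  classical
  have hn0 : 0 < n := by omega
  have hne : NeZero n := ⟨hn0.ne'⟩
  obtain ⟨f, hfdef⟩ : ∃ f, f = QuadraticMap.polar Q := ⟨_, rfl⟩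
  rw [← hfdef]
  have hfx : ∀ u v, f u v = Q (u + v) - Q u - Q v := by
    intro u v
    rw [hfdef]
    rfl
  have hneg : ∀ a : F, -a = a := by
    intro a
    rw [neg_eq_iff_add_eq_zero, ← two_mul, h2, zero_mul]
  have hf : IsSymplecticForm f := by
    rw [hfdef]
    refine ⟨hQ.polar_bilinear, ?_, ?_, hQ.nondegenerate⟩
    · intro v w
      rw [hneg, QuadraticMap.polar_comm]
    · intro v
      have h1 : v + v = (2 : F) • v := (two_smul F v).symm
      simp only [QuadraticMap.polar]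
      rw [h1, hQ.smul, h2]
      linear_combination (-(Q v)) * h2
  have hH' : H ≤ isoSub f := by
    intro g hg
    rw [mem_isoSub]
    intro u v
    rw [hfx, hfx, ← Matrix.mulVec_add, hH g hg, hH g hg, hH g hg]
  obtain ⟨T, hT⟩ : ∃ T, T = matrixSet N := ⟨_, rfl⟩
  rw [← hT]
  have hconj1 : ∀ g ∈ H, ∀ s ∈ T, (g : Matrix (Fin n) (Fin n) F) * s *
      ((g⁻¹ : GL (Fin n) F) : Matrix (Fin n) (Fin n) F) ∈ T := by
    intro g hg
    rw [hT]
    exact matrixSet_conj N g (hNn g hg)
  have hconj2 : ∀ g ∈ H, ∀ s ∈ T, ((g⁻¹ : GL (Fin n) F) : Matrix (Fin n) (Fin n) F) * s *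
      (g : Matrix (Fin n) (Fin n) F) ∈ T := by
    intro g hg
    rw [hT]
    have := matrixSet_conj N g⁻¹ (hNn g⁻¹ (H.inv_mem hg))
    simpa using this
  have hiso : IsoSet f T := by
    intro s hs
    rw [hT] at hs ⊢
    obtain ⟨x, hx, rfl⟩ := hs
    exact ⟨x, hH' (hNH hx), rfl, Helper97.coe_mem_matrixSet (N.inv_mem hx)⟩
  have hZconj : ∀ g ∈ H, ∀ a, ZCent T a → ZCent T ((g : Matrix (Fin n) (Fin n) F) * a *
      ((g⁻¹ : GL (Fin n) F) : Matrix (Fin n) (Fin n) F)) :=
    fun g hg a ha => zcent_conj T g (hconj2 g hg) (hconj1 g hg) a ha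
  have hZadj : ∀ a, ZCent T a → ZCent T (adj f a) := fun a ha => zcent_adj hf hiso ha
  have hZcomm : ∀ a, ZCent T a → ∀ b, ZCent T b → a * b = b * a := fun a ha b hb => ha.2 b hb.1
  by_cases hD1 : ∃ M, (ZCent T M ∧ adj f M = M) ∧ M ≠ 0 ∧ ∃ v : Fin n → F, v ≠ 0 ∧ M *ᵥ v = 0
  · left
    obtain ⟨M, hM, hM0, v, hv0, hMv⟩ := hD1
    exact nondeg_decomp hf H hH' hirr {M | ZCent T M ∧ adj f M = M}
      (fun a ha b hb => hZcomm a ha.1 b hb.1)
      (fun g hg a ha => ⟨hZconj g hg a ha.1, by rw [adj_conj hf (hH' hg), ha.2]⟩)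
      (fun a ha => ha.2) M hM hM0 v hv0 hMv
  have hZp : ∀ M, ZCent T M → adj f M = M → M ≠ 0 → ∀ v : Fin n → F, M *ᵥ v = 0 → v = 0 := by
    intro M hM hM' hM0 v hv
    by_contra hv0
    exact hD1 ⟨M, ⟨hM, hM'⟩, hM0, v, hv0, hv⟩
  have hFSp : Helper98.IsFS (zcp f hf T) := by
    constructor
    · intro x hx y hy
      exact hZcomm x hx.1 y hy.1
    · intro x hx hx0
      have hdet : x.det ≠ 0 := Helper97.det_ne_zero_of_injective x (hZp x hx.1 hx.2 hx0)
      have hu : IsUnit x.det := isUnit_iff_ne_zero.mpr hdet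
      refine ⟨x⁻¹, ⟨⟨fun s hs => inv_comm_of_comm x s hdet (hx.1.1 s hs),
        fun c hc => inv_comm_of_comm x c hdet (hx.1.2 c hc)⟩, ?_⟩, Matrix.mul_nonsing_inv x hu⟩
      have h1 : adj f x⁻¹ * x = 1 := by
        have h2 := adj_mul hf x x⁻¹
        rw [Matrix.mul_nonsing_inv x hu, adj_one hf, hx.2] at h2
        exact h2.symm
      exact (Matrix.inv_eq_left_inv h1).symm
  have hpconj : ∀ g ∈ H, ∀ k, k ∈ zcp f hf T → (g : Matrix (Fin n) (Fin n) F) * k *
      ((g⁻¹ : GL (Fin n) F) : Matrix (Fin n) (Fin n) F) ∈ zcp f hf T :=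
    fun g hg k hk => ⟨hZconj g hg k hk.1, by rw [adj_conj hf (hH' hg), hk.2]⟩
  have hHnormp : H ≤ subalgebraNormalizer (zcp f hf T) := by
    intro g hg k
    constructor
    · exact hpconj g hg k
    · intro hk
      have h3 := hpconj g⁻¹ (H.inv_mem hg) _ hk
      have h4 : ((g⁻¹ : GL (Fin n) F) : Matrix (Fin n) (Fin n) F) * ((g : Matrix (Fin n) (Fin n) F) * k *
          ((g⁻¹ : GL (Fin n) F) : Matrix (Fin n) (Fin n) F)) *
          (((g⁻¹)⁻¹ : GL (Fin n) F) : Matrix (Fin n) (Fin n) F) = k := by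
        rw [inv_inv]
        simp only [mul_assoc, Units.inv_mul, mul_one]
        rw [← mul_assoc, Units.inv_mul, one_mul]
      rw [h4] at h3
      exact h3
  by_cases hA : ∃ k ∈ zcp f hf T, ∀ c : F, k ≠ c • (1 : Matrix (Fin n) (Fin n) F)
  · right; left
    obtain ⟨r, K₀, hr, hK₀, hle, hnorm⟩ := exists_prime_subfield' (zcp f hf T) hFSp hA
    exact ⟨r, K₀, hr, hK₀, hHnormp.trans hnorm⟩
  have hsc : ∀ k, ZCent T k → adj f k = k → ∃ c : F, k = c • (1 : Matrix (Fin n) (Fin n) F) := by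
    intro k hk hk'
    by_contra hcon
    exact hA ⟨k, ⟨hk, hk'⟩, fun c hc => hcon ⟨c, hc⟩⟩
  by_cases hB : ∃ k₀, ZCent T k₀ ∧ ∀ c : F, k₀ ≠ c • (1 : Matrix (Fin n) (Fin n) F)
  swap
  · right; right; right
    intro k hk
    by_contra hcon
    exact hB ⟨k, hk, fun c hc => hcon ⟨c, hc⟩⟩
  obtain ⟨k₀, hk₀, hk₀ns⟩ := hB
  -- the new ending
  have hnegM : ∀ M : Matrix (Fin n) (Fin n) F, -M = M := fun M => by
    rw [neg_eq_iff_add_eq_zero, ← two_smul F M, h2, zero_smul]
  have hdbl : ∀ M : Matrix (Fin n) (Fin n) F, M + M = 0 := fun M => by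
    rw [← two_smul F M, h2, zero_smul]
  obtain ⟨c₀, hc₀⟩ := hsc (k₀ + adj f k₀) ((zc T).add_mem hk₀ (hZadj k₀ hk₀))
    (by rw [adj_add, adj_adj hf, add_comm])
  have hc₀0 : c₀ ≠ 0 := by
    rintro rfl
    rw [zero_smul] at hc₀
    have h3 : adj f k₀ = k₀ :=
      (eq_neg_of_add_eq_zero_right hc₀).trans (hnegM k₀)
    obtain ⟨c, hc⟩ := hsc k₀ hk₀ h3
    exact hk₀ns c hc
  obtain ⟨e, hedef⟩ : ∃ e, e = c₀⁻¹ • k₀ := ⟨_, rfl⟩
  have heZ : ZCent T e := hedef ▸ (zc T).smul_mem hk₀ c₀⁻¹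
  have he1 : e + adj f e = 1 := by
    rw [hedef, adj_smul, ← smul_add, hc₀, smul_smul, inv_mul_cancel₀ hc₀0, one_smul]
  have hadj : adj f e = 1 + e := by
    have h3 : adj f e = 1 - e := eq_sub_of_add_eq' he1
    rw [h3, sub_eq_add_neg, hnegM]
  have hconj : ∀ h ∈ H, ∃ δ : F, ((h⁻¹ : GL (Fin n) F) : Matrix (Fin n) (Fin n) F) * e *
      (h : Matrix (Fin n) (Fin n) F) = e + δ • (1 : Matrix (Fin n) (Fin n) F) := by
    intro h hh
    have he' : ZCent T (((h⁻¹ : GL (Fin n) F) : Matrix (Fin n) (Fin n) F) * e *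
        (h : Matrix (Fin n) (Fin n) F)) := by
      have := hZconj h⁻¹ (H.inv_mem hh) e heZ
      simpa using this
    have hadj' : adj f (((h⁻¹ : GL (Fin n) F) : Matrix (Fin n) (Fin n) F) * e *
        (h : Matrix (Fin n) (Fin n) F)) = ((h⁻¹ : GL (Fin n) F) : Matrix (Fin n) (Fin n) F) * adj f e *
        (h : Matrix (Fin n) (Fin n) F) := by
      have := adj_conj hf (hH' (H.inv_mem hh)) e
      simpa using this
    obtain ⟨δ, hδ⟩ := hsc (((h⁻¹ : GL (Fin n) F) : Matrix (Fin n) (Fin n) F) * e *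
        (h : Matrix (Fin n) (Fin n) F) - e) ((zc T).sub_mem he' heZ) (by
      rw [adj_sub, hadj', (eq_sub_of_add_eq' he1 : adj f e = 1 - e), Matrix.mul_sub, Matrix.sub_mul,
        mul_one, Units.inv_mul,
        ← hnegM (((h⁻¹ : GL (Fin n) F) : Matrix (Fin n) (Fin n) F) * e * (h : Matrix (Fin n) (Fin n) F) - e)]
      abel)
    exact ⟨δ, by rw [← hδ]; abel⟩
  -- `Q x = f (e x) x`
  have hpol' : ∀ u v, f (e *ᵥ (u + v)) (u + v) - f (e *ᵥ u) u - f (e *ᵥ v) v = f u v := by
    intro u v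
    have h1 : f (e *ᵥ v) u = - f u v + f (e *ᵥ u) v := by
      rw [adj_spec hf, (eq_sub_of_add_eq' he1 : adj f e = 1 - e), Matrix.sub_mulVec,
        Matrix.one_mulVec, sub_right hf, hf.skew v u, hf.skew v (e *ᵥ u)]
      ring
    rw [Matrix.mulVec_add, hf.bilinear.add_left, hf.bilinear.add_right, hf.bilinear.add_right, h1]
    linear_combination (f (e *ᵥ u) v - f u v) * h2
  have hQe : ∀ x, Q x = f (e *ᵥ x) x := by
    have hΔ := Helper95.O12ZP.o12_zero_polar h2 (by rw [Fintype.card_fin]; exact hn)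
      (fun x => Q x - f (e *ᵥ x) x)
      (fun x y => by
        have h3 := hpol' x y
        have h4 := hfx x y
        show Q (x + y) - f (e *ᵥ (x + y)) (x + y) = Q x - f (e *ᵥ x) x + (Q y - f (e *ᵥ y) y)
        linear_combination -h4 - h3)
      (fun c x => by
        show Q (c • x) - f (e *ᵥ (c • x)) (c • x) = c ^ 2 * (Q x - f (e *ᵥ x) x)
        rw [hQ.smul, Matrix.mulVec_smul, hf.bilinear.smul_left, hf.bilinear.smul_right]
        ring)
      H hirr
      (fun h hh v => by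
        show Q ((h : Matrix (Fin n) (Fin n) F) *ᵥ v)
          - f (e *ᵥ ((h : Matrix (Fin n) (Fin n) F) *ᵥ v)) ((h : Matrix (Fin n) (Fin n) F) *ᵥ v)
          = Q v - f (e *ᵥ v) v
        obtain ⟨δ, hδ⟩ := hconj h hh
        have h3 : e *ᵥ ((h : Matrix (Fin n) (Fin n) F) *ᵥ v)
            = (h : Matrix (Fin n) (Fin n) F) *ᵥ (e *ᵥ v + δ • v) := by
          have h4 : (h : Matrix (Fin n) (Fin n) F) * (((h⁻¹ : GL (Fin n) F) : Matrix (Fin n) (Fin n) F) * e *
              (h : Matrix (Fin n) (Fin n) F)) = e * (h : Matrix (Fin n) (Fin n) F) := by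
            rw [← mul_assoc, ← mul_assoc, Units.mul_inv, one_mul]
          rw [hδ] at h4
          rw [Matrix.mulVec_mulVec, ← h4, ← Matrix.mulVec_mulVec, Matrix.add_mulVec, Matrix.smul_mulVec,
            Matrix.one_mulVec]
        rw [hH h hh, h3, iso_apply (hH' hh), hf.bilinear.add_left, hf.bilinear.smul_left, hf.alternating,
          mul_zero, add_zero])
    intro x
    exact sub_eq_zero.mp (hΔ x)
  obtain ⟨c, hc⟩ := hsc (e * adj f e) ((zc T).mul_mem heZ (hZadj e heZ))
    (by rw [adj_mul hf, adj_adj hf])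
  have hee : e * e = e + c • (1 : Matrix (Fin n) (Fin n) F) := by
    rw [hadj, mul_add, mul_one] at hc
    have h3 : e * e = c • (1 : Matrix (Fin n) (Fin n) F) - e := eq_sub_of_add_eq' hc
    rw [h3, sub_eq_add_neg, hnegM, add_comm]
  by_cases hroot : ∃ a : F, a ^ 2 + a = c
  · -- an idempotent: plus type
    right; right; left
    obtain ⟨a, ha⟩ := hroot
    obtain ⟨ε, hε⟩ : ∃ ε, ε = e + a • (1 : Matrix (Fin n) (Fin n) F) := ⟨_, rfl⟩
    have h5 : c = a + a * a := by rw [← ha]; ring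
    have heε : e * ε = (1 + a) • ε := by
      rw [hε, mul_add, hee, Matrix.mul_smul, mul_one, add_smul, one_smul, smul_add, smul_smul, h5,
        add_smul]
      abel
    have hts1 : ∀ w ∈ LinearMap.range (Matrix.toLin' ε), Q w = 0 := by
      rintro w ⟨x, rfl⟩
      rw [Matrix.toLin'_apply, hQe, Matrix.mulVec_mulVec, heε, Matrix.smul_mulVec,
        hf.bilinear.smul_left, hf.alternating, mul_zero]
    have hts2 : ∀ w ∈ LinearMap.ker (Matrix.toLin' ε), Q w = 0 := by
      intro w hw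
      rw [LinearMap.mem_ker, Matrix.toLin'_apply] at hw
      have h3 : e *ᵥ w = (-a) • w := by
        have h4 : e = ε - a • (1 : Matrix (Fin n) (Fin n) F) := by rw [hε, add_sub_cancel_right]
        rw [h4, Matrix.sub_mulVec, hw, Matrix.smul_mulVec, Matrix.one_mulVec, zero_sub, neg_smul]
      rw [hQe, h3, hf.bilinear.smul_left, hf.alternating, mul_zero]
    have hti : ∀ U : Submodule F (Fin n → F), (∀ w ∈ U, Q w = 0) → IsTotallySingularFor f U := by
      intro U hU u hu v hv
      rw [hfx, hU _ (U.add_mem hu hv), hU u hu, hU v hv]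
      ring
    have hd1 := finrank_ts hf _ (hti _ hts1)
    have hd2 := finrank_ts hf _ (hti _ hts2)
    have hd3 := LinearMap.finrank_range_add_finrank_ker (Matrix.toLin' ε)
    rw [Module.finrank_fintype_fun_eq_card] at hd3
    refine ⟨LinearMap.range (Matrix.toLin' ε), le_top, hts1, ?_⟩
    rw [finrank_top, Module.finrank_fintype_fun_eq_card]
    omega
  · -- a field of degree two
    right; left
    have hrep : ∀ z, ZCent T z → ∃ α β : F, z = β • (1 : Matrix (Fin n) (Fin n) F) + α • e := by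
      intro z hz
      obtain ⟨α, hα⟩ := hsc (z + adj f z) ((zc T).add_mem hz (hZadj z hz))
        (by rw [adj_add, adj_adj hf, add_comm])
      have hz' : adj f z = α • (1 : Matrix (Fin n) (Fin n) F) + z := by
        have h3 : adj f z = α • (1 : Matrix (Fin n) (Fin n) F) - z := eq_sub_of_add_eq' hα
        rw [h3, sub_eq_add_neg, hnegM]
      obtain ⟨β, hβ⟩ := hsc (z + α • e) ((zc T).add_mem hz ((zc T).smul_mem heZ α)) (by
        rw [adj_add, adj_smul, hadj, hz', smul_add]
        calc α • (1 : Matrix (Fin n) (Fin n) F) + z + (α • (1 : Matrix (Fin n) (Fin n) F) + α • e)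
            = (α • (1 : Matrix (Fin n) (Fin n) F) + α • (1 : Matrix (Fin n) (Fin n) F))
              + (z + α • e) := by abel
          _ = z + α • e := by rw [hdbl, zero_add])
      refine ⟨α, β, ?_⟩
      have h3 : z = β • (1 : Matrix (Fin n) (Fin n) F) - α • e := eq_sub_of_add_eq hβ
      rw [h3, sub_eq_add_neg, hnegM]
    have hens : ∀ l : F, e ≠ l • (1 : Matrix (Fin n) (Fin n) F) := by
      intro l hl
      apply hk₀ns (c₀ * l)
      have h3 : k₀ = c₀ • e := by rw [hedef, smul_smul, mul_inv_cancel₀ hc₀0, one_smul]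
      rw [h3, hl, smul_smul]
    have hone : (1 : Matrix (Fin n) (Fin n) F) ≠ 0 := by
      intro h
      have := congrFun (congrFun h ⟨0, hn0⟩) ⟨0, hn0⟩
      simp at this
    have hli : LinearIndependent F ![(1 : Matrix (Fin n) (Fin n) F), e] := by
      rw [LinearIndependent.pair_iff]
      intro s t hst
      have ht : t = 0 := by
        by_contra ht
        apply hens (-(t⁻¹ * s))
        have h1 : t • e = -(s • (1 : Matrix (Fin n) (Fin n) F)) := eq_neg_of_add_eq_zero_right hst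
        calc e = t⁻¹ • (t • e) := by rw [smul_smul, inv_mul_cancel₀ ht, one_smul]
          _ = (-(t⁻¹ * s)) • (1 : Matrix (Fin n) (Fin n) F) := by
              rw [h1, smul_neg, smul_smul, neg_smul]
      rw [ht, zero_smul, add_zero] at hst
      exact ⟨(smul_eq_zero.mp hst).resolve_right hone, ht⟩
    have hspan : Subalgebra.toSubmodule (zc T)
        = Submodule.span F (Set.range ![(1 : Matrix (Fin n) (Fin n) F), e]) := by
      apply le_antisymm
      · intro z hz
        obtain ⟨α, β, rfl⟩ := hrep z hz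
        exact Submodule.add_mem _ (Submodule.smul_mem _ _ (Submodule.subset_span ⟨0, rfl⟩))
          (Submodule.smul_mem _ _ (Submodule.subset_span ⟨1, rfl⟩))
      · rw [Submodule.span_le]
        rintro _ ⟨i, rfl⟩
        rcases fin2_cases i with rfl | rfl
        · exact (zc T).one_mem
        · exact heZ
    refine ⟨2, zc T, Nat.prime_two, ⟨fun x hx y hy => hZcomm x hx y hy, ?_, ?_⟩, ?_⟩
    · intro x hx hx0
      obtain ⟨α, β, rfl⟩ := hrep x hx
      by_cases hα : α = 0
      · subst hα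
        rw [zero_smul, add_zero] at hx0 ⊢
        have hβ : β ≠ 0 := by
          rintro rfl
          exact hx0 (zero_smul _ _)
        refine ⟨β⁻¹ • (1 : Matrix (Fin n) (Fin n) F), (zc T).smul_mem (zc T).one_mem _, ?_⟩
        rw [Matrix.smul_mul, one_mul, smul_smul, mul_inv_cancel₀ hβ, one_smul]
      · obtain ⟨b, hb⟩ : ∃ b, b = α⁻¹ * β := ⟨_, rfl⟩
        have hd : c + b ^ 2 + b ≠ 0 := by
          intro h
          apply hroot
          refine ⟨b, ?_⟩
          linear_combination (-1 : F) * h + (b ^ 2 + b) * h2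
        have hprod : (e + b • (1 : Matrix (Fin n) (Fin n) F)) *
            (e + b • (1 : Matrix (Fin n) (Fin n) F) + 1)
            = (c + b ^ 2 + b) • (1 : Matrix (Fin n) (Fin n) F) := by
          rw [mul_add, mul_one, add_mul, mul_add, mul_add, hee, Matrix.mul_smul, Matrix.smul_mul,
            Matrix.smul_mul, mul_one, one_mul, Matrix.mul_smul, mul_one, smul_smul]
          calc e + c • (1 : Matrix (Fin n) (Fin n) F) + b • e + (b • e + (b * b) • 1) + (e + b • 1)
              = (e + e) + (b • e + b • e) + (c • (1 : Matrix (Fin n) (Fin n) F) + (b * b) • 1 + b • 1) := by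
                abel
            _ = (c + b ^ 2 + b) • (1 : Matrix (Fin n) (Fin n) F) := by
                rw [hdbl, hdbl, zero_add, zero_add, ← add_smul, ← add_smul, pow_two]
        have hx' : β • (1 : Matrix (Fin n) (Fin n) F) + α • e
            = α • (e + b • (1 : Matrix (Fin n) (Fin n) F)) := by
          rw [smul_add, smul_smul, hb, mul_inv_cancel_left₀ hα, add_comm]
        refine ⟨(α⁻¹ * (c + b ^ 2 + b)⁻¹) • (e + b • (1 : Matrix (Fin n) (Fin n) F) + 1),
          (zc T).smul_mem ((zc T).add_mem ((zc T).add_mem heZ ((zc T).smul_mem (zc T).one_mem b))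
            (zc T).one_mem) _, ?_⟩
        rw [hx', Matrix.smul_mul, Matrix.mul_smul, hprod, smul_smul, smul_smul]
        have h6 : α * (α⁻¹ * (c + b ^ 2 + b)⁻¹) * (c + b ^ 2 + b) = 1 := by
          field_simp
        rw [h6, one_smul]
    · have h1 : Module.finrank F (zc T) = Module.finrank F (Subalgebra.toSubmodule (zc T)) := rfl
      rw [h1, hspan, finrank_span_eq_card hli, Fintype.card_fin]
    · have := le_normalizer_zc H N hNn
      rw [← hT] at this
      exact this

end Cfsg.Agent.Helper30
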