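import Cfsg.Agent.Helper30.OT5a
import Cfsg.Agent.Helper94.OSF1
import Cfsg.Agent.Helper98.OPar
import Cfsg.Agent.S2616

/-!
# helper30: CALL S5874, piece T5

A non-degenerate quadratic form in even dimension with a rational structure over a subfield of
index two is of plus type.
-/

set_option autoImplicit false
open Cfsg Cfsg.Geo Matrix

namespace Cfsg.Agent.Helper30

variable {ι : Type} [Fintype ι] [DecidableEq ι] {F : Type*} [Field F]

/-- A basis of `F₀^ι` stays linearly independent over `F`. -/
theorem ot5_li {F₀ : Subfield F} {κ : Type*} [Fintype κ] [DecidableEq κ]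
    (b : Module.Basis κ F₀ (ι → F₀)) :
    LinearIndependent F (fun j => Helper94.oUp F₀ (b j)) := by
  classical
  rw [Fintype.linearIndependent_iff]
  intro g hg j₀
  have hkey : ∀ j, (∑ i, b j i * b.repr (Pi.single i 1) j₀) = if j = j₀ then 1 else 0 := by
    intro j
    have h1 : b j = ∑ i, b j i • (Pi.single i (1 : F₀) : ι → F₀) := by
      funext k
      simp [Finset.sum_apply, Pi.single_apply]
    have h2 : b.repr (b j) j₀ = ∑ i, b j i * b.repr (Pi.single i 1) j₀ := by
      conv_lhs => rw [h1]
      rw [map_sum, Finsupp.coe_finsetSum, Finset.sum_apply]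
      refine Finset.sum_congr rfl fun i _ => ?_
      rw [map_smul, Finsupp.smul_apply, smul_eq_mul]
    rw [← h2, Module.Basis.repr_self, Finsupp.single_apply]
  have h3 : ∑ i, (∑ j, g j • Helper94.oUp F₀ (b j)) i * ((b.repr (Pi.single i 1) j₀ : F₀) : F)
      = g j₀ := by
    calc ∑ i, (∑ j, g j • Helper94.oUp F₀ (b j)) i * ((b.repr (Pi.single i 1) j₀ : F₀) : F)
        = ∑ i, ∑ j, g j * (((b j i : F₀) : F) * ((b.repr (Pi.single i 1) j₀ : F₀) : F)) := by
          refine Finset.sum_congr rfl fun i _ => ?_
          rw [Finset.sum_apply, Finset.sum_mul]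
          refine Finset.sum_congr rfl fun j _ => ?_
          rw [Pi.smul_apply, smul_eq_mul, mul_assoc]
          rfl
      _ = ∑ j, g j * ∑ i, (((b j i : F₀) : F) * ((b.repr (Pi.single i 1) j₀ : F₀) : F)) := by
          rw [Finset.sum_comm]
          refine Finset.sum_congr rfl fun j _ => ?_
          rw [Finset.mul_sum]
      _ = ∑ j, g j * (if j = j₀ then 1 else 0) := by
          refine Finset.sum_congr rfl fun j _ => ?_
          congr 1
          have := congrArg (fun x : F₀ => (x : F)) (hkey j)
          simp only [apply_ite (fun x : F₀ => (x : F))] at this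
          push_cast at this
          exact this
      _ = g j₀ := by simp
  rw [← h3, hg]
  simp

/-- A bundled quadratic form vanishes on the span of pairwise orthogonal singular vectors. -/
theorem ot5_ts_span {V : Type*} [AddCommGroup V] [Module F V] (Q : QuadraticForm F V)
    {κ : Type*} (y : κ → V) (h0 : ∀ k, Q (y k) = 0)
    (h1 : ∀ k l, QuadraticMap.polar ⇑Q (y k) (y l) = 0) :
    ∀ v ∈ Submodule.span F (Set.range y), Q v = 0 := by
  have ha : ∀ v ∈ Submodule.span F (Set.range y), ∀ l, QuadraticMap.polar ⇑Q v (y l) = 0 := by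
    intro v hv l
    induction hv using Submodule.span_induction with
    | mem x hx =>
      obtain ⟨k, rfl⟩ := hx
      exact h1 k l
    | zero => exact QuadraticMap.polar_zero_left _ _
    | add x z _ _ hx hz => rw [QuadraticMap.polar_add_left, hx, hz, add_zero]
    | smul a x _ hx => rw [QuadraticMap.polar_smul_left, hx, smul_zero]
  have hb : ∀ v ∈ Submodule.span F (Set.range y), ∀ w ∈ Submodule.span F (Set.range y),
      QuadraticMap.polar ⇑Q v w = 0 := by
    intro v hv w hw
    induction hw using Submodule.span_induction with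
    | mem x hx =>
      obtain ⟨k, rfl⟩ := hx
      exact ha v hv k
    | zero => exact QuadraticMap.polar_zero_right _ _
    | add x z _ _ hx hz => rw [QuadraticMap.polar_add_right, hx, hz, add_zero]
    | smul a x _ hx => rw [QuadraticMap.polar_smul_right, hx, smul_zero]
  intro v hv
  induction hv using Submodule.span_induction with
  | mem x hx =>
    obtain ⟨k, rfl⟩ := hx
    exact h0 k
  | zero => exact map_zero Q
  | add x z hx hz hx0 hz0 => rw [QuadraticMap.map_add Q x z, hx0, hz0, hb x hx z hz]; simp
  | smul a x _ hx => rw [QuadraticMap.map_smul, hx, smul_zero]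

/-- CALL S5874, PIECE T5: a rational structure over a subfield of index two forces plus type. -/
theorem o12_subfield_two_plus [Fintype F] (Q : (ι → F) → F) (hQ : IsNondegenerateQuadraticForm Q)
    (F₀ : Subfield F) (hcard : Fintype.card F = Nat.card F₀ ^ 2) (P : GL ι F) (ζ : F) (hζ : ζ ≠ 0)
    (hR : IsQuadFormRationalStructure (fun v : ι → F => ζ * Q v) F₀ P)
    (heven : Even (Fintype.card ι)) : IsPlusTypeOn Q ⊤ := by
  classical
  obtain ⟨m, hm⟩ := heven
  have htop : Module.finrank F (⊤ : Submodule F (ι → F)) = Fintype.card ι := by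
    rw [finrank_top, Module.finrank_fintype_fun_eq_card]
  -- the bundled form `Q' v = ζ * Q (P v)`
  set Q' : QuadraticForm F (ι → F) :=
    (ζ • Helper98.op_qf Q hQ).comp (Matrix.toLin' (P : Matrix ι ι F)) with hQ'def
  have hQ' : ∀ v, Q' v = ζ * Q ((P : Matrix ι ι F) *ᵥ v) := by
    intro v
    rw [hQ'def, QuadraticMap.comp_apply, _root_.smul_apply, Matrix.toLin'_apply]
    rfl
  have hpol : ∀ x y, QuadraticMap.polar ⇑Q' x y
      = ζ * QuadraticMap.polar Q ((P : Matrix ι ι F) *ᵥ x) ((P : Matrix ι ι F) *ᵥ y) := by
    intro x y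
    simp only [QuadraticMap.polar, hQ', Matrix.mulVec_add]
    ring
  have hPinv : ∀ w : ι → F, (P : Matrix ι ι F) *ᵥ (((P⁻¹ : GL ι F) : Matrix ι ι F) *ᵥ w) = w := by
    intro w
    rw [Matrix.mulVec_mulVec, ← Units.val_mul, mul_inv_cancel, Units.val_one, Matrix.one_mulVec]
  have hPinj : ∀ x : ι → F, (P : Matrix ι ι F) *ᵥ x = 0 → x = 0 := by
    intro x hx
    have : ((P⁻¹ : GL ι F) : Matrix ι ι F) *ᵥ ((P : Matrix ι ι F) *ᵥ x) = x := by
      rw [Matrix.mulVec_mulVec, ← Units.val_mul, inv_mul_cancel, Units.val_one, Matrix.one_mulVec]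
    rw [← this, hx, Matrix.mulVec_zero]
  have hnd' : (QuadraticMap.polarBilin Q').Nondegenerate := by
    constructor
    · intro x hx
      apply hPinj
      by_contra h0
      obtain ⟨w, hw⟩ := (hQ.nondegenerate _ h0).2
      apply hw
      have := hx (((P⁻¹ : GL ι F) : Matrix ι ι F) *ᵥ w)
      rw [QuadraticMap.polarBilin_apply_apply, hpol, hPinv] at this
      exact (mul_eq_zero.mp this).resolve_left hζ
    · intro x hx
      apply hPinj
      by_contra h0
      obtain ⟨w, hw⟩ := (hQ.nondegenerate _ h0).1
      apply hw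
      have := hx (((P⁻¹ : GL ι F) : Matrix ι ι F) *ᵥ w)
      rw [QuadraticMap.polarBilin_apply_apply, hpol, hPinv] at this
      exact (mul_eq_zero.mp this).resolve_left hζ
  have hrat : Helper94.ORatQ Q' F₀ := by
    intro u hu
    rw [hQ']
    exact hR u hu
  -- it suffices to find a totally singular subspace for `Q'`
  suffices hsuff : ∃ U' : Submodule F (ι → F), (∀ v ∈ U', Q' v = 0) ∧ Module.finrank F U' = m by
    obtain ⟨U', hU', hdim⟩ := hsuff
    refine ⟨U'.map (Matrix.toLin' (P : Matrix ι ι F)), le_top, ?_, ?_⟩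
    · rintro w ⟨v, hv, rfl⟩
      have := hU' v hv
      rw [hQ'] at this
      rw [Matrix.toLin'_apply]
      exact (mul_eq_zero.mp this).resolve_left hζ
    · have hinj : Function.Injective (Matrix.toLin' (P : Matrix ι ι F)) := by
        rw [← LinearMap.ker_eq_bot, LinearMap.ker_eq_bot']
        intro x hx
        rw [Matrix.toLin'_apply] at hx
        exact hPinj x hx
      rw [← (Submodule.equivMapOfInjective _ hinj U').finrank_eq, hdim, htop, hm]
      ring
  by_cases hm0 : m = 0
  · refine ⟨⊥, ?_, ?_⟩
    · intro v hv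
      rw [Submodule.mem_bot] at hv
      rw [hv, map_zero]
    · rw [finrank_bot, hm0]
  have hm1 : 1 ≤ m := Nat.one_le_iff_ne_zero.mpr hm0
  have hV : Module.finrank F₀ (ι → F₀) = 2 * m := by
    rw [Module.finrank_fintype_fun_eq_card, hm]
    ring
  have hnd₀ := Helper94.oQ0_nondeg hrat hnd'
  rcases Cfsg.Agent.S2616.result hm1 hV (Helper94.oQ0 hrat) hnd₀ with
    ⟨b, hb1, hb2, hb3⟩ | ⟨b, ζ', hζ', h1, h2, h3, h4, h5, h6, h7⟩
  · -- hyperbolic
    have hli := ot5_li (F := F) b
    set y : Fin m → ι → F := fun i => Helper94.oUp F₀ (b (Sum.inl i)) with hy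
    refine ⟨Submodule.span F (Set.range y), ?_, ?_⟩
    · apply ot5_ts_span Q' y
      · intro k
        rw [hy, ← Helper94.oQ0_apply hrat, (hb1 k).1]
        rfl
      · intro k l
        rw [hy, ← Helper94.oQ0_polar hrat, (hb3 k l).1]
        rfl
    · have hliy : LinearIndependent F y := hli.comp Sum.inl Sum.inl_injective
      rw [finrank_span_eq_card hliy, Fintype.card_fin]
  · -- elliptic: use a root of `t^2 + t + ζ'` in `F`
    obtain ⟨t, ht⟩ := ot5_exists_root F₀ hcard ζ'
    have hli := ot5_li (F := F) b
    set a : ι → F := Helper94.oUp F₀ (b (Sum.inr 0)) with ha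
    set c : ι → F := Helper94.oUp F₀ (b (Sum.inr 1)) with hc
    set y : Fin (m - 1) ⊕ Unit → ι → F := Sum.elim
      (fun i => Helper94.oUp F₀ (b (Sum.inl (Sum.inl i)))) (fun _ => t • a + c) with hy
    have hQa : Q' a = 1 := by
      rw [ha, ← Helper94.oQ0_apply hrat, h5]
      rfl
    have hQc : Q' c = (ζ' : F) := by
      rw [hc, ← Helper94.oQ0_apply hrat, h7]
    have hac : QuadraticMap.polar ⇑Q' a c = 1 := by
      rw [ha, hc, ← Helper94.oQ0_polar hrat, h6]
      rfl
    have hQz : Q' (t • a + c) = 0 := by
      rw [QuadraticMap.map_add Q' (t • a) c, QuadraticMap.map_smul, QuadraticMap.polar_smul_left,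
        hQa, hQc, hac]
      simp only [smul_eq_mul, mul_one]
      rw [← ht]
      ring
    have hxz : ∀ i, QuadraticMap.polar ⇑Q' (Helper94.oUp F₀ (b (Sum.inl (Sum.inl i)))) (t • a + c)
        = 0 := by
      intro i
      rw [QuadraticMap.polar_add_right, QuadraticMap.polar_smul_right, ha, hc,
        ← Helper94.oQ0_polar hrat, ← Helper94.oQ0_polar hrat, (h4 i 0).1, (h4 i 1).1]
      simp
    refine ⟨Submodule.span F (Set.range y), ?_, ?_⟩
    · apply ot5_ts_span Q' y
      · rintro (k | k)
        · simp only [hy, Sum.elim_inl]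
          rw [← Helper94.oQ0_apply hrat, (h1 k).1]
          rfl
        · simp only [hy, Sum.elim_inr]
          exact hQz
      · rintro (k | k) (l | l)
        · simp only [hy, Sum.elim_inl]
          rw [← Helper94.oQ0_polar hrat, (h3 k l).1]
          rfl
        · simp only [hy, Sum.elim_inl, Sum.elim_inr]
          exact hxz k
        · simp only [hy, Sum.elim_inl, Sum.elim_inr]
          rw [QuadraticMap.polar_comm]
          exact hxz l
        · simp only [hy, Sum.elim_inr]
          rw [QuadraticMap.polar_self, hQz, smul_zero]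
    · have hliy : LinearIndependent F y := by
        rw [Fintype.linearIndependent_iff]
        intro g hg
        rw [Fintype.linearIndependent_iff] at hli
        have hG := hli (Sum.elim (Sum.elim (fun i => g (Sum.inl i)) (fun _ => 0))
          (fun k : Fin 2 => if k = 0 then g (Sum.inr ()) * t else g (Sum.inr ()))) (by
            refine Eq.trans ?_ hg
            simp only [Fintype.sum_sum_type, Sum.elim_inl, Sum.elim_inr, Fin.sum_univ_two,
              Finset.univ_unique, Finset.sum_singleton, hy, zero_smul, Finset.sum_const_zero,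
              add_zero]
            simp only [if_true, Fin.isValue, one_ne_zero, if_false]
            rw [smul_add, smul_smul])
        rintro (i | u)
        · exact hG (Sum.inl (Sum.inl i))
        · have := hG (Sum.inr 1)
          simpa using this
      rw [finrank_span_eq_card hliy, Fintype.card_sum, Fintype.card_fin, Fintype.card_unit]
      omega

end Cfsg.Agent.Helper30
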