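-- helper30 library: the maximal subgroups of Ω_10^+(q) — the structure analysis for `n = 10` and the
-- row assembly (pattern of `Helper95.O12.o_core` / `row12`), on top of helper94's field package,
-- helper33's type library and the pieces of CALL S5847 / CALL S5871.
import Cfsg.Agent.Helper95.O12Row
import Cfsg.Agent.Helper33.OFam
import Cfsg.Agent.Helper94.Plus4
import Cfsg.Agent.Helper67.O10T2S
import Cfsg.Agent.Helper67.O10X2
import Cfsg.Agent.Helper10.O12pFS
import Cfsg.Agent.Helper74.O12pT2I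
import Cfsg.Agent.Helper80.O12pN2s
import Cfsg.Agent.Helper33.OBlocks
import Cfsg.Agent.Helper33.OFrame
import Cfsg.Agent.Helper94.O10F
import Cfsg.Agent.Helper30.OX5

set_option autoImplicit false
set_option linter.unusedSectionVars false
set_option linter.unusedVariables false
open Cfsg Cfsg.Geo Matrix
open Cfsg.Agent.Helper96
open Cfsg.Agent.Helper95.O12
open scoped Kronecker

namespace Cfsg.Agent.Helper30.O10

variable {F : Type*} [Field F] [Fintype F]

/-- The conclusion of the row. -/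
def Goal10 (Q : (Fin 10 → F) → F) (H : Subgroup (Matrix.GeneralLinearGroup (Fin 10) F)) : Prop :=
    (∃ W : Submodule F (Fin 10 → F), W ≠ ⊥ ∧ Cfsg.Geo.IsTotallySingularQuad Q W ∧ Module.finrank F W ≠ 4 ∧ H = Cfsg.Geo.subspaceStabilizer W ⊓ Cfsg.Geo.omegaGL Q) ∨
    (Odd (Fintype.card F) ∧ ∃ W : Submodule F (Fin 10 → F), W ≠ ⊥ ∧ W ≠ ⊤ ∧ Odd (Module.finrank F W) ∧ 2 * Module.finrank F W ≠ 10 ∧ Cfsg.Geo.IsNondegenerateOn (QuadraticMap.polar Q) W ∧ H = Cfsg.Geo.subspaceStabilizer W ⊓ Cfsg.Geo.omegaGL Q) ∨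
    (∃ W : Submodule F (Fin 10 → F), Module.finrank F W = 2 ∧ Cfsg.Geo.IsNondegenerateOn (QuadraticMap.polar Q) W ∧ ¬ Cfsg.Geo.IsPlusTypeOn Q W ∧ H = Cfsg.Geo.subspaceStabilizer W ⊓ Cfsg.Geo.omegaGL Q) ∨
    (4 ≤ Fintype.card F ∧ ∃ W : Submodule F (Fin 10 → F), Module.finrank F W = 2 ∧ Cfsg.Geo.IsNondegenerateOn (QuadraticMap.polar Q) W ∧ Cfsg.Geo.IsPlusTypeOn Q W ∧ H = Cfsg.Geo.subspaceStabilizer W ⊓ Cfsg.Geo.omegaGL Q) ∨
    (∃ W : Submodule F (Fin 10 → F), Module.finrank F W = 4 ∧ Cfsg.Geo.IsNondegenerateOn (QuadraticMap.polar Q) W ∧ H = Cfsg.Geo.subspaceStabilizer W ⊓ Cfsg.Geo.omegaGL Q) ∨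
    (¬ Odd (Fintype.card F) ∧ ∃ v : (Fin 10 → F), Q v ≠ 0 ∧ H = Cfsg.Geo.subspaceStabilizer (Submodule.span F {v}) ⊓ Cfsg.Geo.omegaGL Q) ∨
    ((∃ p : ℕ, p.Prime ∧ Fintype.card F = p ∧ (p % 4 = 1)) ∧ ∃ D : Fin 10 → Submodule F (Fin 10 → F), Cfsg.Geo.IsOrthogonalMDecomposition Q 1 D ∧ H = Cfsg.Geo.decompositionStabilizer D ⊓ Cfsg.Geo.omegaGL Q) ∨
    (7 ≤ Fintype.card F ∧ ∃ D : Fin 5 → Submodule F (Fin 10 → F), Cfsg.Geo.IsOrthogonalMDecomposition Q 2 D ∧ H = Cfsg.Geo.decompositionStabilizer D ⊓ Cfsg.Geo.omegaGL Q) ∨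
    (Fintype.card F % 4 = 1 ∧ ∃ D : Fin 2 → Submodule F (Fin 10 → F), Cfsg.Geo.IsOrthogonalMDecomposition Q 5 D ∧ H = Cfsg.Geo.decompositionStabilizer D ⊓ Cfsg.Geo.omegaGL Q) ∨
    (Fintype.card F % 4 = 3 ∧ ∃ D : Fin 2 → Submodule F (Fin 10 → F), Cfsg.Geo.IsNondegenerateMDecomposition (QuadraticMap.polar Q) 5 D ∧ ¬ Cfsg.Geo.AreIsometricFor Q (D 0) (D 1) ∧ H = Cfsg.Geo.decompositionStabilizer D ⊓ Cfsg.Geo.omegaGL Q) ∨
    (Odd (Fintype.card F) ∧ ∃ K : Subalgebra F (Matrix (Fin 10) (Fin 10) F), Cfsg.Geo.IsFieldSubalgebra 2 K ∧ Cfsg.Geo.IsSelfAdjointFor (QuadraticMap.polar Q) K ∧ H = Cfsg.Geo.subalgebraNormalizer K ⊓ Cfsg.Geo.omegaGL Q) ∨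
    (∃ (F₀ : Subfield F) (r : ℕ) (P : Matrix.GeneralLinearGroup (Fin 10) F) (ζ : F), r.Prime ∧ Fintype.card F = Nat.card F₀ ^ r ∧ ζ ≠ 0 ∧ Cfsg.Geo.IsQuadFormRationalStructure (fun v : Fin 10 → F => ζ * Q v) F₀ P ∧ H = Cfsg.Geo.subfieldSubgroup F₀ P ⊓ Cfsg.Geo.omegaGL Q) ∨
    Cfsg.Geo.InOrthogonalResidualClass H

theorem card10 : Fintype.card (Fin 10) = 10 := Fintype.card_fin 10

theorem finrank_top10 : Module.finrank F (⊤ : Submodule F (Fin 10 → F)) = 10 := by
  rw [finrank_top, Module.finrank_fintype_fun_eq_card, Fintype.card_fin]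

theorem iso_refl10 (Q : (Fin 10 → F) → F) (W : Submodule F (Fin 10 → F)) :
    AreIsometricFor Q W W :=
  ⟨LinearEquiv.refl F W, fun w => rfl⟩

theorem iso_symm10 {Q : (Fin 10 → F) → F} {W W' : Submodule F (Fin 10 → F)}
    (h : AreIsometricFor Q W W') : AreIsometricFor Q W' W := by
  obtain ⟨e, he⟩ := h
  refine ⟨e.symm, fun w => ?_⟩
  have h1 := he (e.symm w)
  rw [LinearEquiv.apply_symm_apply] at h1
  exact h1.symm

theorem card_ne_six : Fintype.card F ≠ 6 := by
  intro h6
  obtain ⟨p, hchar⟩ := CharP.exists F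
  have hp : p.Prime :=
    (CharP.char_is_prime_or_zero F p).resolve_right (CharP.char_ne_zero_of_finite F p)
  obtain ⟨n, -, hn⟩ := FiniteField.card F p
  rw [h6] at hn
  have hp6 : p ∣ 6 := by
    rw [hn]
    exact dvd_pow_self p n.ne_zero
  have hple : p ≤ 6 := Nat.le_of_dvd (by norm_num) hp6
  have h2 : (2 : ℕ) ∣ p ^ (n : ℕ) := ⟨3, by rw [← hn]⟩
  have h3 : (3 : ℕ) ∣ p ^ (n : ℕ) := ⟨2, by rw [← hn]⟩
  have h2' := (Nat.prime_dvd_prime_iff_eq Nat.prime_two hp).mp (Nat.Prime.dvd_of_dvd_pow Nat.prime_two h2)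
  have h3' := (Nat.prime_dvd_prime_iff_eq Nat.prime_three hp).mp (Nat.Prime.dvd_of_dvd_pow Nat.prime_three h3)
  omega

section
variable {Q : (Fin 10 → F) → F} (hQ : IsNondegenerateQuadraticForm Q)
  (hplus : IsPlusTypeOn Q ⊤) {H : Subgroup (GL (Fin 10) F)} (hH : IsMaximalIn (omegaGL Q) H)

include hH in
theorem not_between {M : Subgroup (GL (Fin 10) F)} (hle : H ≤ M)
    (hK : ∃ K : Subgroup (GL (Fin 10) F), M ⊓ omegaGL Q < K ∧ K < omegaGL Q) : False := by
  obtain ⟨K, h1, h2⟩ := hK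
  have hHK : H ≤ K := (le_inf hle hH.1.le).trans h1.le
  rcases hH.2 K hHK h2.le with h | h
  · rw [h] at h1
    exact absurd (le_inf hle hH.1.le) (not_le_of_gt h1)
  · exact absurd h h2.ne

include hQ hplus hH in
/-- A totally singular invariant subspace. -/
theorem ts_case (W : Submodule F (Fin 10 → F)) (hW0 : W ≠ ⊥) (hts : IsTotallySingularQuad Q W)
    (hle : H ≤ subspaceStabilizer W) : Goal10 Q H := by
  classical
  have hW1 : W ≠ ⊤ := by
    rintro rfl
    exact ts_ne_top (by norm_num) hQ hts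
  by_cases h4 : Module.finrank F W = 4
  · obtain ⟨U, hWU, hUts, hUdim, hUle⟩ := Cfsg.Agent.Helper33.o_ts_codim_one Q hQ hplus W hts
      (by rw [h4, card10])
    rw [card10] at hUdim
    have hU0 : U ≠ ⊥ := by
      rintro rfl
      rw [finrank_bot] at hUdim
      omega
    have hU1 : U ≠ ⊤ := by
      rintro rfl
      exact ts_ne_top (by norm_num) hQ hUts
    have hleU : H ≤ subspaceStabilizer U := fun h hh => hUle ⟨hle hh, hH.1.le hh⟩
    exact Or.inl ⟨U, hU0, hUts, by omega, key hH hleU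
      (Cfsg.Agent.Helper76.o12_notOmega_subspace Q hQ (by rw [card10]; norm_num) U hU0 hU1)⟩
  · exact Or.inl ⟨W, hW0, hts, h4, key hH hle
      (Cfsg.Agent.Helper76.o12_notOmega_subspace Q hQ (by rw [card10]; norm_num) W hW0 hW1)⟩

include hQ hplus hH in
/-- A pair of complementary totally singular subspaces permuted by the group. -/
theorem pair_case {k : ℕ} (D : Fin 2 → Submodule F (Fin 10 → F)) (hD : IsMDecomposition k D)
    (hts : ∀ i, IsTotallySingularQuad Q (D i)) (hle : H ≤ decompositionStabilizer D) :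
    Goal10 Q H := by
  classical
  have hk : 2 * k = 10 := decomp_card_gen D hD
  have hk5 : k = 5 := by omega
  have hfr : Module.finrank F (D 0) = 5 := by rw [hD.finrank_eq, hk5]
  have hdisj : D 0 ⊓ D 1 = ⊥ :=
    disjoint_iff.mp (hD.indep.pairwiseDisjoint (by decide : (0 : Fin 2) ≠ 1))
  have hst := Cfsg.Agent.Helper33.o_ts_decomp_two Q hQ D (hts 0) (by rw [hfr, card10]) hdisj
    (by rw [hfr]; decide)
  have hD0 : D 0 ≠ ⊥ := by
    intro h
    rw [h, finrank_bot] at hfr
    omega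
  exact ts_case hQ hplus hH (D 0) hD0 (hts 0) (fun h hh => hst ⟨hle hh, hH.1.le hh⟩)

include hQ hplus hH in
/-- A proper non-zero non-degenerate invariant subspace of dimension at most four. -/
theorem sub_case (W : Submodule F (Fin 10 → F)) (hW0 : W ≠ ⊥) (hW1 : W ≠ ⊤)
    (hnd : IsNondegenerateOn (QuadraticMap.polar Q) W) (hle : H ≤ subspaceStabilizer W)
    (hd4 : Module.finrank F W ≤ 4) : Goal10 Q H := by
  classical
  have hN := Cfsg.Agent.Helper76.o12_notOmega_subspace Q hQ (by rw [card10]; norm_num) W hW0 hW1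
  have hkey := key hH hle hN
  obtain ⟨d, hd⟩ : ∃ d, Module.finrank F W = d := ⟨_, rfl⟩
  have hd1 : 1 ≤ d := by
    rw [← hd]
    exact Nat.one_le_iff_ne_zero.mpr (fun h0 => hW0 (Submodule.finrank_eq_zero.mp h0))
  rw [hd] at hd4
  have hoddcase : Odd d → Goal10 Q H := by
    intro hodd
    have h2 := Cfsg.Agent.Helper76.o12_two_ne_of_odd Q hQ W hnd (by rw [hd]; exact hodd)
    refine Or.inr (Or.inl ⟨odd_of_two_ne_zero h2, W, hW0, hW1, by rw [hd]; exact hodd, ?_, hnd, hkey⟩)
    rw [hd]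
    omega
  rcases (by omega : d = 1 ∨ d = 2 ∨ d = 3 ∨ d = 4) with rfl | rfl | rfl | rfl
  · exact hoddcase (by decide)
  · by_cases hpl : IsPlusTypeOn Q W
    · by_cases hq : 4 ≤ Fintype.card F
      · exact Or.inr (Or.inr (Or.inr (Or.inl ⟨hq, W, hd, hnd, hpl, hkey⟩)))
      · obtain ⟨x, hx, hxle⟩ := Cfsg.Agent.Helper20.o12_plus_plane_small (by omega) Q hQ W hd hnd hpl
        have hle' : H ≤ subspaceStabilizer (Submodule.span F {x}) :=
          fun h hh => hxle ⟨le_iso hH hh, hle hh⟩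
        have hN' := Cfsg.Agent.Helper76.o12_notOmega_subspace Q hQ (by rw [card10]; norm_num) _
          (span_ne_bot hx hQ) (span_ne_top_gen (by norm_num) x)
        have hkey' := key hH hle' hN'
        by_cases h2 : (2 : F) = 0
        · exact Or.inr (Or.inr (Or.inr (Or.inr (Or.inr (Or.inl
            ⟨not_odd_of_two_eq_zero h2, x, hx, hkey'⟩)))))
        · have hx0 : x ≠ 0 := by
            rintro rfl
            exact hx (q_zero hQ)
          refine Or.inr (Or.inl ⟨odd_of_two_ne_zero h2, _, span_ne_bot hx hQ,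
            span_ne_top_gen (by norm_num) x, ?_, ?_, ?_, hkey'⟩)
          · rw [finrank_span_singleton hx0]
            exact odd_one
          · rw [finrank_span_singleton hx0]
            norm_num
          · intro w hw hw0
            obtain ⟨c, rfl⟩ := Submodule.mem_span_singleton.mp hw
            have hc : c ≠ 0 := by
              rintro rfl
              exact hw0 (zero_smul _ _)
            have hxx : QuadraticMap.polar Q x x ≠ 0 := by
              rw [Helper97.polar_self Q hQ]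
              exact mul_ne_zero h2 hx
            refine ⟨⟨x, Submodule.mem_span_singleton_self x, ?_⟩,
              ⟨x, Submodule.mem_span_singleton_self x, ?_⟩⟩
            · rw [hQ.polar_bilinear.smul_right]
              exact mul_ne_zero hc hxx
            · rw [hQ.polar_bilinear.smul_left]
              exact mul_ne_zero hc hxx
    · exact Or.inr (Or.inr (Or.inl ⟨W, hd, hnd, hpl, hkey⟩))
  · exact hoddcase (by decide)
  · exact Or.inr (Or.inr (Or.inr (Or.inr (Or.inl ⟨W, hd, hnd, hkey⟩))))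

include hQ hplus hH in
/-- A decomposition into two non-degenerate five-dimensional subspaces. -/
theorem two_five_case (D : Fin 2 → Submodule F (Fin 10 → F))
    (hD : IsNondegenerateMDecomposition (QuadraticMap.polar Q) 5 D)
    (hle : H ≤ decompositionStabilizer D) : Goal10 Q H := by
  classical
  have h2 : (2 : F) ≠ 0 := Cfsg.Agent.Helper76.o12_two_ne_of_odd Q hQ (D 0) (hD.nondegenerate 0)
    (by rw [hD.decomp.finrank_eq]; decide)
  have hodd := odd_of_two_ne_zero h2
  have hkey := key hH hle (Cfsg.Agent.Helper66.o12_notOmega_decomp Q hQ (by rw [card10]; norm_num)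
    (by norm_num) D hD)
  have hX := (Cfsg.Agent.Helper30.o_two_blocks_plus_iff Q hQ (by decide : Odd 5) D hD).mp hplus
  have hsq := FiniteField.isSquare_neg_one_iff (F := F)
  rw [Nat.odd_iff] at hodd
  by_cases hiso : AreIsometricFor Q (D 0) (D 1)
  · have h1 : Fintype.card F % 4 = 1 := by
      have h3 := hsq.mp (hX.mp hiso)
      omega
    refine Or.inr (Or.inr (Or.inr (Or.inr (Or.inr (Or.inr (Or.inr (Or.inr (Or.inl
      ⟨h1, D, ⟨hD, ?_⟩, hkey⟩))))))))
    intro i j
    rcases Sy.fin2_cases i with rfl | rfl <;> rcases Sy.fin2_cases j with rfl | rfl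
    · exact iso_refl10 Q _
    · exact hiso
    · exact iso_symm10 hiso
    · exact iso_refl10 Q _
  · have h3 : Fintype.card F % 4 = 3 := by
      by_contra hne
      exact hiso (hX.mpr (hsq.mpr hne))
    exact Or.inr (Or.inr (Or.inr (Or.inr (Or.inr (Or.inr (Or.inr (Or.inr (Or.inr (Or.inl
      ⟨h3, D, hD, hiso, hkey⟩)))))))))

include hQ hH in
/-- The subfield case. -/
theorem subfield_case (F₁ : Subfield F) (r : ℕ) (P : GL (Fin 10) F) (ζ : F) (hr : r.Prime)
    (hcard : Fintype.card F = Nat.card F₁ ^ r) (hζ : ζ ≠ 0)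
    (hrat : IsQuadFormRationalStructure (fun v : Fin 10 → F => ζ * Q v) F₁ P)
    (hle : H ≤ subfieldSubgroup F₁ P) : Goal10 Q H :=
  Or.inr (Or.inr (Or.inr (Or.inr (Or.inr (Or.inr (Or.inr (Or.inr (Or.inr (Or.inr (Or.inr (Or.inl
    ⟨F₁, r, P, ζ, hr, hcard, hζ, hrat, key hH hle
      (Cfsg.Agent.Helper81.o12_notOmega_subfield Q hQ (by rw [card10]; norm_num) F₁
        (top_ne_of_card F₁ hr hcard) P)⟩)))))))))))

include hQ hplus hH in
/-- A non-degenerate decomposition permuted by the (irreducible) group. -/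
theorem decomp_case (hirr : ActsIrreducibly (matrixSet H)) {t k : ℕ}
    (D : Fin t → Submodule F (Fin 10 → F))
    (hD : IsNondegenerateMDecomposition (QuadraticMap.polar Q) k D)
    (hle : H ≤ decompositionStabilizer D) : Goal10 Q H := by
  classical
  have hO : IsOrthogonalMDecomposition Q k D :=
    ⟨hD, fun i j => Helper94.OA.decomp_iso H hirr (le_iso hH) D hD.decomp hle i j⟩
  have htk : t * k = 10 := decomp_card_gen D hD.decomp
  have ht2 := hD.decomp.two_le
  have hk := hD.decomp.pos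
  have ht10 : t ≤ 10 := Nat.le_of_dvd (by norm_num) ⟨k, htk.symm⟩
  have hcases : (t = 2 ∧ k = 5) ∨ (t = 5 ∧ k = 2) ∨ (t = 10 ∧ k = 1) := by
    interval_cases t <;> omega
  rcases hcases with ⟨rfl, rfl⟩ | ⟨rfl, rfl⟩ | ⟨rfl, rfl⟩
  · exact two_five_case hQ hplus hH D hD hle
  · -- five planes, all of plus type
    have hpl : ∀ i, IsPlusTypeOn Q (D i) := by
      intro i
      rcases (Cfsg.Agent.Helper33.o_blocks_plus_iff Q hQ (by decide : Even 2) D hO i).mp hplus with h | h
      · exact h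
      · exact absurd h (by decide)
    have hN := Cfsg.Agent.Helper80.o12p_notOmega_decomp_small Q hQ (by rw [card10]; norm_num)
      (by norm_num) D hD
    by_cases hq : 7 ≤ Fintype.card F
    · exact Or.inr (Or.inr (Or.inr (Or.inr (Or.inr (Or.inr (Or.inr (Or.inl
        ⟨hq, D, hO, key hH hle hN⟩)))))))
    · exfalso
      have hq2 := Fintype.one_lt_card (α := F)
      have hq6 := card_ne_six (F := F)
      have hc : Fintype.card F = 2 ∨ Fintype.card F = 3 ∨ Fintype.card F = 4 ∨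
          Fintype.card F = 5 := by omega
      apply not_between hH hle
      rcases hc with hq | hq | hq | hq
      · exact Helper94.plus2_q2_not_max hQ hq D hO (by norm_num) hpl
      · exact Helper94.frame_of_good hQ (Helper94.two_ne_zero_of_card_three hq) D hO (by norm_num) 1
          one_ne_zero (fun i => Helper94.good2 hQ hq (D i) (hD.decomp.finrank_eq i)
            (hD.nondegenerate i))
      · exact Helper94.plus2_q4_not_max hQ hq D hO (by norm_num) hpl
      · have h2 : (2 : F) ≠ 0 := by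
          intro h
          have h5 : ((5 : ℕ) : F) = 0 := by rw [← hq]; exact Nat.cast_card_eq_zero F
          have h1 : (1 : F) = 0 := by
            have : ((5 : ℕ) : F) = 2 * 2 + 1 := by norm_num
            rw [this, h, zero_mul, zero_add] at h5
            exact h5
          exact one_ne_zero h1
        exact Helper94.frame_of_good hQ h2 D hO (by norm_num) 1 one_ne_zero
          (fun i => Helper94.good_plus5 hQ hq (D i) (hD.decomp.finrank_eq i)
            (hD.nondegenerate i) (hpl i))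
  · -- ten lines
    have h2 : (2 : F) ≠ 0 := Cfsg.Agent.Helper76.o12_two_ne_of_odd Q hQ (D 0) (hD.nondegenerate 0)
      (by rw [hD.decomp.finrank_eq]; decide)
    have hodd := odd_of_two_ne_zero h2
    have hsq : IsSquare (-1 : F) := by
      have h1 := (Cfsg.Agent.Helper33.o_frame_plus_iff Q hQ (m := 5) (by norm_num) (by rw [card10])
        D hO).mp hplus
      have h5 : ((-1 : F)) ^ 5 = -1 := by norm_num
      rwa [h5] at h1
    have h1 : Fintype.card F % 4 = 1 := by
      have h3 := (FiniteField.isSquare_neg_one_iff (F := F)).mp hsq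
      rw [Nat.odd_iff] at hodd
      omega
    have hN := Cfsg.Agent.Helper80.o12p_notOmega_decomp_small Q hQ (by rw [card10]; norm_num)
      (by norm_num) D hD
    by_cases hprime : (Fintype.card F).Prime
    · exact Or.inr (Or.inr (Or.inr (Or.inr (Or.inr (Or.inr (Or.inl
        ⟨⟨Fintype.card F, hprime, rfl, h1⟩, D, hO, key hH hle hN⟩))))))
    · obtain ⟨p, hchar⟩ := CharP.exists F
      have hp : p.Prime :=
        (CharP.char_is_prime_or_zero F p).resolve_right (CharP.char_ne_zero_of_finite F p)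
      have hfact : Fact p.Prime := ⟨hp⟩
      have hbot : (⊥ : Subfield F) ≠ ⊤ := by
        intro hbt
        apply hprime
        have h1 : Nat.card (⊥ : Subfield F) = p := Subfield.card_bot F p
        rw [hbt] at h1
        have h2 : Nat.card (⊤ : Subfield F) = Nat.card F :=
          Nat.card_congr (Subfield.topEquiv (K := F)).toEquiv
        rw [h2, Nat.card_eq_fintype_card] at h1
        rw [h1]
        exact hp
      obtain ⟨F₁, r, -, hr, hcardr⟩ := Helper97.Gen.exists_prime_index_subfield (⊥ : Subfield F) hbot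
      obtain ⟨P, ζ, hζ, hrat, hleS⟩ := Cfsg.Agent.Helper10.o12p_frame_subfield Q hQ D hO F₁
      exact subfield_case hQ hH F₁ r P ζ hr hcardr hζ hrat (fun h hh => hleS ⟨hle hh, le_iso hH hh⟩)

include hQ hplus hH in
/-- The tensor case `2 ⊗ 5`. -/
theorem tensor25_case (h2 : (2 : F) ≠ 0)
    (e : Fin 10 ≃ Fin 2 × Fin 5) (P : GL (Fin 10) F)
    (f₁ : (Fin 2 → F) → (Fin 2 → F) → F) (f₂ : (Fin 5 → F) → (Fin 5 → F) → F)
    (hf₁ : IsSymmetricForm f₁) (hf₂ : IsSymmetricForm f₂)
    (hT : IsTensorFormStructure id (QuadraticMap.polar Q) f₁ f₂ e P)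
    (hle : H ≤ tensorProductSubgroup 2 5 e P) : Goal10 Q H := by
  classical
  by_cases haniso : ∀ s : Fin 2 → F, f₁ s s = 0 → s = 0
  · obtain ⟨K, hK, hsim⟩ := Cfsg.Agent.Helper67.o10_tensor_two_sim h2 Q hQ (by norm_num) e P f₁ f₂
      hf₁ hf₂ hT haniso
    exact absurd hplus (Cfsg.Agent.Helper67.o10_unitary_not_plus Q hQ (m := 5) (by decide)
      (by rw [card10]) K hK hsim)
  · push Not at haniso
    obtain ⟨s, hs, hs0⟩ := haniso
    obtain ⟨D, hD, hts, hDle⟩ := Cfsg.Agent.Helper74.o12p_tensor_two_iso h2 Q hQ (by norm_num) e P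
      f₁ f₂ hf₁ hf₂ hT s hs0 hs
    exact pair_case hQ hplus hH D hD hts (fun h hh => hDle ⟨le_iso hH hh, hle hh⟩)

include hQ hplus hH in
/-- The tensor case. -/
theorem tensor_case (h2 : (2 : F) ≠ 0) {n₁ n₂ : ℕ}
    (e : Fin 10 ≃ Fin n₁ × Fin n₂) (P : GL (Fin 10) F)
    (f₁ : (Fin n₁ → F) → (Fin n₁ → F) → F) (f₂ : (Fin n₂ → F) → (Fin n₂ → F) → F)
    (h1 : 2 ≤ n₁) (h2' : 2 ≤ n₂)
    (hf₁ : IsSymmetricForm f₁) (hf₂ : IsSymmetricForm f₂)
    (hT : IsTensorFormStructure id (QuadraticMap.polar Q) f₁ f₂ e P)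
    (hle : H ≤ tensorProductSubgroup n₁ n₂ e P) : Goal10 Q H := by
  classical
  have hcard : n₁ * n₂ = 10 := by
    have := Fintype.card_congr e
    simpa using this.symm
  have hn10 : n₁ ≤ 10 := Nat.le_of_dvd (by norm_num) ⟨n₂, hcard.symm⟩
  have hcases : (n₁ = 2 ∧ n₂ = 5) ∨ (n₁ = 5 ∧ n₂ = 2) := by
    interval_cases n₁ <;> omega
  obtain ⟨hT', heq⟩ := Cfsg.Agent.Helper20.o12_tensor_swap (QuadraticMap.polar Q) e P f₁ f₂ hT
  rcases hcases with ⟨rfl, rfl⟩ | ⟨rfl, rfl⟩
  · exact tensor25_case hQ hplus hH h2 e P f₁ f₂ hf₁ hf₂ hT hle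
  · exact tensor25_case hQ hplus hH h2 _ P f₂ f₁ hf₂ hf₁ hT' (heq ▸ hle)

/-- The tensor branch of the structure analysis in dimension ten: only `sym ⊗ sym` survives. -/
theorem o10_tensor (Q : (Fin 10 → F) → F)
    (hQ : IsNondegenerateQuadraticForm Q) (H N : Subgroup (GL (Fin 10) F))
    (hH : ∀ h ∈ H, ∀ x, Q ((h : Matrix (Fin 10) (Fin 10) F) *ᵥ x) = Q x)
    (hirr : ActsIrreducibly (matrixSet H)) (hNH : N ≤ H)
    (hNn : ∀ h ∈ H, ∀ x ∈ N, h * x * h⁻¹ ∈ N) {d k : ℕ} {e : Fin 10 ≃ Fin d × Fin k}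
    {P : GL (Fin 10) F} {ρ : Matrix (Fin 10) (Fin 10) F → Matrix (Fin d) (Fin d) F}
    (hTD : TensorData N d k e P ρ) (hd : 2 ≤ d) (hk : 2 ≤ k) :
    (2 : F) ≠ 0 ∧ ∃ (n₁ n₂ : ℕ) (e : Fin 10 ≃ Fin n₁ × Fin n₂) (P : GL (Fin 10) F)
      (f₁ : (Fin n₁ → F) → (Fin n₁ → F) → F) (f₂ : (Fin n₂ → F) → (Fin n₂ → F) → F),
      2 ≤ n₁ ∧ 2 ≤ n₂ ∧ IsSymmetricForm f₁ ∧ IsSymmetricForm f₂ ∧
      IsTensorFormStructure id (QuadraticMap.polar Q) f₁ f₂ e P ∧
      H ≤ tensorProductSubgroup n₁ n₂ e P := by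
  classical
  have hH' := le_isoSub H hH
  have hfour : ∀ {n₁ n₂ : ℕ} (e' : Fin 10 ≃ Fin n₁ × Fin n₂)
      (f₁ : (Fin n₁ → F) → (Fin n₁ → F) → F) (f₂ : (Fin n₂ → F) → (Fin n₂ → F) → F),
      IsSymplecticForm f₁ → IsSymplecticForm f₂ → False := by
    intro n₁ n₂ e' f₁ f₂ hf₁ hf₂
    obtain ⟨U₁, -, hdim₁⟩ := Cfsg.Agent.Helper76.o12_lagrangian f₁ hf₁
    obtain ⟨U₂, -, hdim₂⟩ := Cfsg.Agent.Helper76.o12_lagrangian f₂ hf₂
    have hcard : n₁ * n₂ = 10 := by
      have := Fintype.card_congr e'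
      simpa using this.symm
    obtain ⟨a, ha⟩ : ∃ a, Module.finrank F U₁ = a := ⟨_, rfl⟩
    obtain ⟨b, hb⟩ : ∃ b, Module.finrank F U₂ = b := ⟨_, rfl⟩
    rw [ha] at hdim₁
    rw [hb] at hdim₂
    have h4 : (4 : ℕ) ∣ 10 := by
      refine ⟨a * b, ?_⟩
      rw [← hcard, ← hdim₁, ← hdim₂]
      ring
    exact absurd h4 (by decide)
  by_cases h2 : (2 : F) = 0
  · exfalso
    have hf := polar_symplectic h2 hQ
    rcases Sy.tensor_cases hf H N hH' hirr hNH hNn hTD hd hk with
      ⟨h2', -⟩ | ⟨-, n₁, n₂, e', P', f₁, f₂, hf₁, hf₂, hT, hle⟩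
    · exact absurd h2 h2'
    · exact hfour e' f₁ f₂ hf₁ hf₂
  · have hf := polar_symmetric hQ
    have hle : H ≤ tensorProductSubgroup d k e P := by
      intro h hh
      refine hTD.normalizer_mem h (hNn h hh) ?_
      have := hNn h⁻¹ (H.inv_mem hh)
      simpa using this
    obtain ⟨B₁, C, hG, hB₁det, hCdet, hsym, hB₁fix⟩ :=
      Helper94.OA.tensor_gram hf hTD (hNH.trans hH')
    have hT := Helper94.OA.tensor_form_structure hf e P B₁ C hG
    rcases hsym with ⟨hB, hC⟩ | ⟨hB, hC⟩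
    · exact ⟨h2, d, k, e, P, bf B₁, bf C, hd, hk, Sy.bf_symmetric B₁ hB₁det hB,
        Sy.bf_symmetric C hCdet hC, hT, hle⟩
    · exfalso
      exact hfour e (bf B₁) (bf C) (Sy.bf_symplectic_odd h2 B₁ hB₁det hB)
        (Sy.bf_symplectic_odd h2 C hCdet hC)

include hQ hplus hH in
/-- The maximal subgroups of `Ω_10^+(q)`. -/
theorem row10 : Goal10 Q H := by
  classical
  have hHi := h_iso hH
  have hnz : NeZero (10 : ℕ) := ⟨by norm_num⟩
  have hZc : ∀ z ∈ scalars (Fin 10) F, ∀ g : GL (Fin 10) F, z * g = g * z :=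
    fun z hz g => Helper97.scalars_comm hz g
  by_cases hirr : ActsIrreducibly (matrixSet H)
  swap
  · rcases Cfsg.Agent.Helper66.o12_reducible Q hQ H hHi hirr with
      ⟨W, hW0, hts, hle⟩ | ⟨h2, v, hv, hle⟩ |
      ⟨W, W', hW0, hW'0, hnd, hnd', horth, hinf, hsup, hle, hle'⟩
    · exact ts_case hQ hplus hH W hW0 hts hle
    · exact Or.inr (Or.inr (Or.inr (Or.inr (Or.inr (Or.inl
        ⟨not_odd_of_two_eq_zero h2, v, hv, key hH hle
          (Cfsg.Agent.Helper76.o12_notOmega_subspace Q hQ (by rw [card10]; norm_num) _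
            (span_ne_bot hv hQ) (span_ne_top_gen (by norm_num) v))⟩)))))
    · have hsum : Module.finrank F W + Module.finrank F W' = 10 := by
        have := Submodule.finrank_sup_add_finrank_inf_eq W W'
        rw [hsup, hinf, finrank_bot, finrank_top10] at this
        omega
      have hW1 : W ≠ ⊤ := by
        rintro rfl
        rw [top_inf_eq] at hinf
        exact hW'0 hinf
      have hW'1 : W' ≠ ⊤ := by
        rintro rfl
        rw [inf_top_eq] at hinf
        exact hW0 hinf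
      by_cases h5 : Module.finrank F W = 5
      · have h5' : Module.finrank F W' = 5 := by omega
        have hD : IsNondegenerateMDecomposition (QuadraticMap.polar Q) 5 (Sy.pairD W W') := by
          refine ⟨Sy.pair_decomp W W' hinf hsup 5 h5 h5' (by norm_num), ?_, ?_⟩
          · intro i
            rcases Sy.fin2_cases i with rfl | rfl
            · exact hnd
            · exact hnd'
          · intro i j hij
            rcases Sy.fin2_cases i with rfl | rfl <;> rcases Sy.fin2_cases j with rfl | rfl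
            · exact absurd rfl hij
            · exact horth
            · intro u hu v hv
              rw [QuadraticMap.polar_comm]
              exact horth v hv u hu
            · exact absurd rfl hij
        refine two_five_case hQ hplus hH (Sy.pairD W W') hD (fun h hh => ?_)
        have hW := (Helper94.mem_subspaceStabilizer_iff W h).mp (hle hh)
        have hW' := (Helper94.mem_subspaceStabilizer_iff W' h).mp (hle' hh)
        exact Sy.pair_stab_fix W W' 5 h5 h5' h (fun x hx => (hW x).mp hx) (fun x hx => (hW' x).mp hx)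
      · by_cases h4 : Module.finrank F W ≤ 4
        · exact sub_case hQ hplus hH W hW0 hW1 hnd hle h4
        · exact sub_case hQ hplus hH W' hW'0 hW'1 hnd' hle' (by omega)
  have hHZ : ¬ H ≤ scalars (Fin 10) F := Helper97.not_le_scalars_of_irreducible (by norm_num) H hirr
  obtain ⟨N, hNH, hNn, hNZ, hNmin⟩ := Helper97.exists_minimal_normal (scalars (Fin 10) F) H hHZ
  rcases Cfsg.Agent.Helper94.O10.o10_field_cases Q hQ H N hHi hirr hNH hNn hNZ hNmin with
    ⟨t, k, D, hD, hle⟩ | ⟨k, D, hD, hts, hle⟩ | ⟨h2, K, hK, hsa, hle⟩ | ⟨K, hK, -, -, hsim, -⟩ | hsc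
  · exact decomp_case hQ hplus hH hirr D hD hle
  · exact pair_case hQ hplus hH D hD hts hle
  · exact Or.inr (Or.inr (Or.inr (Or.inr (Or.inr (Or.inr (Or.inr (Or.inr (Or.inr (Or.inr (Or.inl
      ⟨odd_of_two_ne_zero h2, K, hK, hsa, key hH hle
        (Cfsg.Agent.Helper66.o12_notOmega_field Q hQ (by norm_num) (by rw [card10]; norm_num)
          K hK)⟩))))))))))
  · exact absurd hplus (Cfsg.Agent.Helper67.o10_unitary_not_plus Q hQ (m := 5) (by decide)
      (by rw [card10]) K hK hsim)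
  obtain ⟨d, k, e, P, ρ, hTD⟩ := tensorData_of_zcent_scalar (by norm_num) H N hirr hNn hsc
  by_cases hd1 : d = 1
  · exact absurd (hTD.le_scalars_of_one hd1) hNZ
  have hd2 : 2 ≤ d := by have := hTD.hd; omega
  by_cases hk1 : k = 1
  swap
  · have hk2 : 2 ≤ k := by have := hTD.hk; omega
    obtain ⟨h2, n₁, n₂, e', P', f₁, f₂, h1, h2', hf₁, hf₂, hT, hle⟩ :=
      o10_tensor Q hQ H N hHi hirr hNH hNn hTD hd2 hk2
    exact tensor_case hQ hplus hH h2 e' P' f₁ f₂ h1 h2' hf₁ hf₂ hT hle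
  -- `N` is absolutely irreducible
  have habs : ActsAbsolutelyIrreducibly (matrixSet N) := hTD.absIrred_of_one hk1
  have hCN : ⁅N, N⁆ ≤ N := by
    rw [Subgroup.commutator_le]
    intro a ha b hb
    rw [commutatorElement_def]
    exact N.mul_mem (N.mul_mem (N.mul_mem ha hb) (N.inv_mem ha)) (N.inv_mem hb)
  rcases hNmin ⁅N, N⁆ hCN (Helper97.commutator_normalized H N hNn) with hC | hC
  · -- class two modulo scalars: impossible, `100` is not a prime power
    exfalso
    have hab : ∀ a ∈ N, ∀ b ∈ N, a * b * a⁻¹ * b⁻¹ ∈ scalars (Fin 10) F := by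
      intro a ha b hb
      have := Subgroup.commutator_mem_commutator ha hb
      rw [commutatorElement_def] at this
      exact hC this
    obtain ⟨r, hr, hpow⟩ := Helper97.exists_prime_pow_mem (scalars (Fin 10) F) H N hZc hNn hNZ hNmin hab
    obtain ⟨j, hrj⟩ := sq_eq_prime_pow_of_class_two N habs hab r hr hpow
    have h2 : 2 ∣ r ^ j := ⟨50, by rw [← hrj]⟩
    have h5 : 5 ∣ r ^ j := ⟨20, by rw [← hrj]⟩
    have h2' := (Nat.prime_dvd_prime_iff_eq Nat.prime_two hr).mp (Nat.Prime.dvd_of_dvd_pow Nat.prime_two h2)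
    have h5' := (Nat.prime_dvd_prime_iff_eq Nat.prime_five hr).mp (Nat.Prime.dvd_of_dvd_pow Nat.prime_five h5)
    omega
  -- perfect
  have hperf : ⁅N, N⁆ = N := hC
  have hirrN : ActsIrreducibly (matrixSet N) := habs.1
  have hcentN : ∀ c : GL (Fin 10) F, (∀ s ∈ N, c * s = s * c) → c ∈ scalars (Fin 10) F := by
    intro c hc
    obtain ⟨a, ha⟩ := habs.2 (c : Matrix (Fin 10) (Fin 10) F) (by
      rintro _ ⟨s, hs, rfl⟩
      rw [← Units.val_mul, ← Units.val_mul, hc s hs])
    exact (Helper97.scalar_mem_scalars_iff c).mpr ⟨a, ha⟩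
  rcases perfect_structure (scalars (Fin 10) F) H N hZc hNn hNZ hNmin hperf with
    hsimple | ⟨S, hSN, hSn, hSZ, hSperf, hne, hcomm, hgen⟩
  swap
  · -- central product of conjugates: impossible, `10` is not a proper power
    exfalso
    have hsc' : ∀ M, ZCent (matrixSet S) M → ∃ c : F, M = c • (1 : Matrix (Fin 10) (Fin 10) F) := by
      intro M hM
      apply habs.2
      have hyc : ∀ h ∈ H, ∀ y ∈ Helper97.cj h S,
          M * (y : Matrix (Fin 10) (Fin 10) F) = (y : Matrix (Fin 10) (Fin 10) F) * M := by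
        intro h hh y hy'
        rcases hcomm h hh with h1 | h1
        · rw [h1] at hy'
          exact hM.1 _ (Helper97.coe_mem_matrixSet hy')
        · apply hM.2
          rintro _ ⟨s', hs', rfl⟩
          rw [← Units.val_mul, ← Units.val_mul, h1 s' hs' y hy']
      have key' : ∀ x ∈ Subgroup.closure {x | ∃ h ∈ H, x ∈ Helper97.cj h S},
          M * (x : Matrix (Fin 10) (Fin 10) F) = (x : Matrix (Fin 10) (Fin 10) F) * M ∧
          M * ((x⁻¹ : GL (Fin 10) F) : Matrix (Fin 10) (Fin 10) F) =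
            ((x⁻¹ : GL (Fin 10) F) : Matrix (Fin 10) (Fin 10) F) * M := by
        intro x hx
        induction hx using Subgroup.closure_induction with
        | mem y hy =>
          obtain ⟨h, hh, hy'⟩ := hy
          exact ⟨hyc h hh y hy', hyc h hh y⁻¹ (Subgroup.inv_mem _ hy')⟩
        | one =>
          rw [inv_one, Units.val_one, mul_one, one_mul]
          exact ⟨rfl, rfl⟩
        | mul y z _ _ hy hz =>
          rw [_root_.mul_inv_rev, Units.val_mul, Units.val_mul]
          constructor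
          · rw [← mul_assoc, hy.1, mul_assoc, hz.1, ← mul_assoc]
          · rw [← mul_assoc, hz.2, mul_assoc, hy.2, ← mul_assoc]
        | inv y _ hy =>
          rw [inv_inv]
          exact ⟨hy.2, hy.1⟩
      rintro _ ⟨x, hx, rfl⟩
      exact (key' x (by rw [hgen]; exact hx)).1
    obtain ⟨d', k', e', P', ρ', hTD'⟩ := tensorData_of_zcent_scalar (by norm_num) N S hirrN hSn hsc'
    have hd'2 : 2 ≤ d' := by
      have h1 := hTD'.hd
      have h2 : d' ≠ 1 := fun h => hSZ (hTD'.le_scalars_of_one h)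
      omega
    obtain ⟨t, ht, hnt⟩ := eq_pow_of_central_product H N S hTD' habs hne hcomm hgen
    have h1 : d' ^ 2 ≤ d' ^ t := Nat.pow_le_pow_right (by omega) ht
    have hd3 : d' ≤ 3 := by
      by_contra hcon
      have : 4 ^ 2 ≤ d' ^ 2 := Nat.pow_le_pow_left (by omega) 2
      omega
    have ht4 : t < 4 := by
      by_contra hcon
      have h4 : 2 ^ 4 ≤ d' ^ t :=
        (Nat.pow_le_pow_left hd'2 4).trans (Nat.pow_le_pow_right (by omega) (by omega))
      omega
    interval_cases d' <;> interval_cases t <;> omega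
  -- simple modulo scalars
  have hne0 : Nonempty (Fin 10) := ⟨⟨0, by norm_num⟩⟩
  by_cases hsub : ∃ F₀ : Subfield F, F₀ ≠ ⊤ ∧ RealisableOver F₀ (matrixSet N)
  · obtain ⟨F₀, hF₀, B, hB⟩ := hsub
    obtain ⟨F₁, r, hle, hr, hcard⟩ := Helper97.Gen.exists_prime_index_subfield F₀ hF₀
    obtain ⟨P', ζ, hζ, hnorm, hrat⟩ := Cfsg.Agent.Helper88.o12_subfield_quad Q hQ
      (by rw [Fintype.card_fin]; norm_num) F₁ N (fun g hg x => hHi g (hNH hg) x) habs B
      (fun s hs i j => hle (hB s hs i j))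
    exact subfield_case hQ hH F₁ r P' ζ hr hcard hζ hrat (fun h hh => hnorm h (hNn h hh))
  have hcore : IsResidualCore H N :=
    { le := hNH
      normal := hNn
      perfect := hperf
      simple := Helper97.isSimpleGroup_quot (scalars (Fin 10) F) N hNZ hsimple
      nonabelian := Helper97.not_commutative_quot (scalars (Fin 10) F) N hNZ hperf
      centralizer_scalar := fun h _ hh =>
        Helper97.mem_of_centralizes_mod (scalars (Fin 10) F) N hZc hperf hcentN h hh
      absIrred := habs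
      no_subfield := fun F₀ hF₀ hreal => hsub ⟨F₀, hF₀, hreal⟩ }
  refine Or.inr (Or.inr (Or.inr (Or.inr (Or.inr (Or.inr (Or.inr (Or.inr (Or.inr (Or.inr (Or.inr
    (Or.inr ⟨N, hcore, ?_⟩)))))))))))
  rintro ⟨σ, f', hf', hfix⟩
  have hsq := Helper97.Gen.isSesq_of_bilinear hQ.polar_bilinear
  have hdet : (Helper97.Gen.gram (QuadraticMap.polar Q)).det ≠ 0 :=
    hsq.det_gram_ne_zero (fun v hv => (hQ.nondegenerate v hv).1)
  have hgram : ∀ g ∈ N, (g : Matrix (Fin 10) (Fin 10) F)ᵀ * Helper97.Gen.gram (QuadraticMap.polar Q)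
      * (g : Matrix (Fin 10) (Fin 10) F) = Helper97.Gen.gram (QuadraticMap.polar Q) := by
    intro g hg
    have h1 := hsq.gram_of_similar (g : Matrix (Fin 10) (Fin 10) F) 1 (fun u v => by
      rw [one_mul]
      exact polar_fix (hHi g (hNH hg)) u v)
    rwa [one_smul, Sy.map_refl'] at h1
  obtain ⟨F₀, hF₀, hreal⟩ := Sy.realisable_of_fixes_unitary_gram
    (Helper97.Gen.gram (QuadraticMap.polar Q)) hdet N hgram habs σ f' hf' hfix
  exact hsub ⟨F₀, hF₀, hreal⟩

end

end Cfsg.Agent.Helper30.O10
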