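import Mathlib

/-!
# helper30: roots of quadratics over a subfield of index two (for CALL S5874, piece T5)
-/

set_option autoImplicit false

namespace Cfsg.Agent.Helper30

open Polynomial

/-- Over a finite field `F` with `|F| = |F₀|^2`, every polynomial `t^2 + t + ζ` with `ζ ∈ F₀` has a
root in `F`. -/
theorem ot5_exists_root {F : Type*} [Field F] [Fintype F] (F₀ : Subfield F)
    (hcard : Fintype.card F = Nat.card F₀ ^ 2) (ζ : F₀) :
    ∃ t : F, t ^ 2 + t + (ζ : F) = 0 := by
  classical
  by_cases hroot : ∃ s : F₀, s ^ 2 + s + ζ = 0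
  · obtain ⟨s, hs⟩ := hroot
    refine ⟨(s : F), ?_⟩
    have := congrArg (fun x : F₀ => (x : F)) hs
    simpa using this
  push Not at hroot
  set f : F₀[X] := X ^ 2 + X + C ζ with hf
  have hdeg : f.natDegree = 2 := by
    rw [hf]
    compute_degree!
  have hirr : Irreducible f := by
    apply irreducible_of_degree_le_three_of_not_isRoot
    · rw [hdeg]; simp
    · intro s hs
      apply hroot s
      simpa [hf, IsRoot] using hs
  have hdvd : f ∣ X ^ (Nat.card F₀) ^ 2 - X :=
    (hirr.natDegree_dvd_iff_dvd_X_pow_card_pow_sub_X (n := 2)).mp (by rw [hdeg])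
  have hdvd' : f.map (algebraMap F₀ F) ∣ (X ^ Fintype.card F - X : F[X]) := by
    have := Polynomial.map_dvd (algebraMap F₀ F) hdvd
    simpa [hcard] using this
  have hg0 : (X ^ Fintype.card F - X : F[X]) ≠ 0 :=
    FiniteField.X_pow_card_sub_X_ne_zero F Fintype.one_lt_card
  have hsplit : Splits (X ^ Fintype.card F - X : F[X]) := by
    rw [splits_iff_card_roots, FiniteField.roots_X_pow_card_sub_X,
      FiniteField.X_pow_card_sub_X_natDegree_eq F Fintype.one_lt_card]
    simp
  have hsf : Splits (f.map (algebraMap F₀ F)) := hsplit.of_dvd hg0 hdvd'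
  have hdegf : (f.map (algebraMap F₀ F)).degree ≠ 0 := by
    rw [degree_map, degree_eq_natDegree hirr.ne_zero, hdeg]
    norm_num
  obtain ⟨t, ht⟩ := hsf.exists_eval_eq_zero hdegf
  refine ⟨t, ?_⟩
  have : eval t (f.map (algebraMap F₀ F)) = t ^ 2 + t + (ζ : F) := by
    simp [hf]
    rfl
  rw [← this, ht]

end Cfsg.Agent.Helper30
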