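import Cfsg.Agent.Helper30.TISetting
import Cfsg.Agent.Helper30.FieldOfJordan

/-!
# Quadratic pairs: two elementary abelian groups `V`, `A` and groups `P`, `P_A` of "root
elements" acting on `W = V × A`; the resulting field.
-/

set_option autoImplicit false
set_option linter.unusedSimpArgs false
set_option linter.unnecessarySimpa false
set_option linter.unusedVariables false
set_option linter.style.haveILetI false
set_option linter.unusedSectionVars false

namespace Cfsg.Agent.Helper30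

open Subgroup
open scoped IsMulCommutative

variable {G : Type*} [Group G]

/-- The hypotheses on `V`, `A` and the two groups `P`, `PA` acting on `V × A`. -/
structure QPair (V A P PA : Subgroup G) : Prop where
  Vcomm : ∀ u ∈ V, ∀ v ∈ V, u * v = v * u
  Vsq : ∀ v ∈ V, v * v = 1
  VA : ∀ v ∈ V, ∀ a ∈ A, v * a = a * v
  inf : V ⊓ A = ⊥
  Vne : V ≠ ⊥
  Ane : A ≠ ⊥
  PV : ∀ p ∈ P, ∀ v ∈ V, p * v = v * p
  PAcm : ∀ p ∈ P, ∀ a ∈ A, cm p a ∈ V
  QA : ∀ q ∈ PA, ∀ a ∈ A, q * a = a * q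
  QVcm : ∀ q ∈ PA, ∀ v ∈ V, cm q v ∈ A
  reg : ∀ a ∈ A, a ≠ 1 → ∀ v ∈ V, ∃ p ∈ P, cm p a = v
  T1 : ∀ p ∈ P, (∃ a ∈ A, cm p a ≠ 1) → ∃ q ∈ PA, cj p A = cj q V
  T2 : ∀ q ∈ PA, (∃ v ∈ V, cm q v ≠ 1) → ∃ p ∈ P, cj q V = cj p A

namespace QPair

variable {V A P PA : Subgroup G}

theorem cm_mul_right (hq : QPair V A P PA) {p a b : G} (hp : p ∈ P) (ha : a ∈ A) (hb : b ∈ A) :
    cm p (a * b) = cm p a * cm p b := by
  have h1 : cm p b * a = a * cm p b := hq.VA _ (hq.PAcm p hp b hb) a ha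
  have e : cm p (a * b) * (a * b) = cm p a * cm p b * (a * b) := by
    calc cm p (a * b) * (a * b) = (p * a * p⁻¹) * (p * b * p⁻¹) := by unfold cm; group
      _ = (cm p a * a) * (cm p b * b) := by rw [conj_eq_cm_mul, conj_eq_cm_mul]
      _ = cm p a * (a * cm p b) * b := by group
      _ = cm p a * (cm p b * a) * b := by rw [h1]
      _ = cm p a * cm p b * (a * b) := by group
  exact mul_right_cancel e

theorem cm_mul_left (hq : QPair V A P PA) {p p' a : G} (hp : p ∈ P) (hp' : p' ∈ P)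
    (ha : a ∈ A) : cm (p * p') a = cm p a * cm p' a := by
  have hv' := hq.PAcm p' hp' a ha
  have h1 : p * cm p' a = cm p' a * p := hq.PV p hp _ hv'
  have e : cm (p * p') a * a = cm p a * cm p' a * a := by
    calc cm (p * p') a * a = p * (p' * a * p'⁻¹) * p⁻¹ := by unfold cm; group
      _ = p * (cm p' a * a) * p⁻¹ := by rw [conj_eq_cm_mul p' a]
      _ = (p * cm p' a) * a * p⁻¹ := by group
      _ = (cm p' a * p) * a * p⁻¹ := by rw [h1]
      _ = cm p' a * (p * a * p⁻¹) := by group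
      _ = cm p' a * (cm p a * a) := by rw [conj_eq_cm_mul p a]
      _ = cm p' a * cm p a * a := by group
      _ = cm p a * cm p' a * a := by rw [hq.Vcomm _ hv' _ (hq.PAcm p hp a ha)]
  exact mul_right_cancel e

theorem cmq_mul_right (hq : QPair V A P PA) {q v u : G} (hq' : q ∈ PA) (hv : v ∈ V)
    (hu : u ∈ V) : cm q (v * u) = cm q v * cm q u := by
  have h1 : v * cm q u = cm q u * v := hq.VA v hv _ (hq.QVcm q hq' u hu)
  have e : cm q (v * u) * (v * u) = cm q v * cm q u * (v * u) := by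
    calc cm q (v * u) * (v * u) = (q * v * q⁻¹) * (q * u * q⁻¹) := by unfold cm; group
      _ = (cm q v * v) * (cm q u * u) := by rw [conj_eq_cm_mul, conj_eq_cm_mul]
      _ = cm q v * (v * cm q u) * u := by group
      _ = cm q v * (cm q u * v) * u := by rw [h1]
      _ = cm q v * cm q u * (v * u) := by group
  exact mul_right_cancel e

theorem cmq_mul_left (hq : QPair V A P PA) {q q' v : G} (hq1 : q ∈ PA) (hq2 : q' ∈ PA)
    (hv : v ∈ V) : cm (q * q') v = cm q' v * cm q v := by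
  have h1 : q * cm q' v = cm q' v * q := hq.QA q hq1 _ (hq.QVcm q' hq2 v hv)
  have e : cm (q * q') v * v = cm q' v * cm q v * v := by
    calc cm (q * q') v * v = q * (q' * v * q'⁻¹) * q⁻¹ := by unfold cm; group
      _ = q * (cm q' v * v) * q⁻¹ := by rw [conj_eq_cm_mul q' v]
      _ = (q * cm q' v) * v * q⁻¹ := by group
      _ = (cm q' v * q) * v * q⁻¹ := by rw [h1]
      _ = cm q' v * (q * v * q⁻¹) := by group
      _ = cm q' v * (cm q v * v) := by rw [conj_eq_cm_mul q v]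
      _ = cm q' v * cm q v * v := by group
  exact mul_right_cancel e

theorem decomp (hq : QPair V A P PA) {v a v' a' : G} (hv : v ∈ V) (ha : a ∈ A) (hv' : v' ∈ V)
    (ha' : a' ∈ A) (h : v * a = v' * a') : v = v' ∧ a = a' := by
  have e : v'⁻¹ * v = a' * a⁻¹ := by
    calc v'⁻¹ * v = v'⁻¹ * (v * a) * a⁻¹ := by group
      _ = v'⁻¹ * (v' * a') * a⁻¹ := by rw [h]
      _ = a' * a⁻¹ := by group
  have h1 : v'⁻¹ * v ∈ V ⊓ A :=
    Subgroup.mem_inf.mpr ⟨V.mul_mem (V.inv_mem hv') hv, by rw [e]; exact A.mul_mem ha' (A.inv_mem ha)⟩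
  rw [hq.inf, mem_bot] at h1
  have h2 : v = v' := by
    calc v = v' * (v'⁻¹ * v) := by group
      _ = v' := by rw [h1, mul_one]
  refine ⟨h2, ?_⟩
  rw [h2] at h
  exact mul_left_cancel h

/-- If `A^p = V^q` then `λ_q ∘ κ_p = id` on `A`. -/
theorem lam_kap (hq : QPair V A P PA) {p q : G} (hp : p ∈ P) (hq' : q ∈ PA)
    (heq : cj p A = cj q V) {a : G} (ha : a ∈ A) : cm q (cm p a) = a := by
  have h1 : p * a * p⁻¹ ∈ cj q V := by rw [← heq]; exact conj_mem_cj ha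
  obtain ⟨v, hvdef⟩ : ∃ v, v = q⁻¹ * (p * a * p⁻¹) * q := ⟨_, rfl⟩
  have hv : v ∈ V := by rw [hvdef]; exact mem_cj.mp h1
  have e1 : p * a * p⁻¹ = q * v * q⁻¹ := by rw [hvdef]; group
  rw [conj_eq_cm_mul p a, conj_eq_cm_mul q v] at e1
  have hc := hq.QVcm q hq' _ hv
  have e2 : cm p a * a = v * cm q v := by
    rw [hq.VA _ hv _ hc]; exact e1
  obtain ⟨h3, h4⟩ := hq.decomp (hq.PAcm p hp a ha) ha hv hc e2
  rw [h3, ← h4]

/-- If `V^q = A^p` then `κ_p ∘ λ_q = id` on `V`. -/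
theorem kap_lam (hq : QPair V A P PA) {p q : G} (hp : p ∈ P) (hq' : q ∈ PA)
    (heq : cj q V = cj p A) {v : G} (hv : v ∈ V) : cm p (cm q v) = v := by
  have h1 : q * v * q⁻¹ ∈ cj p A := by rw [← heq]; exact conj_mem_cj hv
  obtain ⟨a, hadef⟩ : ∃ a, a = p⁻¹ * (q * v * q⁻¹) * p := ⟨_, rfl⟩
  have ha : a ∈ A := by rw [hadef]; exact mem_cj.mp h1
  have e1 : q * v * q⁻¹ = p * a * p⁻¹ := by rw [hadef]; group
  rw [conj_eq_cm_mul q v, conj_eq_cm_mul p a] at e1
  have hc := hq.QVcm q hq' v hv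
  have e2 : v * cm q v = cm p a * a := by
    rw [hq.VA v hv _ hc]; exact e1
  obtain ⟨h3, h4⟩ := hq.decomp hv hc (hq.PAcm p hp _ ha) ha e2
  rw [h4, ← h3]

/-- `κ_p : A → V`. -/
def kap (hq : QPair V A P PA) (p : G) (hp : p ∈ P) : ↥A →* ↥V where
  toFun a := ⟨cm p a, hq.PAcm p hp a a.2⟩
  map_one' := Subtype.ext (cm_one_right p)
  map_mul' a b := Subtype.ext (hq.cm_mul_right hp a.2 b.2)

/-- `λ_q : V → A`. -/
def lam (hq : QPair V A P PA) (q : G) (hq' : q ∈ PA) : ↥V →* ↥A where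
  toFun v := ⟨cm q v, hq.QVcm q hq' v v.2⟩
  map_one' := Subtype.ext (cm_one_right q)
  map_mul' a b := Subtype.ext (hq.cmq_mul_right hq' a.2 b.2)

end QPair

/-- A quadratic pair with a chosen pair of mutually inverse root elements. -/
structure QFrame (V A P PA : Subgroup G) (p1 q1 : G) : Prop extends QPair V A P PA where
  hp1 : p1 ∈ P
  hq1 : q1 ∈ PA
  K1 : ∀ v ∈ V, cm p1 (cm q1 v) = v
  K2 : ∀ a ∈ A, cm q1 (cm p1 a) = a

theorem QPair.exists_frame {V A P PA : Subgroup G} (hq : QPair V A P PA) :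
    ∃ p1 q1 : G, QFrame V A P PA p1 q1 := by
  obtain ⟨⟨v0, hv0⟩, hv01⟩ := (Subgroup.ne_bot_iff_exists_ne_one).mp hq.Vne
  obtain ⟨⟨a0, ha0⟩, ha01⟩ := (Subgroup.ne_bot_iff_exists_ne_one).mp hq.Ane
  have ha01' : a0 ≠ 1 := fun h => ha01 (Subtype.ext h)
  have hv01' : v0 ≠ 1 := fun h => hv01 (Subtype.ext h)
  obtain ⟨p1, hp1, hp1a⟩ := hq.reg a0 ha0 ha01' v0 hv0
  obtain ⟨q1, hq1, heq1⟩ := hq.T1 p1 hp1 ⟨a0, ha0, by rw [hp1a]; exact hv01'⟩
  exact ⟨p1, q1, ⟨hq, hp1, hq1, fun v hv => hq.kap_lam hp1 hq1 heq1.symm hv,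
    fun a ha => hq.lam_kap hp1 hq1 heq1 ha⟩⟩

namespace QFrame

variable {V A P PA : Subgroup G} {p1 q1 : G} [IsMulCommutative ↥V]

/-- The endomorphism `κ_p ∘ λ_{q1}` of `V`. -/
def sOf (f : QFrame V A P PA p1 q1) (p : G) (hp : p ∈ P) : AddMonoid.End (Additive ↥V) :=
  MonoidHom.toAdditive ((f.toQPair.kap p hp).comp (f.toQPair.lam q1 f.hq1))

/-- The endomorphism `κ_{p1} ∘ λ_q` of `V`. -/
def tOf (f : QFrame V A P PA p1 q1) (q : G) (hq : q ∈ PA) : AddMonoid.End (Additive ↥V) :=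
  MonoidHom.toAdditive ((f.toQPair.kap p1 f.hp1).comp (f.toQPair.lam q hq))

theorem sOf_apply (f : QFrame V A P PA p1 q1) (p : G) (hp : p ∈ P) (x : Additive ↥V) :
    (((sOf f p hp x).toMul : ↥V) : G) = cm p (cm q1 ((x.toMul : ↥V) : G)) := rfl

theorem tOf_apply (f : QFrame V A P PA p1 q1) (q : G) (hq : q ∈ PA) (x : Additive ↥V) :
    (((tOf f q hq x).toMul : ↥V) : G) = cm p1 (cm q ((x.toMul : ↥V) : G)) := rfl

theorem end_ext {s t : AddMonoid.End (Additive ↥V)}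
    (h : ∀ x : Additive ↥V, (((s x).toMul : ↥V) : G) = (((t x).toMul : ↥V) : G)) : s = t := by
  apply AddMonoidHom.ext
  intro x
  apply Additive.toMul.injective
  exact Subtype.ext (h x)

theorem add_apply_val (s t : AddMonoid.End (Additive ↥V)) (x : Additive ↥V) :
    ((((s + t) x).toMul : ↥V) : G) = (((s x).toMul : ↥V) : G) * (((t x).toMul : ↥V) : G) := rfl

theorem mul_apply' (s t : AddMonoid.End (Additive ↥V)) (x : Additive ↥V) :
    (s * t) x = s (t x) := rfl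

theorem toMul_mem (x : Additive ↥V) : ((x.toMul : ↥V) : G) ∈ V := (x.toMul : ↥V).2

theorem add_self_End (f : QFrame V A P PA p1 q1) (x : Additive ↥V) : x + x = 0 := by
  apply Additive.toMul.injective
  apply Subtype.ext
  exact f.Vsq _ (toMul_mem x)

theorem sOf_mul (f : QFrame V A P PA p1 q1) {p p' : G} (hp : p ∈ P) (hp' : p' ∈ P) :
    sOf f (p * p') (mul_mem hp hp') = sOf f p hp + sOf f p' hp' := by
  apply end_ext
  intro x
  rw [add_apply_val, sOf_apply, sOf_apply, sOf_apply]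
  exact f.toQPair.cm_mul_left hp hp' (f.QVcm q1 f.hq1 _ (toMul_mem x))

theorem tOf_mul (f : QFrame V A P PA p1 q1) {q q' : G} (hq : q ∈ PA) (hq' : q' ∈ PA) :
    tOf f (q * q') (mul_mem hq hq') = tOf f q' hq' + tOf f q hq := by
  apply end_ext
  intro x
  rw [add_apply_val, tOf_apply, tOf_apply, tOf_apply,
    f.toQPair.cmq_mul_left hq hq' (toMul_mem x)]
  exact f.toQPair.cm_mul_right f.hp1 (f.QVcm q' hq' _ (toMul_mem x))
    (f.QVcm q hq _ (toMul_mem x))

theorem sOf_one (f : QFrame V A P PA p1 q1) : sOf f 1 (one_mem P) = 0 := by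
  apply end_ext
  intro x
  rw [sOf_apply, cm_one_left]; rfl

theorem tOf_one (f : QFrame V A P PA p1 q1) : tOf f 1 (one_mem PA) = 0 := by
  apply end_ext
  intro x
  rw [tOf_apply, cm_one_left, cm_one_right]; rfl

theorem sOf_p1 (f : QFrame V A P PA p1 q1) : sOf f p1 f.hp1 = 1 := by
  apply end_ext
  intro x
  rw [sOf_apply, f.K1 _ (toMul_mem x)]; rfl

theorem tOf_q1 (f : QFrame V A P PA p1 q1) : tOf f q1 f.hq1 = 1 := by
  apply end_ext
  intro x
  rw [tOf_apply, f.K1 _ (toMul_mem x)]; rfl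

theorem charTwo_End (f : QFrame V A P PA p1 q1) : CharP (AddMonoid.End (Additive ↥V)) 2 := by
  apply CharTwo.of_one_ne_zero_of_two_eq_zero
  · intro h
    obtain ⟨⟨v0, hv0⟩, hv01⟩ := (Subgroup.ne_bot_iff_exists_ne_one).mp f.Vne
    have := congrArg (fun s : AddMonoid.End (Additive ↥V) => s (Additive.ofMul ⟨v0, hv0⟩)) h
    exact hv01 (Additive.ofMul.injective this)
  · apply AddMonoidHom.ext
    intro x
    have : (2 : AddMonoid.End (Additive ↥V)) = 1 + 1 := by norm_num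
    rw [this]
    exact f.add_self_End x

/-- The set `S₀` of the `κ_p ∘ λ_{q1}`. -/
def S0 (f : QFrame V A P PA p1 q1) : AddSubgroup (AddMonoid.End (Additive ↥V)) where
  carrier := {s | ∃ p, ∃ hp : p ∈ P, s = sOf f p hp}
  zero_mem' := ⟨1, one_mem P, (sOf_one f).symm⟩
  add_mem' := by
    rintro _ _ ⟨p, hp, rfl⟩ ⟨p', hp', rfl⟩
    exact ⟨p * p', mul_mem hp hp', (sOf_mul f hp hp').symm⟩
  neg_mem' := by
    rintro s ⟨p, hp, rfl⟩
    haveI := f.charTwo_End
    exact ⟨p, hp, CharTwo.neg_eq _⟩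

/-- The set `T₀` of the `κ_{p1} ∘ λ_q`. -/
def T0 (f : QFrame V A P PA p1 q1) : AddSubgroup (AddMonoid.End (Additive ↥V)) where
  carrier := {t | ∃ q, ∃ hq : q ∈ PA, t = tOf f q hq}
  zero_mem' := ⟨1, one_mem PA, (tOf_one f).symm⟩
  add_mem' := by
    rintro _ _ ⟨q, hq, rfl⟩ ⟨q', hq', rfl⟩
    exact ⟨q' * q, mul_mem hq' hq, (tOf_mul f hq' hq).symm⟩
  neg_mem' := by
    rintro s ⟨q, hq, rfl⟩
    haveI := f.charTwo_End
    exact ⟨q, hq, CharTwo.neg_eq _⟩

theorem sOf_mul_tOf (f : QFrame V A P PA p1 q1) {p q : G} (hp : p ∈ P) (hq : q ∈ PA)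
    (heq : cj p A = cj q V) : sOf f p hp * tOf f q hq = 1 ∧ tOf f q hq * sOf f p hp = 1 := by
  constructor
  · apply end_ext
    intro x
    rw [mul_apply', sOf_apply, tOf_apply, f.K2 _ (f.QVcm q hq _ (toMul_mem x)),
      f.toQPair.kap_lam hp hq heq.symm (toMul_mem x)]
    rfl
  · apply end_ext
    intro x
    rw [mul_apply', tOf_apply, sOf_apply,
      f.toQPair.lam_kap hp hq heq (f.QVcm q1 f.hq1 _ (toMul_mem x)), f.K1 _ (toMul_mem x)]
    rfl

theorem jordanDiv_S0 (f : QFrame V A P PA p1 q1) : JordanDiv f.S0 ∧ f.T0 = f.S0 := by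
  haveI := f.charTwo_End
  apply jordanDiv_of_pair
  · exact ⟨p1, f.hp1, (sOf_p1 f).symm⟩
  · rintro s ⟨p, hp, rfl⟩ hs0
    have hex : ∃ a ∈ A, cm p a ≠ 1 := by
      by_contra hcon
      push Not at hcon
      apply hs0
      apply end_ext
      intro x
      rw [sOf_apply, hcon _ (f.QVcm q1 f.hq1 _ (toMul_mem x))]; rfl
    obtain ⟨q, hq, heq⟩ := f.T1 p hp hex
    exact ⟨tOf f q hq, ⟨q, hq, rfl⟩, sOf_mul_tOf f hp hq heq⟩
  · rintro t ⟨q, hq, rfl⟩ ht0
    have hex : ∃ v ∈ V, cm q v ≠ 1 := by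
      by_contra hcon
      push Not at hcon
      apply ht0
      apply end_ext
      intro x
      rw [tOf_apply, hcon _ (toMul_mem x), cm_one_right]; rfl
    obtain ⟨p, hp, heq⟩ := f.T2 q hq hex
    exact ⟨sOf f p hp, ⟨p, hp, rfl⟩, sOf_mul_tOf f hp hq heq.symm⟩

/-- Regularity: `S₀` is transitive on the nonzero vectors. -/
theorem S0_regular (f : QFrame V A P PA p1 q1) {x : Additive ↥V} (hx : x ≠ 0) (z : Additive ↥V) :
    ∃ s ∈ f.S0, s x = z := by
  have hx1 : ((x.toMul : ↥V) : G) ≠ 1 := by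
    intro h
    apply hx
    apply Additive.toMul.injective
    exact Subtype.ext h
  have ha : cm q1 ((x.toMul : ↥V) : G) ∈ A := f.QVcm q1 f.hq1 _ (toMul_mem x)
  have ha1 : cm q1 ((x.toMul : ↥V) : G) ≠ 1 := by
    intro h
    have := f.K1 _ (toMul_mem x)
    rw [h, cm_one_right] at this
    exact hx1 this.symm
  obtain ⟨p, hp, hpz⟩ := f.reg _ ha ha1 _ (toMul_mem z)
  refine ⟨sOf f p hp, ⟨p, hp, rfl⟩, ?_⟩
  apply Additive.toMul.injective
  apply Subtype.ext
  rw [sOf_apply]; exact hpz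

theorem card_S0 [Finite G] (f : QFrame V A P PA p1 q1) : Nat.card f.S0 = Nat.card V := by
  haveI := f.charTwo_End
  obtain ⟨⟨v0, hv0⟩, hv01⟩ := (Subgroup.ne_bot_iff_exists_ne_one).mp f.Vne
  have hx0 : (Additive.ofMul (⟨v0, hv0⟩ : ↥V)) ≠ 0 := fun h => hv01 (Additive.ofMul.injective h)
  have hJ := f.jordanDiv_S0.1
  have hbij : Function.Bijective
      (fun s : ↥f.S0 => (s : AddMonoid.End (Additive ↥V)) (Additive.ofMul (⟨v0, hv0⟩ : ↥V))) := by
    constructor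
    · intro s t hst
      apply Subtype.ext
      by_contra hne
      have hd : (s : AddMonoid.End (Additive ↥V)) - t ≠ 0 := fun h => hne (sub_eq_zero.mp h)
      obtain ⟨r, hr, h1, h2⟩ := hJ.inv_mem _ (f.S0.sub_mem s.2 t.2) hd
      have h3 : ((s : AddMonoid.End (Additive ↥V)) - t) (Additive.ofMul (⟨v0, hv0⟩ : ↥V)) = 0 := by
        have e : ((s : AddMonoid.End (Additive ↥V)) - t) (Additive.ofMul (⟨v0, hv0⟩ : ↥V))
            = (s : AddMonoid.End (Additive ↥V)) (Additive.ofMul (⟨v0, hv0⟩ : ↥V))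
              - (t : AddMonoid.End (Additive ↥V)) (Additive.ofMul (⟨v0, hv0⟩ : ↥V)) := rfl
        rw [e]
        exact sub_eq_zero.mpr hst
      have h4 : (r * ((s : AddMonoid.End (Additive ↥V)) - t))
          (Additive.ofMul (⟨v0, hv0⟩ : ↥V)) = 0 := by
        rw [mul_apply', h3, map_zero]
      rw [h2] at h4
      exact hx0 h4
    · intro z
      obtain ⟨s, hs, hsz⟩ := f.S0_regular hx0 z
      exact ⟨⟨s, hs⟩, hsz⟩
  have := Nat.card_congr (Equiv.ofBijective _ hbij)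
  rw [this]
  exact Nat.card_congr Additive.toMul

end QFrame

end Cfsg.Agent.Helper30
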