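import Cfsg.Agent.Helper30.QPair
import Cfsg.Agent.Helper83.SL2

/-!
# Quadratic pairs: the group generated by the root elements induces `SL₂(F)` on `V × A`
-/

set_option autoImplicit false
set_option linter.unusedSimpArgs false
set_option linter.unnecessarySimpa false
set_option linter.unusedVariables false
set_option linter.style.haveILetI false
set_option linter.unusedSectionVars false

namespace Cfsg.Agent.Helper30

open Subgroup
open scoped IsMulCommutative

section Mact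

variable {M : Type*} [AddCommGroup M] {F : Type*} [Field F]

theorem end_mul_apply (f g : AddMonoid.End M) (x : M) : (f * g) x = f (g x) := rfl

theorem end_add_apply (f g : AddMonoid.End M) (x : M) : (f + g) x = f x + g x := rfl

theorem end_one_apply (x : M) : (1 : AddMonoid.End M) x = x := rfl

theorem end_zero_apply (x : M) : (0 : AddMonoid.End M) x = 0 := rfl

/-- The action of `2 × 2` matrices on `M × M` through a ring homomorphism `F → End M`. -/
def mact (ψ : F →+* AddMonoid.End M) (m : Matrix (Fin 2) (Fin 2) F) (z : M × M) : M × M :=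
  (ψ (m 0 0) z.1 + ψ (m 0 1) z.2, ψ (m 1 0) z.1 + ψ (m 1 1) z.2)

theorem mact_one (ψ : F →+* AddMonoid.End M) (z : M × M) : mact ψ 1 z = z := by
  unfold mact
  simp [end_one_apply, end_zero_apply]

theorem mact_mul (ψ : F →+* AddMonoid.End M) (m m' : Matrix (Fin 2) (Fin 2) F) (z : M × M) :
    mact ψ (m * m') z = mact ψ m (mact ψ m' z) := by
  unfold mact
  simp only [Matrix.mul_apply, Fin.sum_univ_two, map_add, map_mul, end_add_apply, end_mul_apply]
  ext
  · simp only; abel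
  · simp only; abel

theorem mact_injective {ψ : F →+* AddMonoid.End M} (hψ : Function.Injective ψ)
    {m m' : Matrix (Fin 2) (Fin 2) F} (h : ∀ z, mact ψ m z = mact ψ m' z) : m = m' := by
  have h1 : ∀ x : M, ψ (m 0 0) x = ψ (m' 0 0) x ∧ ψ (m 1 0) x = ψ (m' 1 0) x := by
    intro x
    have := h (x, 0)
    unfold mact at this
    simpa using this
  have h2 : ∀ y : M, ψ (m 0 1) y = ψ (m' 0 1) y ∧ ψ (m 1 1) y = ψ (m' 1 1) y := by
    intro y
    have := h (0, y)
    unfold mact at this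
    simpa using this
  ext i j
  fin_cases i <;> fin_cases j
  · exact hψ (AddMonoidHom.ext fun x => (h1 x).1)
  · exact hψ (AddMonoidHom.ext fun x => (h2 x).1)
  · exact hψ (AddMonoidHom.ext fun x => (h1 x).2)
  · exact hψ (AddMonoidHom.ext fun x => (h2 x).2)

end Mact

namespace QFrame

variable {G : Type*} [Group G] {V A P PA : Subgroup G} {p1 q1 : G} [IsMulCommutative ↥V]

/-- The coordinates `V × V → W`. -/
def theta (f : QFrame V A P PA p1 q1) (z : Additive ↥V × Additive ↥V) : G :=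
  ((z.1.toMul : ↥V) : G) * cm q1 ((z.2.toMul : ↥V) : G)

theorem theta_inj (f : QFrame V A P PA p1 q1) : Function.Injective f.theta := by
  intro z z' h
  unfold theta at h
  obtain ⟨h1, h2⟩ := f.toQPair.decomp (toMul_mem z.1) (f.QVcm q1 f.hq1 _ (toMul_mem z.2))
    (toMul_mem z'.1) (f.QVcm q1 f.hq1 _ (toMul_mem z'.2)) h
  have h3 : ((z.2.toMul : ↥V) : G) = ((z'.2.toMul : ↥V) : G) := by
    rw [← f.K1 _ (toMul_mem z.2), ← f.K1 _ (toMul_mem z'.2), h2]
  exact Prod.ext (Additive.toMul.injective (Subtype.ext h1))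
    (Additive.toMul.injective (Subtype.ext h3))

theorem theta_mem (f : QFrame V A P PA p1 q1) (z : Additive ↥V × Additive ↥V) :
    f.theta z ∈ V ⊔ A :=
  mul_mem (mem_sup_left (toMul_mem z.1)) (mem_sup_right (f.QVcm q1 f.hq1 _ (toMul_mem z.2)))

theorem theta_surj (f : QFrame V A P PA p1 q1) {w : G} (hw : w ∈ V ⊔ A) :
    ∃ z, f.theta z = w := by
  have hVA : V ≤ normalizer (A : Set G) := by
    rw [le_normalizer_iff]
    intro v hv a ha
    rw [f.VA v hv a ha, mul_assoc, mul_inv_cancel, mul_one]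
    exact ha
  obtain ⟨v, hv, a, ha, rfl⟩ := (mem_sup_of_normalizes hVA).mp hw
  refine ⟨(Additive.ofMul ⟨v, hv⟩, Additive.ofMul ⟨cm p1 a, f.PAcm p1 f.hp1 a ha⟩), ?_⟩
  show v * cm q1 (cm p1 a) = v * a
  rw [f.K2 a ha]

variable {F : Type} [Field F]

/-- `h` acts on `W` as the matrix `m`. -/
def Rel (f : QFrame V A P PA p1 q1) (ψ : F →+* AddMonoid.End (Additive ↥V)) (h : G)
    (m : Matrix.SpecialLinearGroup (Fin 2) F) : Prop :=
  ∀ z : Additive ↥V × Additive ↥V, h * f.theta z * h⁻¹ = f.theta (mact ψ m.1 z)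

theorem rel_one (f : QFrame V A P PA p1 q1) (ψ : F →+* AddMonoid.End (Additive ↥V)) :
    Rel f ψ 1 1 := by
  intro z
  rw [Matrix.SpecialLinearGroup.coe_one, mact_one]
  group

theorem rel_mul (f : QFrame V A P PA p1 q1) (ψ : F →+* AddMonoid.End (Additive ↥V)) {h h' : G}
    {m m' : Matrix.SpecialLinearGroup (Fin 2) F} (h1 : Rel f ψ h m) (h2 : Rel f ψ h' m') :
    Rel f ψ (h * h') (m * m') := by
  intro z
  have e : h * h' * f.theta z * (h * h')⁻¹ = h * (h' * f.theta z * h'⁻¹) * h⁻¹ := by group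
  rw [e, h2 z, h1 (mact ψ m'.1 z), Matrix.SpecialLinearGroup.coe_mul, mact_mul]

theorem rel_inv (f : QFrame V A P PA p1 q1) (ψ : F →+* AddMonoid.End (Additive ↥V)) {h : G}
    {m : Matrix.SpecialLinearGroup (Fin 2) F} (h1 : Rel f ψ h m) : Rel f ψ h⁻¹ m⁻¹ := by
  intro z
  have h2 := h1 (mact ψ (m⁻¹).1 z)
  rw [← mact_mul, ← Matrix.SpecialLinearGroup.coe_mul, mul_inv_cancel,
    Matrix.SpecialLinearGroup.coe_one, mact_one] at h2
  rw [← h2]; group

theorem rel_unique (f : QFrame V A P PA p1 q1) {ψ : F →+* AddMonoid.End (Additive ↥V)}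
    (hψ : Function.Injective ψ) {h : G} {m m' : Matrix.SpecialLinearGroup (Fin 2) F}
    (h1 : Rel f ψ h m) (h2 : Rel f ψ h m') : m = m' := by
  apply Subtype.ext
  apply mact_injective hψ
  intro z
  exact f.theta_inj ((h1 z).symm.trans (h2 z))

theorem rel_P (f : QFrame V A P PA p1 q1) (ψ : F →+* AddMonoid.End (Additive ↥V)) {p : G}
    (hp : p ∈ P) {c : F} (hc : ψ c = sOf f p hp) : Rel f ψ p (Cfsg.Agent.Helper83.sl2U c) := by
  intro z
  have e1 : mact ψ (Cfsg.Agent.Helper83.sl2U c).1 z = (z.1 + sOf f p hp z.2, z.2) := by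
    unfold mact Cfsg.Agent.Helper83.sl2U
    simp [hc, end_one_apply, end_zero_apply]
  rw [e1]
  unfold theta
  have hx := toMul_mem z.1
  have ha : cm q1 ((z.2.toMul : ↥V) : G) ∈ A := f.QVcm q1 f.hq1 _ (toMul_mem z.2)
  have e2 : ((((z.1 + sOf f p hp z.2, z.2) : Additive ↥V × Additive ↥V).1.toMul : ↥V) : G)
      = ((z.1.toMul : ↥V) : G) * cm p (cm q1 ((z.2.toMul : ↥V) : G)) := rfl
  rw [e2]
  calc p * (((z.1.toMul : ↥V) : G) * cm q1 ((z.2.toMul : ↥V) : G)) * p⁻¹
      = (p * ((z.1.toMul : ↥V) : G)) * cm q1 ((z.2.toMul : ↥V) : G) * p⁻¹ := by group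
    _ = (((z.1.toMul : ↥V) : G) * p) * cm q1 ((z.2.toMul : ↥V) : G) * p⁻¹ := by
        rw [f.PV p hp _ hx]
    _ = ((z.1.toMul : ↥V) : G) * (p * cm q1 ((z.2.toMul : ↥V) : G) * p⁻¹) := by group
    _ = ((z.1.toMul : ↥V) : G) * (cm p (cm q1 ((z.2.toMul : ↥V) : G))
          * cm q1 ((z.2.toMul : ↥V) : G)) := by rw [conj_eq_cm_mul]
    _ = ((z.1.toMul : ↥V) : G) * cm p (cm q1 ((z.2.toMul : ↥V) : G))
          * cm q1 ((z.2.toMul : ↥V) : G) := by group

theorem rel_PA (f : QFrame V A P PA p1 q1) (ψ : F →+* AddMonoid.End (Additive ↥V)) {q : G}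
    (hq : q ∈ PA) {c : F} (hc : ψ c = tOf f q hq) : Rel f ψ q (Cfsg.Agent.Helper83.sl2L c) := by
  intro z
  have e1 : mact ψ (Cfsg.Agent.Helper83.sl2L c).1 z = (z.1, tOf f q hq z.1 + z.2) := by
    unfold mact Cfsg.Agent.Helper83.sl2L
    simp [hc, end_one_apply, end_zero_apply]
  rw [e1]
  unfold theta
  have hx := toMul_mem z.1
  have hy := toMul_mem z.2
  have ha : cm q1 ((z.2.toMul : ↥V) : G) ∈ A := f.QVcm q1 f.hq1 _ hy
  have hb : cm q ((z.1.toMul : ↥V) : G) ∈ A := f.QVcm q hq _ hx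
  have e2 : ((((z.1, tOf f q hq z.1 + z.2) : Additive ↥V × Additive ↥V).2.toMul : ↥V) : G)
      = cm p1 (cm q ((z.1.toMul : ↥V) : G)) * ((z.2.toMul : ↥V) : G) := rfl
  rw [e2, f.toQPair.cmq_mul_right f.hq1 (f.PAcm p1 f.hp1 _ hb) hy, f.K2 _ hb]
  calc q * (((z.1.toMul : ↥V) : G) * cm q1 ((z.2.toMul : ↥V) : G)) * q⁻¹
      = (q * ((z.1.toMul : ↥V) : G) * q⁻¹) * (q * cm q1 ((z.2.toMul : ↥V) : G)) * q⁻¹ := by
        group
    _ = (q * ((z.1.toMul : ↥V) : G) * q⁻¹) * (cm q1 ((z.2.toMul : ↥V) : G) * q) * q⁻¹ := by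
        rw [f.QA q hq _ ha]
    _ = (q * ((z.1.toMul : ↥V) : G) * q⁻¹) * cm q1 ((z.2.toMul : ↥V) : G) := by group
    _ = (cm q ((z.1.toMul : ↥V) : G) * ((z.1.toMul : ↥V) : G))
          * cm q1 ((z.2.toMul : ↥V) : G) := by rw [conj_eq_cm_mul]
    _ = (((z.1.toMul : ↥V) : G) * cm q ((z.1.toMul : ↥V) : G))
          * cm q1 ((z.2.toMul : ↥V) : G) := by rw [f.VA _ hx _ hb]
    _ = ((z.1.toMul : ↥V) : G) * (cm q ((z.1.toMul : ↥V) : G)
          * cm q1 ((z.2.toMul : ↥V) : G)) := by group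

end QFrame

/-- **The quadratic pair theorem**: the group generated by `P` and `PA` induces `SL₂(F)` on
`W = V × A`, where `F` is a field with `|V|` elements, and a torus is transitive on `V ∖ 1`. -/
theorem QPair.sl2 {G : Type*} [Group G] [Finite G] {V A P PA : Subgroup G}
    (hq : QPair V A P PA) :
    ∃ (F : Type) (_ : Field F) (_ : Fintype F), Fintype.card F = Nat.card V ∧
      ∃ Φ : ↥(P ⊔ PA) →* Matrix.SpecialLinearGroup (Fin 2) F, Function.Surjective Φ ∧
        (∀ h : ↥(P ⊔ PA), Φ h = 1 ↔ (h : G) ∈ centralizer ((V ⊔ A : Subgroup G) : Set G)) ∧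
        (∀ v0 ∈ V, v0 ≠ 1 → ∀ v ∈ V, v ≠ 1 →
          ∃ h ∈ P ⊔ PA, h ∈ normalizer (V : Set G) ∧ h * v0 * h⁻¹ = v) := by
  haveI : IsMulCommutative ↥V := ⟨⟨fun a b => Subtype.ext (hq.Vcomm a a.2 b b.2)⟩⟩
  haveI : Fact (Nat.Prime 2) := ⟨Nat.prime_two⟩
  obtain ⟨p1, q1, f⟩ := hq.exists_frame
  haveI := f.charTwo_End
  haveI : Finite (AddMonoid.End (Additive ↥V)) :=
    Finite.of_injective (fun s : AddMonoid.End (Additive ↥V) => (s : Additive ↥V → Additive ↥V))
      DFunLike.coe_injective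
  obtain ⟨hJ, hTS⟩ := f.jordanDiv_S0
  have hVp : IsPGroup 2 V := by
    rintro ⟨v, hv⟩
    refine ⟨1, ?_⟩
    apply Subtype.ext
    simp [pow_two, hq.Vsq v hv]
  obtain ⟨n, hn⟩ := (IsPGroup.iff_card).mp hVp
  have hn0 : n ≠ 0 := by
    rintro rfl
    rw [pow_zero] at hn
    exact hq.Vne (Subgroup.card_eq_one.mp hn)
  have hcard : Nat.card f.S0 = 2 ^ n := by rw [f.card_S0, hn]
  obtain ⟨F, _, _, ψ, hψinj, hψrange, hFcard⟩ := exists_field_of_jordanDiv hJ hn0 hcard
  refine ⟨F, inferInstance, inferInstance, by rw [hFcard, hn], ?_⟩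
  have hex : ∀ h ∈ P ⊔ PA, ∃ m : Matrix.SpecialLinearGroup (Fin 2) F, QFrame.Rel f ψ h m := by
    intro h hh
    rw [sup_eq_closure] at hh
    induction hh using closure_induction with
    | mem x hx =>
      rcases hx with hx | hx
      · have h1 : QFrame.sOf f x hx ∈ Set.range ψ := by
          rw [hψrange]; exact ⟨x, hx, rfl⟩
        obtain ⟨c, hc⟩ := h1
        exact ⟨Cfsg.Agent.Helper83.sl2U c, f.rel_P ψ hx hc⟩
      · have h1 : QFrame.tOf f x hx ∈ Set.range ψ := by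
          rw [hψrange, ← hTS]; exact ⟨x, hx, rfl⟩
        obtain ⟨c, hc⟩ := h1
        exact ⟨Cfsg.Agent.Helper83.sl2L c, f.rel_PA ψ hx hc⟩
    | one => exact ⟨1, f.rel_one ψ⟩
    | mul x y hx hy ihx ihy =>
      obtain ⟨m, hm⟩ := ihx
      obtain ⟨m', hm'⟩ := ihy
      exact ⟨m * m', f.rel_mul ψ hm hm'⟩
    | inv x hx ih =>
      obtain ⟨m, hm⟩ := ih
      exact ⟨m⁻¹, f.rel_inv ψ hm⟩
  let Φ : ↥(P ⊔ PA) →* Matrix.SpecialLinearGroup (Fin 2) F :=
    { toFun := fun h => Classical.choose (hex h h.2)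
      map_one' := f.rel_unique hψinj (Classical.choose_spec (hex _ (1 : ↥(P ⊔ PA)).2))
        (f.rel_one ψ)
      map_mul' := fun a b => f.rel_unique hψinj (Classical.choose_spec (hex _ (a * b).2))
        (f.rel_mul ψ (Classical.choose_spec (hex a a.2)) (Classical.choose_spec (hex b b.2))) }
  have hΦ : ∀ h : ↥(P ⊔ PA), QFrame.Rel f ψ (h : G) (Φ h) :=
    fun h => Classical.choose_spec (hex h h.2)
  have hsurj : Function.Surjective Φ := by
    have hU : ∀ c : F, Cfsg.Agent.Helper83.sl2U c ∈ Φ.range := by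
      intro c
      have hc : ψ c ∈ (f.S0 : Set (AddMonoid.End (Additive ↥V))) := by
        rw [← hψrange]; exact ⟨c, rfl⟩
      obtain ⟨p, hp, hpc⟩ := hc
      exact ⟨⟨p, mem_sup_left hp⟩, f.rel_unique hψinj (hΦ _) (f.rel_P ψ hp hpc)⟩
    have hL : ∀ c : F, Cfsg.Agent.Helper83.sl2L c ∈ Φ.range := by
      intro c
      have hc : ψ c ∈ (f.T0 : Set (AddMonoid.End (Additive ↥V))) := by
        rw [hTS, ← hψrange]; exact ⟨c, rfl⟩
      obtain ⟨q, hq', hqc⟩ := hc
      exact ⟨⟨q, mem_sup_right hq'⟩, f.rel_unique hψinj (hΦ _) (f.rel_PA ψ hq' hqc)⟩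
    have htop : (⊤ : Subgroup (Matrix.SpecialLinearGroup (Fin 2) F)) ≤ Φ.range := by
      rw [← Cfsg.Agent.Helper83.sl2_generation]
      apply sup_le
      · intro g hg
        obtain ⟨t, rfl⟩ := (Cfsg.Agent.Helper83.mem_lowerUnipotentSL2 g).mp hg
        exact hL t
      · intro g hg
        obtain ⟨t, rfl⟩ := (Cfsg.Agent.Helper83.mem_upperUnipotentSL2 g).mp hg
        exact hU t
    intro m
    exact htop (mem_top m)
  refine ⟨Φ, hsurj, ?_, ?_⟩
  · intro h
    constructor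
    · intro h1
      have hr := hΦ h
      rw [h1] at hr
      rw [mem_centralizer_iff]
      intro w hw
      obtain ⟨z, rfl⟩ := f.theta_surj hw
      have := hr z
      rw [Matrix.SpecialLinearGroup.coe_one, mact_one] at this
      exact (mul_inv_eq_iff_eq_mul.mp this).symm
    · intro hc
      apply f.rel_unique hψinj (hΦ h)
      intro z
      rw [Matrix.SpecialLinearGroup.coe_one, mact_one]
      have := mem_centralizer_iff.mp hc _ (f.theta_mem z)
      exact mul_inv_eq_iff_eq_mul.mpr this.symm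
  · intro v0 hv0 hv01 v hv hv1
    have hx0 : Additive.ofMul (⟨v0, hv0⟩ : ↥V) ≠ 0 := by
      intro h
      exact hv01 (congrArg Subtype.val (Additive.ofMul.injective h))
    obtain ⟨s, hs, hsz⟩ := f.S0_regular hx0 (Additive.ofMul ⟨v, hv⟩)
    have hs' : s ∈ Set.range ψ := by rw [hψrange]; exact hs
    obtain ⟨c, rfl⟩ := hs'
    have hc0 : c ≠ 0 := by
      rintro rfl
      rw [map_zero, end_zero_apply] at hsz
      exact hv1 (congrArg Subtype.val (Additive.ofMul.injective hsz.symm))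
    obtain ⟨h, hh⟩ := hsurj ⟨!![c, 0; 0, c⁻¹], by simp [Matrix.det_fin_two, hc0]⟩
    have key : ∀ u (hu : u ∈ V), (h : G) * u * (h : G)⁻¹
        = (((ψ c (Additive.ofMul ⟨u, hu⟩)).toMul : ↥V) : G) := by
      intro u hu
      have := hΦ h (Additive.ofMul ⟨u, hu⟩, 0)
      rw [hh] at this
      unfold QFrame.theta mact at this
      simpa [cm_one_right, end_zero_apply] using this
    refine ⟨h, h.2, ?_, ?_⟩
    · apply mem_normalizer_of_cj_le
      intro y hy
      have hu := mem_cj.mp hy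
      have := key _ hu
      have e : (h : G) * ((h : G)⁻¹ * y * (h : G)) * (h : G)⁻¹ = y := by group
      rw [e] at this
      rw [this]; exact QFrame.toMul_mem _
    · rw [key v0 hv0, hsz]
      rfl

end Cfsg.Agent.Helper30
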