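import Cfsg.Agent.Helper45.Spinor3

set_option autoImplicit false

universe u

namespace Cfsg.Agent.Helper30

open Cfsg Matrix
open Cfsg.Agent.Helper45

section ReflClassVec

variable {F : Type u} [Field F]

/-- the product of two reflections in a plane, rewritten with a prescribed first reflection (vector form) -/
theorem reflClass_pair_vec {V : Type*} [AddCommGroup V] [Module F V] (x y w : V)
    (α β qx qy B s t qa : F) (hqx : qx ≠ 0) (hqy : qy ≠ 0) (hqa : qa ≠ 0)
    (h : qa = α ^ 2 * qx + α * β * B + β ^ 2 * qy) :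
    (w - ((qa * qx * qy)⁻¹ * ((α * qx + β * B) * t - (β * qy) * s)) •
        ((α * qx + β * B) • y - (β * qy) • x)) -
      (qa⁻¹ *
        ((α * s + β * t) -
          ((qa * qx * qy)⁻¹ * ((α * qx + β * B) * t - (β * qy) * s)) *
            ((α * qx + β * B) * (α * B + β * (2 * qy)) - (β * qy) * (α * (2 * qx) + β * B)))) •
        (α • x + β • y) =
    (w - (qy⁻¹ * t) • y) - (qx⁻¹ * (s - (qy⁻¹ * t) * B)) • x := by
  match_scalars
  · ring
  · field_simp
    subst h
    ring
  · field_simp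
    subst h
    ring

end ReflClassVec

section ReflClassGroup

variable {ι : Type} [Fintype ι] [DecidableEq ι] {F : Type u} [Field F]
  (Q : QuadraticForm F (ι → F))

/-- the generating set: reflections in vectors whose norm lies in the class `c * (F^×)^2` -/
def reflClassSet (c : F) : Set ↥(isometryGroup F ⇑Q) :=
  {g | ∃ (v : ι → F) (t : F), t ≠ 0 ∧ Q v = c * t ^ 2 ∧
    ((g : Matrix.GeneralLinearGroup ι F) : Matrix ι ι F) = reflectionMatrix ⇑Q v}

/-- the subgroup generated by the reflections of the class `c` -/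
def reflClassGroup (c : F) : Subgroup ↥(isometryGroup F ⇑Q) := Subgroup.closure (reflClassSet Q c)

theorem reflClass_reflO_mem (c : F) (hc : c ≠ 0) (v : ι → F) (hv : Q v ≠ 0) (h : IsSquare (c * Q v)) :
    reflO Q v hv ∈ reflClassGroup Q c := by
  obtain ⟨s, hs⟩ := h
  have hs0 : s ≠ 0 := by
    rintro rfl
    rw [mul_zero] at hs
    exact (mul_ne_zero hc hv) hs
  refine Subgroup.subset_closure ⟨v, s / c, div_ne_zero hs0 hc, ?_, reflO_coe Q v hv⟩
  field_simp
  linear_combination hs

theorem reflClass_set_eq (c : F) (hc : c ≠ 0) (g : ↥(isometryGroup F ⇑Q)) (hg : g ∈ reflClassSet Q c) :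
    ∃ (v : ι → F) (hv : Q v ≠ 0), IsSquare (c * Q v) ∧ g = reflO Q v hv := by
  obtain ⟨v, t, ht, hQv, hg⟩ := hg
  have hv : Q v ≠ 0 := by
    rw [hQv]
    exact mul_ne_zero hc (pow_ne_zero 2 ht)
  refine ⟨v, hv, ⟨c * t, ?_⟩, ?_⟩
  · rw [hQv]
    ring
  · apply Subtype.ext
    apply Units.ext
    rw [hg, reflO_coe]

theorem reflClassGroup_conj (c : F) (hc : c ≠ 0) (k g : ↥(isometryGroup F ⇑Q))
    (hg : g ∈ reflClassGroup Q c) : k * g * k⁻¹ ∈ reflClassGroup Q c := by
  refine Subgroup.closure_induction (p := fun n _ => k * n * k⁻¹ ∈ reflClassGroup Q c) ?_ ?_ ?_ ?_ hg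
  · intro x hx
    obtain ⟨v, hv, hsq, rfl⟩ := reflClass_set_eq Q c hc x hx
    have hkv : Q (mv ⇑Q k v) ≠ 0 := by
      rw [mv_quad ⇑Q k v]
      exact hv
    rw [conj_reflO Q k v hv hkv]
    apply reflClass_reflO_mem Q c hc
    rw [mv_quad ⇑Q k v]
    exact hsq
  · rw [mul_one, mul_inv_cancel]
    exact Subgroup.one_mem _
  · intro x y _ _ hx hy
    have e : k * (x * y) * k⁻¹ = (k * x * k⁻¹) * (k * y * k⁻¹) := by group
    rw [e]
    exact Subgroup.mul_mem _ hx hy
  · intro x _ hx
    have e : k * x⁻¹ * k⁻¹ = (k * x * k⁻¹)⁻¹ := by group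
    rw [e]
    exact Subgroup.inv_mem _ hx

omit [Fintype ι] [DecidableEq ι] in
theorem reflClass_q_lin (x y : ι → F) (α β : F) :
    Q (α • x + β • y) = α ^ 2 * Q x + α * β * QuadraticMap.polar ⇑Q x y + β ^ 2 * Q y := by
  rw [Helper13.Q_add', QuadraticMap.map_smul, QuadraticMap.map_smul, QuadraticMap.polar_smul_left,
    QuadraticMap.polar_smul_right]
  simp only [smul_eq_mul]
  ring

theorem reflClass_q_b (x y : ι → F) (α β : F) :
    Q ((α * Q x + β * QuadraticMap.polar ⇑Q x y) • y - (β * Q y) • x) =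
      Q (α • x + β • y) * Q x * Q y := by
  rw [q_sub, QuadraticMap.map_smul, QuadraticMap.map_smul, QuadraticMap.polar_smul_left,
    QuadraticMap.polar_smul_right, reflClass_q_lin, QuadraticMap.polar_comm ⇑Q y x]
  simp only [smul_eq_mul]
  ring

/-- a product of two reflections in a plane can be rewritten with a prescribed first reflection -/
theorem reflClass_pair_eq (x y : ι → F) (α β : F) (hx : Q x ≠ 0) (hy : Q y ≠ 0)
    (ha : Q (α • x + β • y) ≠ 0)
    (hb : Q ((α * Q x + β * QuadraticMap.polar ⇑Q x y) • y - (β * Q y) • x) ≠ 0) :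
    reflO Q (α • x + β • y) ha *
        reflO Q ((α * Q x + β * QuadraticMap.polar ⇑Q x y) • y - (β * Q y) • x) hb =
      reflO Q x hx * reflO Q y hy := by
  apply ext_mv
  intro w
  have e1 : ∀ w, QuadraticMap.polar ⇑Q (α • x + β • y) w =
      α * QuadraticMap.polar ⇑Q x w + β * QuadraticMap.polar ⇑Q y w := by
    intro w
    rw [QuadraticMap.polar_add_left, QuadraticMap.polar_smul_left, QuadraticMap.polar_smul_left]
    simp only [smul_eq_mul]
  have e2 : QuadraticMap.polar ⇑Q ((α * Q x + β * QuadraticMap.polar ⇑Q x y) • y - (β * Q y) • x) w =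
      (α * Q x + β * QuadraticMap.polar ⇑Q x y) * QuadraticMap.polar ⇑Q y w -
        (β * Q y) * QuadraticMap.polar ⇑Q x w := by
    rw [QuadraticMap.polar_sub_left, QuadraticMap.polar_smul_left, QuadraticMap.polar_smul_left]
    simp only [smul_eq_mul]
  have e3 : QuadraticMap.polar ⇑Q (α • x + β • y)
      ((α * Q x + β * QuadraticMap.polar ⇑Q x y) • y - (β * Q y) • x) =
      (α * Q x + β * QuadraticMap.polar ⇑Q x y) * (α * QuadraticMap.polar ⇑Q x y + β * (2 * Q y)) -
        (β * Q y) * (α * (2 * Q x) + β * QuadraticMap.polar ⇑Q x y) := by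
    rw [QuadraticMap.polar_sub_right, QuadraticMap.polar_smul_right, QuadraticMap.polar_smul_right,
      e1, e1, QuadraticMap.polar_self, QuadraticMap.polar_self, QuadraticMap.polar_comm ⇑Q y x]
    simp only [smul_eq_mul, two_smul]
    ring
  have f : ∀ (p q r : ι → F) (k : F), QuadraticMap.polar ⇑Q p (q - k • r) =
      QuadraticMap.polar ⇑Q p q - k * QuadraticMap.polar ⇑Q p r := by
    intro p q r k
    rw [QuadraticMap.polar_sub_right, QuadraticMap.polar_smul_right, smul_eq_mul]
  rw [mv_mul, mv_mul, mv_reflO, mv_reflO, mv_reflO, mv_reflO, f (α • x + β • y) w, f x w y, e1, e2, e3,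
    reflClass_q_b]
  exact reflClass_pair_vec x y w α β (Q x) (Q y) (QuadraticMap.polar ⇑Q x y) (QuadraticMap.polar ⇑Q x w)
    (QuadraticMap.polar ⇑Q y w) (Q (α • x + β • y)) hx hy ha (reflClass_q_lin Q x y α β)

omit [Fintype ι] [DecidableEq ι] in
theorem reflClass_reflO_congr [Fintype ι] [DecidableEq ι] (v v' : ι → F) (h : v = v') (hv : Q v ≠ 0)
    (hv' : Q v' ≠ 0) : reflO Q v hv = reflO Q v' hv' := by
  subst h
  rfl

/-- a non-singular vector orthogonal to a small set of vectors -/
theorem reflClass_exists_nonsing (hQ : (QuadraticMap.polarBilin Q).Nondegenerate)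
    (T : Finset (ι → F)) (hT : T.card < Fintype.card ι) (P : (ι → F) → (ι → F))
    (h1 : ∀ t, t - P t ∈ Submodule.span F (T : Set (ι → F)))
    (hP : ∀ t, ∀ s ∈ T, QuadraticMap.polar ⇑Q (P t) s = 0) :
    ∃ w, (∀ s ∈ T, QuadraticMap.polar ⇑Q w s = 0) ∧ Q w ≠ 0 := by
  by_contra H
  push Not at H
  have hA : ∀ w w', (∀ s ∈ T, QuadraticMap.polar ⇑Q w s = 0) →
      (∀ s ∈ T, QuadraticMap.polar ⇑Q w' s = 0) → QuadraticMap.polar ⇑Q w w' = 0 := by
    intro w w' hw hw'
    have h3 : Q (w + w') = 0 :=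
      H _ (fun s hs => by rw [QuadraticMap.polar_add_left, hw s hs, hw' s hs, add_zero])
    unfold QuadraticMap.polar
    rw [h3, H w hw, H w' hw', sub_zero, sub_zero]
  have hB : ∀ w, (∀ s ∈ T, QuadraticMap.polar ⇑Q w s = 0) →
      ∀ s ∈ Submodule.span F (T : Set (ι → F)), QuadraticMap.polar ⇑Q w s = 0 := by
    intro w hw s hs
    induction hs using Submodule.span_induction with
    | mem s hs => exact hw s hs
    | zero => exact QuadraticMap.polar_zero_right Q w
    | add a b _ _ ha hb => rw [QuadraticMap.polar_add_right, ha, hb, add_zero]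
    | smul k a _ ha => rw [QuadraticMap.polar_smul_right, ha, smul_zero]
  have hC : ∀ w, (∀ s ∈ T, QuadraticMap.polar ⇑Q w s = 0) → w = 0 := by
    intro w hw
    apply hQ.1 w
    intro t
    show QuadraticMap.polar ⇑Q w t = 0
    have e : t = P t + (t - P t) := by abel
    rw [e, QuadraticMap.polar_add_right, hA w (P t) hw (hP t), hB w hw _ (h1 t), add_zero]
  have hD : Submodule.span F (T : Set (ι → F)) = ⊤ := by
    rw [eq_top_iff]
    intro t _
    have h4 := h1 t
    rw [hC (P t) (hP t), sub_zero] at h4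
    exact h4
  have h5 := finrank_span_finset_le_card (R := F) T
  unfold Set.finrank at h5
  rw [hD, finrank_top, Module.finrank_fintype_fun_eq_card] at h5
  omega

/-- a hyperbolic partner of a singular vector orthogonal to `x` -/
theorem reflClass_exists_partner (hQ : (QuadraticMap.polarBilin Q).Nondegenerate)
    (u : ι → F) (hu0 : u ≠ 0) : ∃ v, QuadraticMap.polar ⇑Q u v = 1 := by
  have h : ∃ v₀, QuadraticMap.polar ⇑Q u v₀ ≠ 0 := by
    by_contra H
    push Not at H
    exact hu0 (hQ.1 u H)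
  obtain ⟨v₀, hv₀⟩ := h
  refine ⟨(QuadraticMap.polar ⇑Q u v₀)⁻¹ • v₀, ?_⟩
  rw [QuadraticMap.polar_smul_right, smul_eq_mul, inv_mul_cancel₀ hv₀]

/-- a non-singular vector, a singular vector orthogonal to it and a partner are independent -/
theorem reflClass_three_le (h2 : (2 : F) ≠ 0) (hQ : (QuadraticMap.polarBilin Q).Nondegenerate)
    (x u : ι → F) (hx0 : Q x ≠ 0) (hu0 : u ≠ 0) (hu : Q u = 0) (hxu : QuadraticMap.polar ⇑Q x u = 0) :
    3 ≤ Fintype.card ι := by
  obtain ⟨v, hv⟩ := reflClass_exists_partner Q hQ u hu0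
  have hux : QuadraticMap.polar ⇑Q u x = 0 := by rw [QuadraticMap.polar_comm]; exact hxu
  have huu : QuadraticMap.polar ⇑Q u u = 0 := by
    rw [QuadraticMap.polar_self, hu, smul_zero]
  have hli : LinearIndependent F ![x, u, v] := by
    rw [Fintype.linearIndependent_iff]
    intro g hg
    rw [Fin.sum_univ_three] at hg
    simp only [Matrix.cons_val_zero, Matrix.cons_val_one, Matrix.cons_val_two, Matrix.head_cons,
      Matrix.tail_cons] at hg
    have e1 := congrArg (fun t => QuadraticMap.polar ⇑Q u t) hg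
    simp only [QuadraticMap.polar_add_right, QuadraticMap.polar_smul_right, hux, huu, hv, smul_eq_mul,
      mul_zero, mul_one, zero_add, QuadraticMap.polar_zero_right] at e1
    have e2 := congrArg (fun t => QuadraticMap.polar ⇑Q x t) hg
    simp only [QuadraticMap.polar_add_right, QuadraticMap.polar_smul_right, hxu, e1, smul_eq_mul,
      mul_zero, zero_mul, add_zero, QuadraticMap.polar_zero_right, QuadraticMap.polar_self, two_smul] at e2
    have e3 : g 0 = 0 := by
      have h4 : g 0 * (2 * Q x) = 0 := by linear_combination e2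
      rcases mul_eq_zero.mp h4 with h | h
      · exact h
      · exact absurd h (mul_ne_zero h2 hx0)
    rw [e1, e3, zero_smul, zero_smul, zero_add, add_zero] at hg
    have e4 : g 1 = 0 := by
      rcases smul_eq_zero.mp hg with h | h
      · exact h
      · exact absurd h hu0
    intro i
    fin_cases i
    · exact e3
    · exact e4
    · exact e1
  have h3 := hli.fintype_card_le_finrank
  rw [Module.finrank_fintype_fun_eq_card, Fintype.card_fin] at h3
  exact h3

end ReflClassGroup

section ReflClassFin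

variable {ι : Type} [Fintype ι] [DecidableEq ι] {F : Type u} [Field F] [Fintype F]
  (Q : QuadraticForm F (ι → F))

omit [Fintype ι] [DecidableEq ι] in
/-- a diagonal binary form over a finite field of odd order represents every scalar -/
theorem reflClass_diag_repr (h2 : (2 : F) ≠ 0) (p r d : F) (hp : p ≠ 0) (hr : r ≠ 0) :
    ∃ α β : F, p * α ^ 2 + r * β ^ 2 = d := by
  have hR : Fintype.card F % 2 = 1 := FiniteField.odd_card_of_char_ne_two (ringChar_ne_two h2)
  obtain ⟨a, b, hab⟩ := FiniteField.exists_root_sum_quadratic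
    (f := Polynomial.C p * Polynomial.X ^ 2 + Polynomial.C 0 * Polynomial.X + Polynomial.C 0)
    (g := Polynomial.C r * Polynomial.X ^ 2 + Polynomial.C 0 * Polynomial.X + Polynomial.C (-d))
    (Polynomial.degree_quadratic hp) (Polynomial.degree_quadratic hr) hR
  refine ⟨a, b, ?_⟩
  simp only [Polynomial.eval_pow, Polynomial.eval_X, Polynomial.eval_add, Polynomial.eval_mul,
    Polynomial.eval_C] at hab
  linear_combination hab

/-- two reflections of the other class spanning a non-degenerate plane: the product lies in the group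
generated by the class `c` -/
theorem reflClass_pair_mem (h2 : (2 : F) ≠ 0) (c : F) (hc : c ≠ 0) (x y : ι → F)
    (hx : ¬ IsSquare (c * Q x)) (hy : ¬ IsSquare (c * Q y)) (hx0 : Q x ≠ 0) (hy0 : Q y ≠ 0)
    (hd : 4 * Q x * Q y - (QuadraticMap.polar ⇑Q x y) ^ 2 ≠ 0) :
    reflO Q x hx0 * reflO Q y hy0 ∈ reflClassGroup Q c := by
  have h4 : (4 : F) ≠ 0 := by
    have e : (4 : F) = 2 * 2 := by norm_num
    rw [e]
    exact mul_ne_zero h2 h2
  have hr : (4 * Q x * Q y - (QuadraticMap.polar ⇑Q x y) ^ 2) / (4 * Q x) ≠ 0 :=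
    div_ne_zero hd (mul_ne_zero h4 hx0)
  obtain ⟨α', β, hαβ⟩ := reflClass_diag_repr h2 (Q x) _ c hx0 hr
  obtain ⟨α, hα⟩ : ∃ α : F, α = α' - β * QuadraticMap.polar ⇑Q x y / (2 * Q x) := ⟨_, rfl⟩
  have hQa : Q (α • x + β • y) = c := by
    rw [reflClass_q_lin, hα, ← hαβ]
    field_simp
    ring
  have ha0 : Q (α • x + β • y) ≠ 0 := by rw [hQa]; exact hc
  have hQb : Q ((α * Q x + β * QuadraticMap.polar ⇑Q x y) • y - (β * Q y) • x) = c * Q x * Q y := by
    rw [reflClass_q_b, hQa]
  have hb0 : Q ((α * Q x + β * QuadraticMap.polar ⇑Q x y) • y - (β * Q y) • x) ≠ 0 := by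
    rw [hQb]
    exact mul_ne_zero (mul_ne_zero hc hx0) hy0
  rw [← reflClass_pair_eq Q x y α β hx0 hy0 ha0 hb0]
  apply Subgroup.mul_mem
  · apply reflClass_reflO_mem Q c hc
    rw [hQa]
    exact ⟨c, rfl⟩
  · apply reflClass_reflO_mem Q c hc
    rw [hQb]
    have e : c * (c * Q x * Q y) = (c * Q x) * (c * Q y) := by ring
    rw [e]
    exact isSquare_mul_of_not h2 hx hy

/-- the intermediate vector, large field -/
theorem reflClass_exists_z_big (h2 : (2 : F) ≠ 0) (hQ : (QuadraticMap.polarBilin Q).Nondegenerate)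
    (hF : Fintype.card F ≠ 3) (x u : ι → F) (hx0 : Q x ≠ 0) (hu0 : u ≠ 0) (hu : Q u = 0)
    (hxu : QuadraticMap.polar ⇑Q x u = 0) :
    ∃ z, Q z = Q x ∧ 4 * Q x * Q z - (QuadraticMap.polar ⇑Q x z) ^ 2 ≠ 0 ∧
      4 * Q z * Q (x + u) - (QuadraticMap.polar ⇑Q z (x + u)) ^ 2 ≠ 0 := by
  classical
  obtain ⟨v₀, hv₀⟩ := reflClass_exists_partner Q hQ u hu0
  have hux : QuadraticMap.polar ⇑Q u x = 0 := by rw [QuadraticMap.polar_comm]; exact hxu
  have huu : QuadraticMap.polar ⇑Q u u = 0 := by
    rw [QuadraticMap.polar_self, hu, smul_zero]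
  have hxx : QuadraticMap.polar ⇑Q x x = 2 * Q x := by
    rw [QuadraticMap.polar_self, two_smul]
    ring
  obtain ⟨v, hv⟩ : ∃ v, v = v₀ + ((1 - QuadraticMap.polar ⇑Q x v₀) / (2 * Q x)) • x := ⟨_, rfl⟩
  have huv : QuadraticMap.polar ⇑Q u v = 1 := by
    rw [hv, QuadraticMap.polar_add_right, QuadraticMap.polar_smul_right, hux, hv₀, smul_zero, add_zero]
  have hxv : QuadraticMap.polar ⇑Q x v = 1 := by
    rw [hv, QuadraticMap.polar_add_right, QuadraticMap.polar_smul_right, hxx, smul_eq_mul]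
    field_simp
    ring
  have hvx : QuadraticMap.polar ⇑Q v x = 1 := by rw [QuadraticMap.polar_comm]; exact hxv
  have hvu : QuadraticMap.polar ⇑Q v u = 1 := by rw [QuadraticMap.polar_comm]; exact huv
  -- the scalar τ
  have hcardF : 3 < Fintype.card F := by
    have hR : Fintype.card F % 2 = 1 := FiniteField.odd_card_of_char_ne_two (ringChar_ne_two h2)
    have h1 : 1 < Fintype.card F := Fintype.one_lt_card
    omega
  obtain ⟨τ, -, hτ⟩ := Finset.exists_mem_notMem_of_card_lt_card
    (s := ({0, -(4 * Q x), -(2 * Q x)} : Finset F)) (t := Finset.univ)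
    (lt_of_le_of_lt Finset.card_le_three (by rw [Finset.card_univ]; exact hcardF))
  simp only [Finset.mem_insert, Finset.mem_singleton, not_or] at hτ
  obtain ⟨hτ0, hτ1, hτ2⟩ := hτ
  obtain ⟨σ, hσ⟩ : ∃ σ : F, σ = -(τ * Q v + 1) := ⟨_, rfl⟩
  have hQz : Q (x + τ • v + σ • u) = Q x := by
    rw [Helper13.Q_add', Helper13.Q_add', QuadraticMap.map_smul, QuadraticMap.map_smul, hu,
      QuadraticMap.polar_smul_right, QuadraticMap.polar_smul_right, QuadraticMap.polar_add_left,
      QuadraticMap.polar_smul_left, hxv, hxu, hvu, hσ]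
    simp only [smul_eq_mul]
    ring
  have hxz : QuadraticMap.polar ⇑Q x (x + τ • v + σ • u) = 2 * Q x + τ := by
    rw [QuadraticMap.polar_add_right, QuadraticMap.polar_add_right, QuadraticMap.polar_smul_right,
      QuadraticMap.polar_smul_right, hxx, hxv, hxu]
    simp only [smul_eq_mul]
    ring
  have hzx : QuadraticMap.polar ⇑Q (x + τ • v + σ • u) x = 2 * Q x + τ := by
    rw [QuadraticMap.polar_comm]; exact hxz
  have hzu : QuadraticMap.polar ⇑Q (x + τ • v + σ • u) u = τ := by
    rw [QuadraticMap.polar_add_left, QuadraticMap.polar_add_left, QuadraticMap.polar_smul_left,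
      QuadraticMap.polar_smul_left, hxu, hvu, huu]
    simp only [smul_eq_mul]
    ring
  have hQxu : Q (x + u) = Q x := by
    rw [Helper13.Q_add', hu, hxu]
    ring
  refine ⟨x + τ • v + σ • u, hQz, ?_, ?_⟩
  · rw [hQz, hxz]
    have e : 4 * Q x * Q x - (2 * Q x + τ) ^ 2 = -(τ * (τ + 4 * Q x)) := by ring
    rw [e]
    refine neg_ne_zero.mpr (mul_ne_zero hτ0 ?_)
    intro h
    exact hτ1 (by linear_combination h)
  · rw [hQz, hQxu, QuadraticMap.polar_add_right, hzx, hzu]
    have e : 4 * Q x * Q x - (2 * Q x + τ + τ) ^ 2 = -(2 * 2 * τ * (τ + 2 * Q x)) := by ring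
    rw [e]
    refine neg_ne_zero.mpr (mul_ne_zero (mul_ne_zero (mul_ne_zero h2 h2) hτ0) ?_)
    intro h
    exact hτ2 (by linear_combination h)

end ReflClassFin

end Cfsg.Agent.Helper30
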