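import Cfsg.Agent.Helper30.ReflClass

set_option autoImplicit false

universe u

namespace Cfsg.Agent.Helper30

open Cfsg Matrix
open Cfsg.Agent.Helper45

section ReflClassDim

variable {ι : Type} [Fintype ι] [DecidableEq ι] {F : Type u} [Field F] [Fintype F]
  (Q : QuadraticForm F (ι → F))

/-- the intermediate vector, large dimension -/
theorem reflClass_exists_z_dim (h2 : (2 : F) ≠ 0) (hQ : (QuadraticMap.polarBilin Q).Nondegenerate)
    (hdim : 5 ≤ Fintype.card ι) (x u : ι → F) (hx0 : Q x ≠ 0) (hu0 : u ≠ 0) (hu : Q u = 0)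
    (hxu : QuadraticMap.polar ⇑Q x u = 0) :
    ∃ z, Q z = Q x ∧ QuadraticMap.polar ⇑Q x z = 0 ∧ QuadraticMap.polar ⇑Q z u = 0 := by
  classical
  obtain ⟨v₀, hv₀⟩ := reflClass_exists_partner Q hQ u hu0
  have hux : QuadraticMap.polar ⇑Q u x = 0 := by rw [QuadraticMap.polar_comm]; exact hxu
  have huu : QuadraticMap.polar ⇑Q u u = 0 := by
    rw [QuadraticMap.polar_self, hu, smul_zero]
  have hxx : QuadraticMap.polar ⇑Q x x = 2 * Q x := by
    rw [QuadraticMap.polar_self, two_smul]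
    ring
  have h2x : 2 * Q x ≠ 0 := mul_ne_zero h2 hx0
  obtain ⟨v₁, hv₁⟩ : ∃ v₁, v₁ = v₀ - (QuadraticMap.polar ⇑Q x v₀ / (2 * Q x)) • x := ⟨_, rfl⟩
  have huv₁ : QuadraticMap.polar ⇑Q u v₁ = 1 := by
    rw [hv₁, QuadraticMap.polar_sub_right, QuadraticMap.polar_smul_right, hux, hv₀, smul_zero, sub_zero]
  have hxv₁ : QuadraticMap.polar ⇑Q x v₁ = 0 := by
    rw [hv₁, QuadraticMap.polar_sub_right, QuadraticMap.polar_smul_right, hxx, smul_eq_mul]
    field_simp
    ring
  obtain ⟨v, hv⟩ : ∃ v, v = v₁ - Q v₁ • u := ⟨_, rfl⟩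
  have huv : QuadraticMap.polar ⇑Q u v = 1 := by
    rw [hv, QuadraticMap.polar_sub_right, QuadraticMap.polar_smul_right, huu, huv₁, smul_zero, sub_zero]
  have hxv : QuadraticMap.polar ⇑Q x v = 0 := by
    rw [hv, QuadraticMap.polar_sub_right, QuadraticMap.polar_smul_right, hxu, hxv₁, smul_zero, sub_zero]
  have hQv : Q v = 0 := by
    rw [hv, q_sub, QuadraticMap.map_smul, hu, QuadraticMap.polar_smul_right,
      QuadraticMap.polar_comm ⇑Q v₁ u, huv₁]
    simp only [smul_eq_mul]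
    ring
  have hvv : QuadraticMap.polar ⇑Q v v = 0 := by
    rw [QuadraticMap.polar_self, hQv, smul_zero]
  have hvx : QuadraticMap.polar ⇑Q v x = 0 := by rw [QuadraticMap.polar_comm]; exact hxv
  have hvu : QuadraticMap.polar ⇑Q v u = 1 := by rw [QuadraticMap.polar_comm]; exact huv
  -- first projection
  obtain ⟨P₁, hP₁⟩ : ∃ P₁ : (ι → F) → (ι → F), ∀ t, P₁ t =
      t - (QuadraticMap.polar ⇑Q x t / (2 * Q x)) • x - QuadraticMap.polar ⇑Q v t • u -
        QuadraticMap.polar ⇑Q u t • v := ⟨_, fun _ => rfl⟩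
  have hP₁x : ∀ t, QuadraticMap.polar ⇑Q (P₁ t) x = 0 := by
    intro t
    rw [hP₁, QuadraticMap.polar_sub_left, QuadraticMap.polar_sub_left, QuadraticMap.polar_sub_left,
      QuadraticMap.polar_smul_left, QuadraticMap.polar_smul_left, QuadraticMap.polar_smul_left, hxx, hux,
      hvx, QuadraticMap.polar_comm ⇑Q t x]
    simp only [smul_eq_mul]
    field_simp
    ring
  have hP₁u : ∀ t, QuadraticMap.polar ⇑Q (P₁ t) u = 0 := by
    intro t
    rw [hP₁, QuadraticMap.polar_sub_left, QuadraticMap.polar_sub_left, QuadraticMap.polar_sub_left,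
      QuadraticMap.polar_smul_left, QuadraticMap.polar_smul_left, QuadraticMap.polar_smul_left, hxu, huu,
      hvu, QuadraticMap.polar_comm ⇑Q t u]
    simp only [smul_eq_mul]
    ring
  have hP₁v : ∀ t, QuadraticMap.polar ⇑Q (P₁ t) v = 0 := by
    intro t
    rw [hP₁, QuadraticMap.polar_sub_left, QuadraticMap.polar_sub_left, QuadraticMap.polar_sub_left,
      QuadraticMap.polar_smul_left, QuadraticMap.polar_smul_left, QuadraticMap.polar_smul_left, hxv, huv,
      hvv, QuadraticMap.polar_comm ⇑Q t v]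
    simp only [smul_eq_mul]
    ring
  have hT₁ : ({x, u, v} : Finset (ι → F)).card < Fintype.card ι :=
    lt_of_le_of_lt Finset.card_le_three (by omega)
  obtain ⟨z₁, hz₁, hQz₁⟩ := reflClass_exists_nonsing Q hQ ({x, u, v} : Finset (ι → F)) hT₁ P₁
    (by
      intro t
      have e : t - P₁ t = (QuadraticMap.polar ⇑Q x t / (2 * Q x)) • x + QuadraticMap.polar ⇑Q v t • u +
          QuadraticMap.polar ⇑Q u t • v := by
        rw [hP₁]
        abel
      rw [e]
      refine Submodule.add_mem _ (Submodule.add_mem _ ?_ ?_) ?_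
      · exact Submodule.smul_mem _ _ (Submodule.subset_span (by simp))
      · exact Submodule.smul_mem _ _ (Submodule.subset_span (by simp))
      · exact Submodule.smul_mem _ _ (Submodule.subset_span (by simp)))
    (by
      intro t s hs
      simp only [Finset.mem_insert, Finset.mem_singleton] at hs
      rcases hs with rfl | rfl | rfl
      · exact hP₁x t
      · exact hP₁u t
      · exact hP₁v t)
  have hz₁x : QuadraticMap.polar ⇑Q z₁ x = 0 := hz₁ x (by simp)
  have hz₁u : QuadraticMap.polar ⇑Q z₁ u = 0 := hz₁ u (by simp)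
  have hz₁v : QuadraticMap.polar ⇑Q z₁ v = 0 := hz₁ v (by simp)
  have hz₁z₁ : QuadraticMap.polar ⇑Q z₁ z₁ = 2 * Q z₁ := by
    rw [QuadraticMap.polar_self, two_smul]
    ring
  have h2z₁ : 2 * Q z₁ ≠ 0 := mul_ne_zero h2 hQz₁
  -- second projection
  obtain ⟨P₂, hP₂⟩ : ∃ P₂ : (ι → F) → (ι → F), ∀ t, P₂ t =
      P₁ t - (QuadraticMap.polar ⇑Q z₁ t / (2 * Q z₁)) • z₁ := ⟨_, fun _ => rfl⟩
  have hP₁z₁ : ∀ t, QuadraticMap.polar ⇑Q (P₁ t) z₁ = QuadraticMap.polar ⇑Q z₁ t := by
    intro t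
    rw [hP₁, QuadraticMap.polar_sub_left, QuadraticMap.polar_sub_left, QuadraticMap.polar_sub_left,
      QuadraticMap.polar_smul_left, QuadraticMap.polar_smul_left, QuadraticMap.polar_smul_left,
      QuadraticMap.polar_comm ⇑Q x z₁, QuadraticMap.polar_comm ⇑Q u z₁, QuadraticMap.polar_comm ⇑Q v z₁,
      hz₁x, hz₁u, hz₁v, QuadraticMap.polar_comm ⇑Q t z₁]
    simp only [smul_eq_mul]
    ring
  have hT₂ : ({x, u, v, z₁} : Finset (ι → F)).card < Fintype.card ι :=
    lt_of_le_of_lt Finset.card_le_four (by omega)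
  obtain ⟨z₂, hz₂, hQz₂⟩ := reflClass_exists_nonsing Q hQ ({x, u, v, z₁} : Finset (ι → F)) hT₂ P₂
    (by
      intro t
      have e : t - P₂ t = (QuadraticMap.polar ⇑Q x t / (2 * Q x)) • x + QuadraticMap.polar ⇑Q v t • u +
          QuadraticMap.polar ⇑Q u t • v + (QuadraticMap.polar ⇑Q z₁ t / (2 * Q z₁)) • z₁ := by
        rw [hP₂, hP₁]
        abel
      rw [e]
      refine Submodule.add_mem _ (Submodule.add_mem _ (Submodule.add_mem _ ?_ ?_) ?_) ?_
      · exact Submodule.smul_mem _ _ (Submodule.subset_span (by simp))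
      · exact Submodule.smul_mem _ _ (Submodule.subset_span (by simp))
      · exact Submodule.smul_mem _ _ (Submodule.subset_span (by simp))
      · exact Submodule.smul_mem _ _ (Submodule.subset_span (by simp)))
    (by
      intro t s hs
      simp only [Finset.mem_insert, Finset.mem_singleton] at hs
      rcases hs with rfl | rfl | rfl | rfl
      · rw [hP₂, QuadraticMap.polar_sub_left, QuadraticMap.polar_smul_left, hP₁x, hz₁x, smul_zero, sub_zero]
      · rw [hP₂, QuadraticMap.polar_sub_left, QuadraticMap.polar_smul_left, hP₁u, hz₁u, smul_zero, sub_zero]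
      · rw [hP₂, QuadraticMap.polar_sub_left, QuadraticMap.polar_smul_left, hP₁v, hz₁v, smul_zero, sub_zero]
      · rw [hP₂, QuadraticMap.polar_sub_left, QuadraticMap.polar_smul_left, hP₁z₁, hz₁z₁, smul_eq_mul]
        field_simp
        ring)
  have hz₂x : QuadraticMap.polar ⇑Q z₂ x = 0 := hz₂ x (by simp)
  have hz₂u : QuadraticMap.polar ⇑Q z₂ u = 0 := hz₂ u (by simp)
  have hz₂z₁ : QuadraticMap.polar ⇑Q z₂ z₁ = 0 := hz₂ z₁ (by simp)
  obtain ⟨α, β, hαβ⟩ := reflClass_diag_repr h2 (Q z₁) (Q z₂) (Q x) hQz₁ hQz₂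
  refine ⟨α • z₁ + β • z₂, ?_, ?_, ?_⟩
  · rw [reflClass_q_lin, QuadraticMap.polar_comm ⇑Q z₁ z₂, hz₂z₁, ← hαβ]
    ring
  · rw [QuadraticMap.polar_add_right, QuadraticMap.polar_smul_right, QuadraticMap.polar_smul_right,
      QuadraticMap.polar_comm ⇑Q x z₁, QuadraticMap.polar_comm ⇑Q x z₂, hz₁x, hz₂x, smul_zero, smul_zero,
      add_zero]
  · rw [QuadraticMap.polar_add_left, QuadraticMap.polar_smul_left, QuadraticMap.polar_smul_left, hz₁u, hz₂u,
      smul_zero, smul_zero, add_zero]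

end ReflClassDim

end Cfsg.Agent.Helper30
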