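import Cfsg.Agent.Helper30.ReflClass2

set_option autoImplicit false

universe u

namespace Cfsg.Agent.Helper30

open Cfsg Matrix
open Cfsg.Agent.Helper45

section ReflClassMain

variable {ι : Type} [Fintype ι] [DecidableEq ι] {F : Type u} [Field F] [Fintype F]
  (Q : QuadraticForm F (ι → F))

/-- two reflections of the other class spanning a degenerate plane -/
theorem reflClass_degenerate_mem (h2 : (2 : F) ≠ 0) (hQ : (QuadraticMap.polarBilin Q).Nondegenerate)
    (c : F) (hc : c ≠ 0) (hdim : Fintype.card F ≠ 3 ∨ 5 ≤ Fintype.card ι) (x u : ι → F)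
    (hx : ¬ IsSquare (c * Q x)) (hu0 : u ≠ 0) (hu : Q u = 0)
    (hxu : QuadraticMap.polar ⇑Q x u = 0) (hx0 : Q x ≠ 0) (hxu0 : Q (x + u) ≠ 0) :
    reflO Q x hx0 * reflO Q (x + u) hxu0 ∈ reflClassGroup Q c := by
  have hQxu : Q (x + u) = Q x := by
    rw [Helper13.Q_add', hu, hxu]
    ring
  have h4 : (4 : F) ≠ 0 := by
    have e : (4 : F) = 2 * 2 := by norm_num
    rw [e]
    exact mul_ne_zero h2 h2
  have hz : ∃ z, Q z = Q x ∧ 4 * Q x * Q z - (QuadraticMap.polar ⇑Q x z) ^ 2 ≠ 0 ∧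
      4 * Q z * Q (x + u) - (QuadraticMap.polar ⇑Q z (x + u)) ^ 2 ≠ 0 := by
    rcases hdim with hF | hdim
    · exact reflClass_exists_z_big Q h2 hQ hF x u hx0 hu0 hu hxu
    · obtain ⟨z, hQz, hxz, hzu⟩ := reflClass_exists_z_dim Q h2 hQ hdim x u hx0 hu0 hu hxu
      refine ⟨z, hQz, ?_, ?_⟩
      · rw [hQz, hxz]
        have e : 4 * Q x * Q x - (0 : F) ^ 2 = 4 * Q x * Q x := by ring
        rw [e]
        exact mul_ne_zero (mul_ne_zero h4 hx0) hx0
      · rw [hQz, hQxu, QuadraticMap.polar_add_right, QuadraticMap.polar_comm ⇑Q z x, hxz, hzu]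
        have e : 4 * Q x * Q x - ((0 : F) + 0) ^ 2 = 4 * Q x * Q x := by ring
        rw [e]
        exact mul_ne_zero (mul_ne_zero h4 hx0) hx0
  obtain ⟨z, hQz, hd1, hd2⟩ := hz
  have hz0 : Q z ≠ 0 := by rw [hQz]; exact hx0
  have hzc : ¬ IsSquare (c * Q z) := by rw [hQz]; exact hx
  have hxuc : ¬ IsSquare (c * Q (x + u)) := by rw [hQxu]; exact hx
  have e : reflO Q x hx0 * reflO Q (x + u) hxu0 =
      (reflO Q x hx0 * reflO Q z hz0) * (reflO Q z hz0 * reflO Q (x + u) hxu0) := by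
    rw [mul_assoc, ← mul_assoc (reflO Q z hz0), reflO_mul_self, one_mul]
  rw [e]
  exact Subgroup.mul_mem _ (reflClass_pair_mem Q h2 c hc x z hx hzc hx0 hz0 hd1)
    (reflClass_pair_mem Q h2 c hc z (x + u) hzc hxuc hz0 hxu0 hd2)

/-- any two reflections of the other class have their product in the group generated by the class `c` -/
theorem reflClass_other_pair_mem (h2 : (2 : F) ≠ 0) (hQ : (QuadraticMap.polarBilin Q).Nondegenerate)
    (c : F) (hc : c ≠ 0)
    (hdim : Fintype.card F ≠ 3 ∨ 5 ≤ Fintype.card ι ∨ Fintype.card ι ≤ 2) (x y : ι → F)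
    (hx : ¬ IsSquare (c * Q x)) (hy : ¬ IsSquare (c * Q y)) (hx0 : Q x ≠ 0) (hy0 : Q y ≠ 0) :
    reflO Q x hx0 * reflO Q y hy0 ∈ reflClassGroup Q c := by
  by_cases hd : 4 * Q x * Q y - (QuadraticMap.polar ⇑Q x y) ^ 2 = 0
  · have hB0 : QuadraticMap.polar ⇑Q x y ≠ 0 := by
      intro h
      rw [h] at hd
      have h4 : (4 : F) ≠ 0 := by
        have e : (4 : F) = 2 * 2 := by norm_num
        rw [e]
        exact mul_ne_zero h2 h2
      have e : 4 * Q x * Q y = 0 := by linear_combination hd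
      exact (mul_ne_zero (mul_ne_zero h4 hx0) hy0) e
    have h2x : 2 * Q x ≠ 0 := mul_ne_zero h2 hx0
    obtain ⟨μ, hμ⟩ : ∃ μ : F, μ = 2 * Q x / QuadraticMap.polar ⇑Q x y := ⟨_, rfl⟩
    have hμ0 : μ ≠ 0 := by
      rw [hμ]
      exact div_ne_zero h2x hB0
    have hμy : Q (μ • y) ≠ 0 := by
      rw [QuadraticMap.map_smul, smul_eq_mul]
      exact mul_ne_zero (mul_ne_zero hμ0 hμ0) hy0
    have hry : reflO Q y hy0 = reflO Q (μ • y) hμy := (reflO_smul Q μ hμ0 y hy0 hμy).symm
    obtain ⟨u, hu⟩ : ∃ u, u = μ • y - x := ⟨_, rfl⟩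
    have hxu_eq : x + u = μ • y := by
      rw [hu]
      abel
    have hxu0 : Q (x + u) ≠ 0 := by rw [hxu_eq]; exact hμy
    have hQu : Q u = 0 := by
      rw [hu, q_sub, QuadraticMap.map_smul, QuadraticMap.polar_smul_left,
        QuadraticMap.polar_comm ⇑Q y x, hμ]
      simp only [smul_eq_mul]
      field_simp
      linear_combination (Q x) * hd
    have hxu : QuadraticMap.polar ⇑Q x u = 0 := by
      rw [hu, QuadraticMap.polar_sub_right, QuadraticMap.polar_smul_right, QuadraticMap.polar_self,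
        two_smul, hμ]
      simp only [smul_eq_mul]
      field_simp
      ring
    rw [hry, reflClass_reflO_congr Q (μ • y) (x + u) hxu_eq.symm hμy hxu0]
    by_cases hu0 : u = 0
    · have e : reflO Q (x + u) hxu0 = reflO Q x hx0 :=
        reflClass_reflO_congr Q (x + u) x (by rw [hu0, add_zero]) hxu0 hx0
      rw [e, reflO_mul_self]
      exact Subgroup.one_mem _
    · have h3 := reflClass_three_le Q h2 hQ x u hx0 hu0 hQu hxu
      have hdim' : Fintype.card F ≠ 3 ∨ 5 ≤ Fintype.card ι := by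
        rcases hdim with h | h | h
        · exact Or.inl h
        · exact Or.inr h
        · omega
      exact reflClass_degenerate_mem Q h2 hQ c hc hdim' x u hx hu0 hQu hxu hx0 hxu0
  · exact reflClass_pair_mem Q h2 c hc x y hx hy hx0 hy0 hd

/-- **The reflections in vectors of a fixed norm class generate a subgroup of index two.** -/
theorem reflClassGroup_index (h2 : (2 : F) ≠ 0) (hQ : (QuadraticMap.polarBilin Q).Nondegenerate)
    (hcard : 2 ≤ Fintype.card ι)
    (hdim : Fintype.card F ≠ 3 ∨ 5 ≤ Fintype.card ι ∨ Fintype.card ι ≤ 2) (c : F) (hc : c ≠ 0) :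
    (reflClassGroup Q c).index = 2 := by
  obtain ⟨ε, hε⟩ := FiniteField.exists_nonsquare (ringChar_ne_two h2)
  have hε0 : ε ≠ 0 := by
    rintro rfl
    exact hε ⟨0, by simp⟩
  obtain ⟨x₀, hx₀⟩ := exists_norm_eq Q h2 hQ hcard (c * ε)
  have hx0 : Q x₀ ≠ 0 := by rw [hx₀]; exact mul_ne_zero hc hε0
  have hxns : ¬ IsSquare (c * Q x₀) := by
    rw [hx₀, ← mul_assoc]
    exact fun h => hε ((isSquare_sq_mul_iff hc).mp h)
  have hcε : c * ε ≠ 0 := mul_ne_zero hc hε0
  -- the character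
  have hχR : ∀ g ∈ reflClassGroup Q c, spin ⇑Q (c * ε) g = 1 := by
    intro g hg
    have hle : reflClassGroup Q c ≤ (spin ⇑Q (c * ε)).ker := by
      refine (Subgroup.closure_le _).mpr ?_
      intro g hg
      obtain ⟨v, hv, hsq, rfl⟩ := reflClass_set_eq Q c hc g hg
      refine MonoidHom.mem_ker.mpr ((spin_refl Q h2 (c * ε) hcε v hv _ (mv_reflO Q v hv)).2 ?_)
      have e : c * ε * Q v = ε * (c * Q v) := by ring
      rw [e]
      exact not_isSquare_mul hε hsq (mul_ne_zero hc hv)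
    exact MonoidHom.mem_ker.mp (hle hg)
  have hχr : spin ⇑Q (c * ε) (reflO Q x₀ hx0) = -1 := by
    refine (spin_refl Q h2 (c * ε) hcε x₀ hx0 _ (mv_reflO Q x₀ hx0)).1 ?_
    have e : c * ε * Q x₀ = ε * (c * Q x₀) := by ring
    rw [e]
    exact isSquare_mul_of_not h2 hε hxns
  have hr_notin : reflO Q x₀ hx0 ∉ reflClassGroup Q c := by
    intro h
    have h1 := hχR _ h
    rw [hχr] at h1
    exact absurd h1 (by decide)
  have hrr : reflO Q x₀ hx0 * reflO Q x₀ hx0 = 1 := reflO_mul_self Q x₀ hx0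
  have hrinv : (reflO Q x₀ hx0)⁻¹ = reflO Q x₀ hx0 := inv_eq_of_mul_eq_one_right hrr
  have key : ∀ g : ↥(isometryGroup F ⇑Q), g ∈ reflClassGroup Q c ∨
      reflO Q x₀ hx0 * g ∈ reflClassGroup Q c := by
    intro g
    have hg : g ∈ reflGroup Q := by
      rw [reflGroup_eq_top Q h2 hQ]
      trivial
    refine Subgroup.closure_induction (p := fun g _ => g ∈ reflClassGroup Q c ∨
      reflO Q x₀ hx0 * g ∈ reflClassGroup Q c) ?_ ?_ ?_ ?_ hg
    · rintro g ⟨v, hv, rfl⟩
      by_cases hsq : IsSquare (c * Q v)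
      · exact Or.inl (reflClass_reflO_mem Q c hc v hv hsq)
      · exact Or.inr (reflClass_other_pair_mem Q h2 hQ c hc hdim x₀ v hxns hsq hx0 hv)
    · exact Or.inl (Subgroup.one_mem _)
    · intro a b _ _ ha hb
      rcases ha with ha | ha <;> rcases hb with hb | hb
      · exact Or.inl (Subgroup.mul_mem _ ha hb)
      · right
        have h1 := reflClassGroup_conj Q c hc (reflO Q x₀ hx0) a ha
        have e : reflO Q x₀ hx0 * (a * b) =
            (reflO Q x₀ hx0 * a * (reflO Q x₀ hx0)⁻¹) * (reflO Q x₀ hx0 * b) := by group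
        rw [e]
        exact Subgroup.mul_mem _ h1 hb
      · right
        rw [← mul_assoc]
        exact Subgroup.mul_mem _ ha hb
      · left
        have h1 := reflClassGroup_conj Q c hc (reflO Q x₀ hx0) _ ha
        have e : a * b = (reflO Q x₀ hx0 * (reflO Q x₀ hx0 * a) * (reflO Q x₀ hx0)⁻¹) *
            (reflO Q x₀ hx0 * b) := by
          rw [hrinv, ← mul_assoc (reflO Q x₀ hx0) (reflO Q x₀ hx0) a, hrr, one_mul, mul_assoc a,
            ← mul_assoc (reflO Q x₀ hx0) (reflO Q x₀ hx0) b, hrr, one_mul]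
        rw [e]
        exact Subgroup.mul_mem _ h1 hb
    · intro a _ ha
      rcases ha with ha | ha
      · exact Or.inl (Subgroup.inv_mem _ ha)
      · right
        have h1 := reflClassGroup_conj Q c hc (reflO Q x₀ hx0) _ (Subgroup.inv_mem _ ha)
        have e : reflO Q x₀ hx0 * a⁻¹ =
            reflO Q x₀ hx0 * (reflO Q x₀ hx0 * a)⁻¹ * (reflO Q x₀ hx0)⁻¹ := by
          rw [_root_.mul_inv_rev, hrinv, mul_assoc, mul_assoc, hrr, mul_one]
        rw [e]
        exact h1
  rw [Subgroup.index_eq_two_iff]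
  refine ⟨reflO Q x₀ hx0, fun b => ?_⟩
  rcases key b with hb | hb
  · right
    refine ⟨hb, fun h => hr_notin ?_⟩
    have h1 := Subgroup.mul_mem _ (Subgroup.inv_mem _ hb) h
    rw [inv_mul_cancel_left] at h1
    exact h1
  · left
    constructor
    · have h1 := reflClassGroup_conj Q c hc (reflO Q x₀ hx0)⁻¹ _ hb
      have e : (reflO Q x₀ hx0)⁻¹ * (reflO Q x₀ hx0 * b) * (reflO Q x₀ hx0)⁻¹⁻¹ = b * reflO Q x₀ hx0 := by
        group
      rw [e] at h1
      exact h1
    · intro h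
      apply hr_notin
      have h1 := Subgroup.mul_mem _ hb (Subgroup.inv_mem _ h)
      rw [mul_inv_cancel_right] at h1
      exact h1

end ReflClassMain

end Cfsg.Agent.Helper30
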