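import Cfsg.Agent.Helper30.ReflClass3

set_option autoImplicit false

universe u

namespace Cfsg.Agent.Helper30

open Cfsg Matrix
open Cfsg.Agent.Helper45

section ReflPrimBasic

variable {ι : Type} [Fintype ι] [DecidableEq ι] {F : Type u} [Field F]
  (Q : QuadraticForm F (ι → F))

/-- equal reflections have proportional centres -/
theorem reflPrim_reflO_eq_imp (h2 : (2 : F) ≠ 0) (a b : ι → F) (ha : Q a ≠ 0) (hb : Q b ≠ 0)
    (h : reflO Q a ha = reflO Q b hb) : ∃ l : F, b = l • a := by
  have h1 : mv ⇑Q (reflO Q a ha) b = mv ⇑Q (reflO Q b hb) b := by rw [h]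
  rw [mv_reflO, mv_reflO, QuadraticMap.polar_self, two_smul] at h1
  have h3 : ((Q a)⁻¹ * QuadraticMap.polar ⇑Q a b) • a = ((Q b)⁻¹ * (Q b + Q b)) • b :=
    sub_right_injective h1
  have h4 : (Q b)⁻¹ * (Q b + Q b) = 2 := by
    field_simp
    ring
  rw [h4] at h3
  refine ⟨2⁻¹ * ((Q a)⁻¹ * QuadraticMap.polar ⇑Q a b), ?_⟩
  rw [mul_smul, h3, smul_smul, inv_mul_cancel₀ h2, one_smul]

/-- reflections in orthogonal vectors are different -/
theorem reflPrim_reflO_ne_of_perp (h2 : (2 : F) ≠ 0) (a b : ι → F) (ha : Q a ≠ 0) (hb : Q b ≠ 0)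
    (hab : QuadraticMap.polar ⇑Q a b = 0) : reflO Q a ha ≠ reflO Q b hb := by
  intro h
  obtain ⟨l, hl⟩ := reflPrim_reflO_eq_imp Q h2 a b ha hb h
  rw [hl, QuadraticMap.polar_smul_right, QuadraticMap.polar_self, two_smul, smul_eq_mul] at hab
  have hl0 : l = 0 := by
    rcases mul_eq_zero.mp hab with h3 | h3
    · exact h3
    · exfalso
      have h5 : 2 * Q a = 0 := by linear_combination h3
      exact (mul_ne_zero h2 ha) h5
  rw [hl0, zero_smul] at hl
  rw [hl, QuadraticMap.map_zero] at hb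
  exact hb rfl

/-- reflections in orthogonal vectors commute -/
theorem reflPrim_commute_of_perp (v w : ι → F) (hv : Q v ≠ 0) (hw : Q w ≠ 0)
    (hvw : QuadraticMap.polar ⇑Q v w = 0) :
    reflO Q v hv * reflO Q w hw = reflO Q w hw * reflO Q v hv := by
  have hwv : QuadraticMap.polar ⇑Q w v = 0 := by rw [QuadraticMap.polar_comm]; exact hvw
  apply ext_mv
  intro x
  rw [mv_mul, mv_mul, mv_reflO, mv_reflO, mv_reflO, mv_reflO, QuadraticMap.polar_sub_right,
    QuadraticMap.polar_sub_right, QuadraticMap.polar_smul_right, QuadraticMap.polar_smul_right, hvw, hwv]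
  simp only [smul_zero, sub_zero]
  abel

/-- commuting reflections are equal or have orthogonal centres -/
theorem reflPrim_perp_of_commute (h2 : (2 : F) ≠ 0) (v w : ι → F) (hv : Q v ≠ 0) (hw : Q w ≠ 0)
    (h : reflO Q v hv * reflO Q w hw = reflO Q w hw * reflO Q v hv) :
    QuadraticMap.polar ⇑Q v w = 0 ∨ reflO Q v hv = reflO Q w hw := by
  by_cases hB : QuadraticMap.polar ⇑Q v w = 0
  · exact Or.inl hB
  · right
    have h1 : mv ⇑Q (reflO Q v hv * reflO Q w hw) w = mv ⇑Q (reflO Q w hw * reflO Q v hv) w := by rw [h]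
    rw [mv_mul, mv_mul, mv_reflO, mv_reflO, mv_reflO, mv_reflO, QuadraticMap.polar_sub_right,
      QuadraticMap.polar_sub_right, QuadraticMap.polar_smul_right, QuadraticMap.polar_smul_right,
      QuadraticMap.polar_self, QuadraticMap.polar_comm ⇑Q w v] at h1
    simp only [smul_eq_mul, two_smul] at h1
    have h4 : (Q w)⁻¹ * (Q w + Q w) = 2 := by
      field_simp
      ring
    rw [h4] at h1
    obtain ⟨B, hBdef⟩ : ∃ B : F, B = QuadraticMap.polar ⇑Q v w := ⟨_, rfl⟩
    rw [← hBdef] at h1 hB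
    have h5 : (2 * ((Q v)⁻¹ * B)) • v = ((Q w)⁻¹ * ((Q v)⁻¹ * B * B)) • w := by
      have e1 : (Q w)⁻¹ * (Q w + Q w - (Q v)⁻¹ * B * B) = 2 - (Q w)⁻¹ * ((Q v)⁻¹ * B * B) := by
        field_simp
        ring
      rw [e1] at h1
      linear_combination (norm := module) h1
    have hk : 2 * ((Q v)⁻¹ * B) ≠ 0 := mul_ne_zero h2 (mul_ne_zero (inv_ne_zero hv) hB)
    have hm : (2 * ((Q v)⁻¹ * B))⁻¹ * ((Q w)⁻¹ * ((Q v)⁻¹ * B * B)) ≠ 0 :=
      mul_ne_zero (inv_ne_zero hk)
        (mul_ne_zero (inv_ne_zero hw) (mul_ne_zero (mul_ne_zero (inv_ne_zero hv) hB) hB))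
    have hvw : v = ((2 * ((Q v)⁻¹ * B))⁻¹ * ((Q w)⁻¹ * ((Q v)⁻¹ * B * B))) • w := by
      rw [mul_smul, ← h5, smul_smul, inv_mul_cancel₀ hk, one_smul]
    have hμw : Q (((2 * ((Q v)⁻¹ * B))⁻¹ * ((Q w)⁻¹ * ((Q v)⁻¹ * B * B))) • w) ≠ 0 := by
      rw [← hvw]
      exact hv
    rw [reflClass_reflO_congr Q v _ hvw hv hμw]
    exact reflO_smul Q _ hm w hw hμw

omit [DecidableEq ι] in
theorem reflPrim_polar_sum_left (T : Finset (ι → F)) (k : (ι → F) → F) (y : ι → F) :
    QuadraticMap.polar ⇑Q (∑ s ∈ T, k s • s) y = ∑ s ∈ T, k s * QuadraticMap.polar ⇑Q s y := by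
  have h := map_sum ((QuadraticMap.polarBilin Q).flip y) (fun s => k s • s) T
  simp only [LinearMap.flip_apply, QuadraticMap.polarBilin_apply_apply] at h
  rw [h]
  exact Finset.sum_congr rfl (fun s _ => by rw [QuadraticMap.polar_smul_left, smul_eq_mul])

/-- a non-singular vector orthogonal to a small orthogonal system of non-singular vectors -/
theorem reflPrim_orth_extend (h2 : (2 : F) ≠ 0) (hQ : (QuadraticMap.polarBilin Q).Nondegenerate)
    (T : Finset (ι → F)) (hT : ∀ s ∈ T, Q s ≠ 0)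
    (horth : ∀ s ∈ T, ∀ s' ∈ T, s ≠ s' → QuadraticMap.polar ⇑Q s s' = 0)
    (hcard : T.card < Fintype.card ι) :
    ∃ w, (∀ s ∈ T, QuadraticMap.polar ⇑Q w s = 0) ∧ Q w ≠ 0 := by
  classical
  refine reflClass_exists_nonsing Q hQ T hcard
    (fun t => t - ∑ s ∈ T, (QuadraticMap.polar ⇑Q s t / (2 * Q s)) • s) ?_ ?_
  · intro t
    rw [sub_sub_cancel]
    exact Submodule.sum_mem _ (fun s hs => Submodule.smul_mem _ _ (Submodule.subset_span hs))
  · intro t s' hs'
    rw [QuadraticMap.polar_sub_left, reflPrim_polar_sum_left, Finset.sum_eq_single s']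
    · rw [QuadraticMap.polar_self, two_smul, QuadraticMap.polar_comm ⇑Q t s']
      have h3 : 2 * Q s' ≠ 0 := mul_ne_zero h2 (hT s' hs')
      rw [div_mul_eq_mul_div, sub_eq_zero, eq_div_iff h3]
      ring
    · intro b hb hbs
      rw [horth b hb s' hs' hbs, mul_zero]
    · intro h
      exact absurd hs' h

end ReflPrimBasic

section ReflPrimFin

variable {ι : Type} [Fintype ι] [DecidableEq ι] {F : Type u} [Field F] [Fintype F]
  (Q : QuadraticForm F (ι → F))

/-- a vector of prescribed norm orthogonal to a small orthogonal system of non-singular vectors -/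
theorem reflPrim_orth_repr (h2 : (2 : F) ≠ 0) (hQ : (QuadraticMap.polarBilin Q).Nondegenerate)
    (T : Finset (ι → F)) (hT : ∀ s ∈ T, Q s ≠ 0)
    (horth : ∀ s ∈ T, ∀ s' ∈ T, s ≠ s' → QuadraticMap.polar ⇑Q s s' = 0)
    (hcard : T.card + 1 < Fintype.card ι) (d : F) :
    ∃ z, (∀ s ∈ T, QuadraticMap.polar ⇑Q z s = 0) ∧ Q z = d := by
  classical
  obtain ⟨z₁, hz₁, hQz₁⟩ := reflPrim_orth_extend Q h2 hQ T hT horth (by omega)
  have hT' : ∀ s ∈ insert z₁ T, Q s ≠ 0 := by
    intro s hs
    rcases Finset.mem_insert.mp hs with rfl | hs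
    · exact hQz₁
    · exact hT s hs
  have horth' : ∀ s ∈ insert z₁ T, ∀ s' ∈ insert z₁ T, s ≠ s' → QuadraticMap.polar ⇑Q s s' = 0 := by
    intro s hs s' hs' hne
    rw [Finset.mem_insert] at hs hs'
    rcases hs with h1 | h1 <;> rcases hs' with h1' | h1'
    · exact absurd (h1.trans h1'.symm) hne
    · rw [h1]
      exact hz₁ s' h1'
    · rw [h1', QuadraticMap.polar_comm]
      exact hz₁ s h1
    · exact horth s h1 s' h1' hne
  have hcard' : (insert z₁ T).card < Fintype.card ι :=
    lt_of_le_of_lt (Finset.card_insert_le z₁ T) hcard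
  obtain ⟨z₂, hz₂, hQz₂⟩ := reflPrim_orth_extend Q h2 hQ (insert z₁ T) hT' horth' hcard'
  have hz₂z₁ : QuadraticMap.polar ⇑Q z₂ z₁ = 0 := hz₂ z₁ (Finset.mem_insert_self z₁ T)
  obtain ⟨α, β, hαβ⟩ := reflClass_diag_repr h2 (Q z₁) (Q z₂) d hQz₁ hQz₂
  refine ⟨α • z₁ + β • z₂, ?_, ?_⟩
  · intro s hs
    rw [QuadraticMap.polar_add_left, QuadraticMap.polar_smul_left, QuadraticMap.polar_smul_left, hz₁ s hs,
      hz₂ s (Finset.mem_insert_of_mem hs), smul_zero, smul_zero, add_zero]
  · rw [reflClass_q_lin, QuadraticMap.polar_comm ⇑Q z₁ z₂, hz₂z₁, ← hαβ]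
    ring

/-- the component of `w` orthogonal to the non-singular vector `v` -/
theorem reflPrim_perp_part (h2 : (2 : F) ≠ 0) (v w : ι → F) (hv : Q v ≠ 0) :
    QuadraticMap.polar ⇑Q v (w - (QuadraticMap.polar ⇑Q v w / (2 * Q v)) • v) = 0 ∧
    ∀ z, QuadraticMap.polar ⇑Q z v = 0 →
      QuadraticMap.polar ⇑Q z w =
        QuadraticMap.polar ⇑Q z (w - (QuadraticMap.polar ⇑Q v w / (2 * Q v)) • v) := by
  have h3 : 2 * Q v ≠ 0 := mul_ne_zero h2 hv
  constructor
  · rw [QuadraticMap.polar_sub_right, QuadraticMap.polar_smul_right, QuadraticMap.polar_self, two_smul,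
      smul_eq_mul]
    field_simp
    ring
  · intro z hz
    rw [QuadraticMap.polar_sub_right, QuadraticMap.polar_smul_right, hz, smul_zero, sub_zero]

omit [Fintype F] in
/-- a singular partner `y` of the singular vector `u`, orthogonal to the non-singular vector `x` -/
theorem reflPrim_exists_hyp_partner (h2 : (2 : F) ≠ 0) (hQ : (QuadraticMap.polarBilin Q).Nondegenerate)
    (x u : ι → F) (hx0 : Q x ≠ 0) (hu0 : u ≠ 0) (hu : Q u = 0)
    (hxu : QuadraticMap.polar ⇑Q x u = 0) :
    ∃ y, Q y = 0 ∧ QuadraticMap.polar ⇑Q u y = 1 ∧ QuadraticMap.polar ⇑Q x y = 0 := by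
  obtain ⟨v₀, hv₀⟩ := reflClass_exists_partner Q hQ u hu0
  have hux : QuadraticMap.polar ⇑Q u x = 0 := by rw [QuadraticMap.polar_comm]; exact hxu
  have huu : QuadraticMap.polar ⇑Q u u = 0 := by
    rw [QuadraticMap.polar_self, hu, smul_zero]
  have hxx : QuadraticMap.polar ⇑Q x x = 2 * Q x := by
    rw [QuadraticMap.polar_self, two_smul]
    ring
  have h2x : 2 * Q x ≠ 0 := mul_ne_zero h2 hx0
  obtain ⟨v₁, hv₁⟩ : ∃ v₁, v₁ = v₀ - (QuadraticMap.polar ⇑Q x v₀ / (2 * Q x)) • x := ⟨_, rfl⟩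
  have huv₁ : QuadraticMap.polar ⇑Q u v₁ = 1 := by
    rw [hv₁, QuadraticMap.polar_sub_right, QuadraticMap.polar_smul_right, hux, hv₀, smul_zero, sub_zero]
  have hxv₁ : QuadraticMap.polar ⇑Q x v₁ = 0 := by
    rw [hv₁, QuadraticMap.polar_sub_right, QuadraticMap.polar_smul_right, hxx, smul_eq_mul,
      div_mul_cancel₀ _ h2x, sub_self]
  refine ⟨v₁ - Q v₁ • u, ?_, ?_, ?_⟩
  · rw [q_sub, QuadraticMap.map_smul, hu, QuadraticMap.polar_smul_right,
      QuadraticMap.polar_comm ⇑Q v₁ u, huv₁]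
    simp only [smul_eq_mul]
    ring
  · rw [QuadraticMap.polar_sub_right, QuadraticMap.polar_smul_right, huu, huv₁, smul_zero, sub_zero]
  · rw [QuadraticMap.polar_sub_right, QuadraticMap.polar_smul_right, hxu, hxv₁, smul_zero, sub_zero]

/-- a vector of prescribed norm orthogonal to a non-singular vector and to a non-zero singular vector
orthogonal to it -/
theorem reflPrim_exists_z_sing (h2 : (2 : F) ≠ 0) (hQ : (QuadraticMap.polarBilin Q).Nondegenerate)
    (hdim : 5 ≤ Fintype.card ι) (x u : ι → F) (hx0 : Q x ≠ 0) (hu0 : u ≠ 0) (hu : Q u = 0)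
    (hxu : QuadraticMap.polar ⇑Q x u = 0) (d : F) :
    ∃ z, Q z = d ∧ QuadraticMap.polar ⇑Q z x = 0 ∧ QuadraticMap.polar ⇑Q z u = 0 := by
  classical
  obtain ⟨y, hy, huy, hxy⟩ := reflPrim_exists_hyp_partner Q h2 hQ x u hx0 hu0 hu hxu
  have huu : QuadraticMap.polar ⇑Q u u = 0 := by
    rw [QuadraticMap.polar_self, hu, smul_zero]
  have hyy : QuadraticMap.polar ⇑Q y y = 0 := by
    rw [QuadraticMap.polar_self, hy, smul_zero]
  have hyu : QuadraticMap.polar ⇑Q y u = 1 := by rw [QuadraticMap.polar_comm]; exact huy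
  have hQa : Q (u + y) = 1 := by
    rw [Helper13.Q_add', hu, hy, huy]
    ring
  have hQb : Q (u - y) = -1 := by
    rw [q_sub, hu, hy, huy]
    ring
  have hab : QuadraticMap.polar ⇑Q (u + y) (u - y) = 0 := by
    rw [QuadraticMap.polar_add_left, QuadraticMap.polar_sub_right, QuadraticMap.polar_sub_right, huu, hyy,
      huy, hyu]
    ring
  have hxa : QuadraticMap.polar ⇑Q x (u + y) = 0 := by
    rw [QuadraticMap.polar_add_right, hxu, hxy, add_zero]
  have hxb : QuadraticMap.polar ⇑Q x (u - y) = 0 := by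
    rw [QuadraticMap.polar_sub_right, hxu, hxy, sub_zero]
  have hT : ∀ s ∈ ({x, u + y, u - y} : Finset (ι → F)), Q s ≠ 0 := by
    intro s hs
    simp only [Finset.mem_insert, Finset.mem_singleton] at hs
    rcases hs with rfl | rfl | rfl
    · exact hx0
    · rw [hQa]; exact one_ne_zero
    · rw [hQb]; exact neg_ne_zero.mpr one_ne_zero
  have horth : ∀ s ∈ ({x, u + y, u - y} : Finset (ι → F)), ∀ s' ∈ ({x, u + y, u - y} : Finset (ι → F)),
      s ≠ s' → QuadraticMap.polar ⇑Q s s' = 0 := by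
    intro s hs s' hs' hne
    simp only [Finset.mem_insert, Finset.mem_singleton] at hs hs'
    rcases hs with rfl | rfl | rfl <;> rcases hs' with rfl | rfl | rfl
    · exact absurd rfl hne
    · exact hxa
    · exact hxb
    · rw [QuadraticMap.polar_comm]; exact hxa
    · exact absurd rfl hne
    · exact hab
    · rw [QuadraticMap.polar_comm]; exact hxb
    · rw [QuadraticMap.polar_comm]; exact hab
    · exact absurd rfl hne
  have hcard : ({x, u + y, u - y} : Finset (ι → F)).card + 1 < Fintype.card ι := by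
    have := Finset.card_le_three (a := x) (b := u + y) (c := u - y)
    omega
  obtain ⟨z, hz, hQz⟩ := reflPrim_orth_repr Q h2 hQ _ hT horth hcard d
  have hzx : QuadraticMap.polar ⇑Q z x = 0 := hz x (by simp)
  have hza : QuadraticMap.polar ⇑Q z (u + y) = 0 := hz (u + y) (by simp)
  have hzb : QuadraticMap.polar ⇑Q z (u - y) = 0 := hz (u - y) (by simp)
  refine ⟨z, hQz, hzx, ?_⟩
  rw [QuadraticMap.polar_add_right] at hza
  rw [QuadraticMap.polar_sub_right] at hzb
  have h4 : 2 * QuadraticMap.polar ⇑Q z u = 0 := by linear_combination hza + hzb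
  rcases mul_eq_zero.mp h4 with h5 | h5
  · exact absurd h5 h2
  · exact h5

/-- (K1) a vector of prescribed norm orthogonal to a non-singular vector `v` and an arbitrary vector `w` -/
theorem reflPrim_exists_perp_pair (h2 : (2 : F) ≠ 0) (hQ : (QuadraticMap.polarBilin Q).Nondegenerate)
    (hdim : 5 ≤ Fintype.card ι) (v w : ι → F) (hv : Q v ≠ 0) (d : F) :
    ∃ z, Q z = d ∧ QuadraticMap.polar ⇑Q z v = 0 ∧ QuadraticMap.polar ⇑Q z w = 0 := by
  classical
  obtain ⟨hvw', hz_all⟩ := reflPrim_perp_part Q h2 v w hv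
  obtain ⟨w', hw'⟩ : ∃ w', w' = w - (QuadraticMap.polar ⇑Q v w / (2 * Q v)) • v := ⟨_, rfl⟩
  rw [← hw'] at hvw'
  have key : ∃ z, Q z = d ∧ QuadraticMap.polar ⇑Q z v = 0 ∧ QuadraticMap.polar ⇑Q z w' = 0 := by
    by_cases hQw' : Q w' = 0
    · by_cases hw'0 : w' = 0
      · obtain ⟨z, hz, hQz⟩ := reflPrim_orth_repr Q h2 hQ ({v} : Finset (ι → F))
          (by intro s hs; rw [Finset.mem_singleton] at hs; rw [hs]; exact hv)
          (by
            intro s hs s' hs' hne
            rw [Finset.mem_singleton] at hs hs'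
            rw [hs, hs'] at hne
            exact absurd rfl hne)
          (by rw [Finset.card_singleton]; omega) d
        refine ⟨z, hQz, hz v (by simp), ?_⟩
        rw [hw'0]
        exact QuadraticMap.polar_zero_right Q z
      · exact reflPrim_exists_z_sing Q h2 hQ hdim v w' hv hw'0 hQw' hvw' d
    · have hw'v : QuadraticMap.polar ⇑Q w' v = 0 := by rw [QuadraticMap.polar_comm]; exact hvw'
      obtain ⟨z, hz, hQz⟩ := reflPrim_orth_repr Q h2 hQ ({v, w'} : Finset (ι → F))
        (by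
          intro s hs
          simp only [Finset.mem_insert, Finset.mem_singleton] at hs
          rcases hs with rfl | rfl
          · exact hv
          · exact hQw')
        (by
          intro s hs s' hs' hne
          simp only [Finset.mem_insert, Finset.mem_singleton] at hs hs'
          rcases hs with rfl | rfl <;> rcases hs' with rfl | rfl
          · exact absurd rfl hne
          · exact hvw'
          · exact hw'v
          · exact absurd rfl hne)
        (by
          have := Finset.card_le_two (a := v) (b := w')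
          omega) d
      exact ⟨z, hQz, hz v (by simp), hz w' (by simp)⟩
  obtain ⟨z, hQz, hzv, hzw'⟩ := key
  refine ⟨z, hQz, hzv, ?_⟩
  rw [hz_all z hzv, ← hw']
  exact hzw'

/-- (K2) a non-zero singular vector orthogonal to two orthogonal non-singular vectors -/
theorem reflPrim_exists_sing_perp (h2 : (2 : F) ≠ 0) (hQ : (QuadraticMap.polarBilin Q).Nondegenerate)
    (hdim : 5 ≤ Fintype.card ι) (v w : ι → F) (hv : Q v ≠ 0) (hw : Q w ≠ 0)
    (hvw : QuadraticMap.polar ⇑Q v w = 0) :
    ∃ t, t ≠ 0 ∧ Q t = 0 ∧ QuadraticMap.polar ⇑Q t v = 0 ∧ QuadraticMap.polar ⇑Q t w = 0 := by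
  classical
  have hwv : QuadraticMap.polar ⇑Q w v = 0 := by rw [QuadraticMap.polar_comm]; exact hvw
  have hT : ∀ s ∈ ({v, w} : Finset (ι → F)), Q s ≠ 0 := by
    intro s hs
    simp only [Finset.mem_insert, Finset.mem_singleton] at hs
    rcases hs with rfl | rfl
    · exact hv
    · exact hw
  have horth : ∀ s ∈ ({v, w} : Finset (ι → F)), ∀ s' ∈ ({v, w} : Finset (ι → F)),
      s ≠ s' → QuadraticMap.polar ⇑Q s s' = 0 := by
    intro s hs s' hs' hne
    simp only [Finset.mem_insert, Finset.mem_singleton] at hs hs'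
    rcases hs with rfl | rfl <;> rcases hs' with rfl | rfl
    · exact absurd rfl hne
    · exact hvw
    · exact hwv
    · exact absurd rfl hne
  have hc2 := Finset.card_le_two (a := v) (b := w)
  obtain ⟨a, ha, hQa⟩ := reflPrim_orth_extend Q h2 hQ _ hT horth (by omega)
  have hav : QuadraticMap.polar ⇑Q a v = 0 := ha v (by simp)
  have haw : QuadraticMap.polar ⇑Q a w = 0 := ha w (by simp)
  have hT' : ∀ s ∈ ({a, v, w} : Finset (ι → F)), Q s ≠ 0 := by
    intro s hs
    simp only [Finset.mem_insert, Finset.mem_singleton] at hs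
    rcases hs with rfl | rfl | rfl
    · exact hQa
    · exact hv
    · exact hw
  have horth' : ∀ s ∈ ({a, v, w} : Finset (ι → F)), ∀ s' ∈ ({a, v, w} : Finset (ι → F)),
      s ≠ s' → QuadraticMap.polar ⇑Q s s' = 0 := by
    intro s hs s' hs' hne
    simp only [Finset.mem_insert, Finset.mem_singleton] at hs hs'
    rcases hs with rfl | rfl | rfl <;> rcases hs' with rfl | rfl | rfl
    · exact absurd rfl hne
    · exact hav
    · exact haw
    · rw [QuadraticMap.polar_comm]; exact hav
    · exact absurd rfl hne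
    · exact hvw
    · rw [QuadraticMap.polar_comm]; exact haw
    · exact hwv
    · exact absurd rfl hne
  have hc3 := Finset.card_le_three (a := a) (b := v) (c := w)
  obtain ⟨b, hb, hQb⟩ := reflPrim_orth_repr Q h2 hQ _ hT' horth' (by omega) (-Q a)
  have hba : QuadraticMap.polar ⇑Q b a = 0 := hb a (by simp)
  have hbv : QuadraticMap.polar ⇑Q b v = 0 := hb v (by simp)
  have hbw : QuadraticMap.polar ⇑Q b w = 0 := hb w (by simp)
  refine ⟨a + b, ?_, ?_, ?_, ?_⟩
  · intro h
    have hb' : b = -a := by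
      rw [eq_neg_iff_add_eq_zero, add_comm]
      exact h
    rw [hb', QuadraticMap.polar_neg_left, QuadraticMap.polar_self, two_smul] at hba
    have h5 : 2 * Q a = 0 := by linear_combination -hba
    exact (mul_ne_zero h2 hQa) h5
  · rw [Helper13.Q_add', hQb, QuadraticMap.polar_comm ⇑Q a b, hba]
    ring
  · rw [QuadraticMap.polar_add_left, hav, hbv, add_zero]
  · rw [QuadraticMap.polar_add_left, haw, hbw, add_zero]

/-- (K3) a vector of prescribed norm orthogonal to the non-singular vector `v` but not to `w`, when `w`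
is not a multiple of `v` -/
theorem reflPrim_exists_perp_not (h2 : (2 : F) ≠ 0) (hQ : (QuadraticMap.polarBilin Q).Nondegenerate)
    (hdim : 5 ≤ Fintype.card ι) (v w : ι → F) (hv : Q v ≠ 0)
    (hw : w - (QuadraticMap.polar ⇑Q v w / (2 * Q v)) • v ≠ 0) (d : F) :
    ∃ z, Q z = d ∧ QuadraticMap.polar ⇑Q z v = 0 ∧ QuadraticMap.polar ⇑Q z w ≠ 0 := by
  classical
  obtain ⟨hvw', hz_all⟩ := reflPrim_perp_part Q h2 v w hv
  obtain ⟨w', hw'⟩ : ∃ w', w' = w - (QuadraticMap.polar ⇑Q v w / (2 * Q v)) • v := ⟨_, rfl⟩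
  rw [← hw'] at hvw' hw
  have hw'v : QuadraticMap.polar ⇑Q w' v = 0 := by rw [QuadraticMap.polar_comm]; exact hvw'
  have key : ∃ z, Q z = d ∧ QuadraticMap.polar ⇑Q z v = 0 ∧ QuadraticMap.polar ⇑Q z w' ≠ 0 := by
    by_cases hQw' : Q w' = 0
    · obtain ⟨y, hy, hw'y, hvy⟩ := reflPrim_exists_hyp_partner Q h2 hQ v w' hv hw hQw' hvw'
      have hw'w' : QuadraticMap.polar ⇑Q w' w' = 0 := by
        rw [QuadraticMap.polar_self, hQw', smul_zero]
      refine ⟨y + d • w', ?_, ?_, ?_⟩
      · rw [Helper13.Q_add', QuadraticMap.map_smul, hQw', hy, QuadraticMap.polar_smul_right,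
          QuadraticMap.polar_comm ⇑Q y w', hw'y]
        simp only [smul_eq_mul]
        ring
      · rw [QuadraticMap.polar_add_left, QuadraticMap.polar_smul_left, QuadraticMap.polar_comm ⇑Q y v, hvy,
          hw'v, smul_zero, add_zero]
      · rw [QuadraticMap.polar_add_left, QuadraticMap.polar_smul_left, QuadraticMap.polar_comm ⇑Q y w', hw'y,
          hw'w', smul_zero, add_zero]
        exact one_ne_zero
    · obtain ⟨t, ht, hQt⟩ := reflPrim_orth_repr Q h2 hQ ({v, w'} : Finset (ι → F))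
        (by
          intro s hs
          simp only [Finset.mem_insert, Finset.mem_singleton] at hs
          rcases hs with rfl | rfl
          · exact hv
          · exact hQw')
        (by
          intro s hs s' hs' hne
          simp only [Finset.mem_insert, Finset.mem_singleton] at hs hs'
          rcases hs with rfl | rfl <;> rcases hs' with rfl | rfl
          · exact absurd rfl hne
          · exact hvw'
          · exact hw'v
          · exact absurd rfl hne)
        (by
          have := Finset.card_le_two (a := v) (b := w')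
          omega) (d - Q w')
      have htv : QuadraticMap.polar ⇑Q t v = 0 := ht v (by simp)
      have htw' : QuadraticMap.polar ⇑Q t w' = 0 := ht w' (by simp)
      refine ⟨w' + t, ?_, ?_, ?_⟩
      · rw [Helper13.Q_add', hQt, QuadraticMap.polar_comm ⇑Q w' t, htw']
        ring
      · rw [QuadraticMap.polar_add_left, hw'v, htv, add_zero]
      · rw [QuadraticMap.polar_add_left, htw', add_zero, QuadraticMap.polar_self, two_smul]
        intro h
        have h5 : 2 * Q w' = 0 := by linear_combination h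
        exact (mul_ne_zero h2 hQw') h5
  obtain ⟨z, hQz, hzv, hzw'⟩ := key
  refine ⟨z, hQz, hzv, ?_⟩
  rw [hz_all z hzv, ← hw']
  exact hzw'

end ReflPrimFin

end Cfsg.Agent.Helper30
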