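import Cfsg.Agent.Helper30.ReflPrim
import Cfsg.Prelude.Def_FischerSpaces

set_option autoImplicit false

universe u

namespace Cfsg.Agent.Helper30

open Cfsg Matrix
open Cfsg.Agent.Helper45

section ReflPrimGroupGen

variable {G : Type*} [Group G]

/-- a subgroup fixing every member of a generating set under conjugation is central -/
theorem reflPrim_le_center (D : Set G) (hcl : Subgroup.closure D = ⊤) (H : Subgroup G)
    (h : ∀ g ∈ H, ∀ d ∈ D, g * d * g⁻¹ = d) : H ≤ Subgroup.center G := by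
  intro g hg
  rw [Subgroup.mem_center_iff]
  intro x
  have hx : x ∈ Subgroup.closure D := by
    rw [hcl]
    trivial
  refine Subgroup.closure_induction (p := fun x _ => x * g = g * x) ?_ ?_ ?_ ?_ hx
  · intro d hd
    have h1 := h g hg d hd
    have h2 : g * d = d * g := mul_inv_eq_iff_eq_mul.mp h1
    exact h2.symm
  · rw [one_mul, mul_one]
  · intro a b _ _ ha hb
    rw [mul_assoc, hb, ← mul_assoc, ha, mul_assoc]
  · intro a _ ha
    have h3 : g * a⁻¹ = a⁻¹ * (a * g) * a⁻¹ := by group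
    rw [h3, ha]
    group

/-- a perfect normal subgroup of index at most two is the commutator subgroup -/
theorem reflPrim_eq_commutator [Finite G] (L : Subgroup G) [L.Normal] (hperf : Group.IsPerfect ↥L)
    (hidx : L.index ≤ 2) : L = commutator G := by
  apply le_antisymm
  · intro x hx
    have h1 : (⟨x, hx⟩ : ↥L) ∈ commutator ↥L := by
      rw [hperf.commutator_eq_top]
      trivial
    have h2 : x ∈ (commutator ↥L).map L.subtype := ⟨⟨x, hx⟩, h1, rfl⟩
    rw [Subgroup.map_subtype_commutator] at h2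
    rw [_root_.commutator_def]
    exact Subgroup.commutator_mono le_top le_top h2
  · have h0 : L.index ≠ 0 := Subgroup.index_ne_zero_of_finite
    have h12 : L.index = 1 ∨ L.index = 2 := by omega
    rcases h12 with h1 | h2
    · rw [Subgroup.index_eq_one.mp h1]
      exact le_top
    · have hmul : ∀ a b, a * b ∈ L ↔ (a ∈ L ↔ b ∈ L) :=
        fun a b => Subgroup.mul_mem_iff_of_index_two h2
      rw [_root_.commutator_def, Subgroup.commutator_le]
      intro a _ b _
      rw [commutatorElement_def, hmul, hmul, hmul, inv_mem_iff, inv_mem_iff]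
      tauto

end ReflPrimGroupGen

section ReflPrimGroup

variable {ι : Type} [Fintype ι] [DecidableEq ι] {F : Type u} [Field F] [Fintype F]
  (Q : QuadraticForm F (ι → F))

omit [Fintype F] in
theorem reflPrim_mem_norm (c : F) (hc : c ≠ 0) (g : ↥(isometryGroup F ⇑Q))
    (hg : g ∈ reflectionsOfNorm ⇑Q c) : ∃ (v : ι → F) (hv : Q v ≠ 0), Q v = c ∧ g = reflO Q v hv := by
  obtain ⟨v, hvc, hg⟩ := hg
  have hv : Q v ≠ 0 := by rw [hvc]; exact hc
  refine ⟨v, hv, hvc, ?_⟩
  apply Subtype.ext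
  apply Units.ext
  rw [hg, reflO_coe]

omit [Fintype F] in
theorem reflPrim_reflO_mem_norm (c : F) (v : ι → F) (hv : Q v ≠ 0) (hvc : Q v = c) :
    reflO Q v hv ∈ reflectionsOfNorm ⇑Q c := ⟨v, hvc, reflO_coe Q v hv⟩

omit [Fintype F] in
theorem reflPrim_reflO_mem_sub (c : F) (v : ι → F) (hv : Q v ≠ 0) (hvc : Q v = c) :
    reflO Q v hv ∈ reflectionSubgroup ⇑Q c :=
  Subgroup.subset_closure (reflPrim_reflO_mem_norm Q c v hv hvc)

/-- no other reflection of norm `c` commutes with exactly the same reflections of norm `c` as a given one -/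
theorem reflPrim_V (h2 : (2 : F) ≠ 0) (hQ : (QuadraticMap.polarBilin Q).Nondegenerate)
    (hdim : 5 ≤ Fintype.card ι) (c : F) (hc : c ≠ 0) (d v' : ↥(reflectionSubgroup ⇑Q c))
    (hd : (d : ↥(isometryGroup F ⇑Q)) ∈ reflectionsOfNorm ⇑Q c)
    (hv' : (v' : ↥(isometryGroup F ⇑Q)) ∈ reflectionsOfNorm ⇑Q c)
    (h : ∀ e : ↥(reflectionSubgroup ⇑Q c), (e : ↥(isometryGroup F ⇑Q)) ∈ reflectionsOfNorm ⇑Q c →
      (Commute v' e ↔ Commute d e)) : v' = d := by
  obtain ⟨v, hv, hvc, hdv⟩ := reflPrim_mem_norm Q c hc _ hd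
  obtain ⟨w, hw, hwc, hv'w⟩ := reflPrim_mem_norm Q c hc _ hv'
  by_contra hne
  have hne' : reflO Q w hw ≠ reflO Q v hv := fun h' => hne (Subtype.ext (by rw [hv'w, hdv, h']))
  have hcomm : Commute v' d := (h d hd).mpr (Commute.refl d)
  have hcomm' : reflO Q w hw * reflO Q v hv = reflO Q v hv * reflO Q w hw := by
    have h1 : (v' : ↥(isometryGroup F ⇑Q)) * (d : ↥(isometryGroup F ⇑Q)) =
        (d : ↥(isometryGroup F ⇑Q)) * (v' : ↥(isometryGroup F ⇑Q)) := congrArg Subtype.val hcomm.eq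
    rw [hv'w, hdv] at h1
    exact h1
  rcases reflPrim_perp_of_commute Q h2 w v hw hv hcomm' with hwv | heq
  swap
  · exact hne' heq
  have hvw : QuadraticMap.polar ⇑Q v w = 0 := by rw [QuadraticMap.polar_comm]; exact hwv
  obtain ⟨t, ht0, hQt, htv, htw⟩ := reflPrim_exists_sing_perp Q h2 hQ hdim v w hv hw hvw
  have hwt : QuadraticMap.polar ⇑Q w t = 0 := by rw [QuadraticMap.polar_comm]; exact htw
  have hvt : QuadraticMap.polar ⇑Q v t = 0 := by rw [QuadraticMap.polar_comm]; exact htv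
  have hQz : Q (w + t) = c := by
    rw [Helper13.Q_add', hQt, hwt, hwc]
    ring
  have hz0 : Q (w + t) ≠ 0 := by rw [hQz]; exact hc
  have he := reflPrim_reflO_mem_norm Q c (w + t) hz0 hQz
  have hde : Commute d (⟨reflO Q (w + t) hz0, reflPrim_reflO_mem_sub Q c (w + t) hz0 hQz⟩ :
      ↥(reflectionSubgroup ⇑Q c)) := by
    apply Subtype.ext
    show (d : ↥(isometryGroup F ⇑Q)) * reflO Q (w + t) hz0 = reflO Q (w + t) hz0 * (d : ↥(isometryGroup F ⇑Q))
    rw [hdv]
    exact reflPrim_commute_of_perp Q v (w + t) hv hz0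
      (by rw [QuadraticMap.polar_add_right, hvw, hvt, add_zero])
  have hv'e := (h _ he).mpr hde
  have hcomm2 : reflO Q w hw * reflO Q (w + t) hz0 = reflO Q (w + t) hz0 * reflO Q w hw := by
    have h1 : (v' : ↥(isometryGroup F ⇑Q)) * reflO Q (w + t) hz0 =
        reflO Q (w + t) hz0 * (v' : ↥(isometryGroup F ⇑Q)) := congrArg Subtype.val hv'e.eq
    rw [hv'w] at h1
    exact h1
  rcases reflPrim_perp_of_commute Q h2 w (w + t) hw hz0 hcomm2 with h5 | h5
  · rw [QuadraticMap.polar_add_right, hwt, add_zero, QuadraticMap.polar_self, two_smul] at h5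
    have h6 : 2 * Q w = 0 := by linear_combination h5
    exact (mul_ne_zero h2 hw) h6
  · obtain ⟨l, hl⟩ := reflPrim_reflO_eq_imp Q h2 w (w + t) hw hz0 h5
    have ht : t = (l - 1) • w := by
      rw [sub_smul, one_smul, ← hl]
      abel
    rw [ht, QuadraticMap.map_smul, smul_eq_mul] at hQt
    have hl1 : l - 1 = 0 := by
      rcases mul_eq_zero.mp hQt with h7 | h7
      · exact mul_self_eq_zero.mp h7
      · exact absurd h7 hw
    rw [hl1, zero_smul] at ht
    exact ht0 ht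

/-- no other reflection of norm `c` has the same commuting partners as a given one -/
theorem reflPrim_W (h2 : (2 : F) ≠ 0) (hQ : (QuadraticMap.polarBilin Q).Nondegenerate)
    (hdim : 5 ≤ Fintype.card ι) (c : F) (hc : c ≠ 0) (d w' : ↥(reflectionSubgroup ⇑Q c))
    (hd : (d : ↥(isometryGroup F ⇑Q)) ∈ reflectionsOfNorm ⇑Q c)
    (hw' : (w' : ↥(isometryGroup F ⇑Q)) ∈ reflectionsOfNorm ⇑Q c)
    (h : ∀ y : ↥(reflectionSubgroup ⇑Q c), (y : ↥(isometryGroup F ⇑Q)) ∈ reflectionsOfNorm ⇑Q c →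
      ((y ≠ d ∧ Commute d y) ↔ (y ≠ w' ∧ Commute w' y))) : w' = d := by
  obtain ⟨v, hv, hvc, hdv⟩ := reflPrim_mem_norm Q c hc _ hd
  obtain ⟨w, hw, hwc, hw'w⟩ := reflPrim_mem_norm Q c hc _ hw'
  by_contra hne
  by_cases hcomm : Commute d w'
  · exact ((h w' hw').mp ⟨hne, hcomm⟩).1 rfl
  · have hwperp : w - (QuadraticMap.polar ⇑Q v w / (2 * Q v)) • v ≠ 0 := by
      intro h0
      have hwk : w = (QuadraticMap.polar ⇑Q v w / (2 * Q v)) • v := sub_eq_zero.mp h0
      have hk0 : QuadraticMap.polar ⇑Q v w / (2 * Q v) ≠ 0 := by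
        intro hk
        rw [hk, zero_smul] at hwk
        rw [hwk, QuadraticMap.map_zero] at hw
        exact hw rfl
      have hkv : Q ((QuadraticMap.polar ⇑Q v w / (2 * Q v)) • v) ≠ 0 := by
        rw [← hwk]
        exact hw
      apply hne
      apply Subtype.ext
      rw [hw'w, hdv, reflClass_reflO_congr Q w _ hwk hw hkv]
      exact reflO_smul Q _ hk0 v hv hkv
    obtain ⟨z, hQz, hzv, hzw⟩ := reflPrim_exists_perp_not Q h2 hQ hdim v w hv hwperp c
    have hz0 : Q z ≠ 0 := by rw [hQz]; exact hc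
    have hvz : QuadraticMap.polar ⇑Q v z = 0 := by rw [QuadraticMap.polar_comm]; exact hzv
    have he := reflPrim_reflO_mem_norm Q c z hz0 hQz
    have hde : Commute d (⟨reflO Q z hz0, reflPrim_reflO_mem_sub Q c z hz0 hQz⟩ :
        ↥(reflectionSubgroup ⇑Q c)) := by
      apply Subtype.ext
      show (d : ↥(isometryGroup F ⇑Q)) * reflO Q z hz0 = reflO Q z hz0 * (d : ↥(isometryGroup F ⇑Q))
      rw [hdv]
      exact reflPrim_commute_of_perp Q v z hv hz0 hvz
    have hed : (⟨reflO Q z hz0, reflPrim_reflO_mem_sub Q c z hz0 hQz⟩ : ↥(reflectionSubgroup ⇑Q c)) ≠ d := by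
      intro h1
      have h3 : reflO Q z hz0 = (d : ↥(isometryGroup F ⇑Q)) := congrArg Subtype.val h1
      rw [hdv] at h3
      exact reflPrim_reflO_ne_of_perp Q h2 z v hz0 hv hzv h3
    obtain ⟨hew, hcw⟩ := (h _ he).mp ⟨hed, hde⟩
    have hcomm2 : reflO Q w hw * reflO Q z hz0 = reflO Q z hz0 * reflO Q w hw := by
      have h1 : (w' : ↥(isometryGroup F ⇑Q)) * reflO Q z hz0 =
          reflO Q z hz0 * (w' : ↥(isometryGroup F ⇑Q)) := congrArg Subtype.val hcw.eq
      rw [hw'w] at h1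
      exact h1
    rcases reflPrim_perp_of_commute Q h2 w z hw hz0 hcomm2 with h5 | h5
    · rw [QuadraticMap.polar_comm] at h5
      exact hzw h5
    · apply hew
      apply Subtype.ext
      show reflO Q z hz0 = (w' : ↥(isometryGroup F ⇑Q))
      rw [hw'w, h5]

/-- there are two different reflections of norm `c` -/
theorem reflPrim_two (h2 : (2 : F) ≠ 0) (hQ : (QuadraticMap.polarBilin Q).Nondegenerate)
    (hdim : 5 ≤ Fintype.card ι) (c : F) (hc : c ≠ 0) :
    ∃ a ∈ {g : ↥(reflectionSubgroup ⇑Q c) | (g : ↥(isometryGroup F ⇑Q)) ∈ reflectionsOfNorm ⇑Q c},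
      ∃ b ∈ {g : ↥(reflectionSubgroup ⇑Q c) | (g : ↥(isometryGroup F ⇑Q)) ∈ reflectionsOfNorm ⇑Q c},
        a ≠ b := by
  obtain ⟨v, hvc⟩ := exists_norm_eq Q h2 hQ (by omega) c
  have hv : Q v ≠ 0 := by rw [hvc]; exact hc
  obtain ⟨z, hQz, hzv, -⟩ := reflPrim_exists_perp_pair Q h2 hQ hdim v v hv c
  have hz0 : Q z ≠ 0 := by rw [hQz]; exact hc
  refine ⟨⟨reflO Q v hv, reflPrim_reflO_mem_sub Q c v hv hvc⟩, reflPrim_reflO_mem_norm Q c v hv hvc,
    ⟨reflO Q z hz0, reflPrim_reflO_mem_sub Q c z hz0 hQz⟩, reflPrim_reflO_mem_norm Q c z hz0 hQz, ?_⟩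
  intro h
  have h3 : reflO Q v hv = reflO Q z hz0 := congrArg Subtype.val h
  exact reflPrim_reflO_ne_of_perp Q h2 z v hz0 hv hzv h3.symm

/-- the commuting graph of the reflections of norm `c` is connected -/
theorem reflPrim_connected (h2 : (2 : F) ≠ 0) (hQ : (QuadraticMap.polarBilin Q).Nondegenerate)
    (hdim : 5 ≤ Fintype.card ι) (c : F) (hc : c ≠ 0) :
    (commutingGraph {g : ↥(reflectionSubgroup ⇑Q c) |
      (g : ↥(isometryGroup F ⇑Q)) ∈ reflectionsOfNorm ⇑Q c}).Connected := by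
  rw [SimpleGraph.connected_iff]
  constructor
  · intro a b
    obtain ⟨v, hv, hvc, hav⟩ := reflPrim_mem_norm Q c hc _ a.2
    obtain ⟨w, hw, hwc, hbw⟩ := reflPrim_mem_norm Q c hc _ b.2
    obtain ⟨z, hQz, hzv, hzw⟩ := reflPrim_exists_perp_pair Q h2 hQ hdim v w hv c
    have hz0 : Q z ≠ 0 := by rw [hQz]; exact hc
    have hvz : QuadraticMap.polar ⇑Q v z = 0 := by rw [QuadraticMap.polar_comm]; exact hzv
    have hwz : QuadraticMap.polar ⇑Q w z = 0 := by rw [QuadraticMap.polar_comm]; exact hzw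
    obtain ⟨e, he⟩ : ∃ e : {g : ↥(reflectionSubgroup ⇑Q c) |
        (g : ↥(isometryGroup F ⇑Q)) ∈ reflectionsOfNorm ⇑Q c},
        ((e : ↥(reflectionSubgroup ⇑Q c)) : ↥(isometryGroup F ⇑Q)) = reflO Q z hz0 :=
      ⟨⟨⟨reflO Q z hz0, reflPrim_reflO_mem_sub Q c z hz0 hQz⟩,
        reflPrim_reflO_mem_norm Q c z hz0 hQz⟩, rfl⟩
    have hae : (commutingGraph {g : ↥(reflectionSubgroup ⇑Q c) |
        (g : ↥(isometryGroup F ⇑Q)) ∈ reflectionsOfNorm ⇑Q c}).Adj a e := by
      unfold commutingGraph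
      rw [SimpleGraph.fromRel_adj]
      refine ⟨?_, Or.inl ?_⟩
      · intro h
        have h3 : ((a : ↥(reflectionSubgroup ⇑Q c)) : ↥(isometryGroup F ⇑Q)) =
            ((e : ↥(reflectionSubgroup ⇑Q c)) : ↥(isometryGroup F ⇑Q)) := by rw [h]
        rw [hav, he] at h3
        exact reflPrim_reflO_ne_of_perp Q h2 v z hv hz0 hvz h3
      · apply Subtype.ext
        show ((a : ↥(reflectionSubgroup ⇑Q c)) : ↥(isometryGroup F ⇑Q)) *
          ((e : ↥(reflectionSubgroup ⇑Q c)) : ↥(isometryGroup F ⇑Q)) =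
          ((e : ↥(reflectionSubgroup ⇑Q c)) : ↥(isometryGroup F ⇑Q)) *
          ((a : ↥(reflectionSubgroup ⇑Q c)) : ↥(isometryGroup F ⇑Q))
        rw [hav, he]
        exact reflPrim_commute_of_perp Q v z hv hz0 hvz
    have hbe : (commutingGraph {g : ↥(reflectionSubgroup ⇑Q c) |
        (g : ↥(isometryGroup F ⇑Q)) ∈ reflectionsOfNorm ⇑Q c}).Adj b e := by
      unfold commutingGraph
      rw [SimpleGraph.fromRel_adj]
      refine ⟨?_, Or.inl ?_⟩
      · intro h
        have h3 : ((b : ↥(reflectionSubgroup ⇑Q c)) : ↥(isometryGroup F ⇑Q)) =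
            ((e : ↥(reflectionSubgroup ⇑Q c)) : ↥(isometryGroup F ⇑Q)) := by rw [h]
        rw [hbw, he] at h3
        exact reflPrim_reflO_ne_of_perp Q h2 w z hw hz0 hwz h3
      · apply Subtype.ext
        show ((b : ↥(reflectionSubgroup ⇑Q c)) : ↥(isometryGroup F ⇑Q)) *
          ((e : ↥(reflectionSubgroup ⇑Q c)) : ↥(isometryGroup F ⇑Q)) =
          ((e : ↥(reflectionSubgroup ⇑Q c)) : ↥(isometryGroup F ⇑Q)) *
          ((b : ↥(reflectionSubgroup ⇑Q c)) : ↥(isometryGroup F ⇑Q))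
        rw [hbw, he]
        exact reflPrim_commute_of_perp Q w z hw hz0 hwz
    exact hae.reachable.trans hbe.symm.reachable
  · obtain ⟨a, ha, -⟩ := reflPrim_two Q h2 hQ hdim c hc
    exact ⟨⟨a, ha⟩⟩

end ReflPrimGroup

end Cfsg.Agent.Helper30
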