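import Mathlib
import Cfsg.Prelude.Def_GeometricClasses
import Cfsg.Prelude.Def_Classical
import Cfsg.Agent.Helper35.S88Defs
import Cfsg.Agent.Helper96.OHAll
import Cfsg.Agent.Helper43.TBXISO
import Cfsg.Agent.Helper37.TBBLKO
import Cfsg.Agent.Helper31.TBPRODND
import Cfsg.Agent.Helper93.TBTYPEPROD

set_option autoImplicit false

/-!
# Sub-CALL S88OO (helper35) of CALL S88 (row S5988), piece MODEL (helper30): the model of the bad
element for `i` odd.
-/

namespace Cfsg.Agent.Helper30.S88OO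

open Module Polynomial Cfsg Cfsg.Geo
open Cfsg.Agent.Helper13.TIu Cfsg.Agent.Helper96.OH Cfsg.Agent.Helper35.S88
open Cfsg.Agent.Helper43 Cfsg.Agent.Helper43.OrthEven
open scoped MatrixGroups

universe u

/-- MODEL: a plus-type space of dimension `2 (k₀ + i a)` with an isometry of order `r` whose fixed
space has dimension `2 k₀`. -/
theorem oo_bad_model {F : Type u} [Field F] [Fintype F] (p : ℕ) [Fact p.Prime] [CharP F p]
    (r : ℕ) [Fact r.Prime] (hr2 : 2 < r) (hrp : r ≠ p)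
    (hodd : Odd (orderOf ((Fintype.card F : ℕ) : ZMod r))) (k₀ a : ℕ) :
    ∃ (V' : Type u) (_ : AddCommGroup V') (_ : Module F V') (_ : FiniteDimensional F V')
      (Q' : QuadraticForm F V') (T : Module.End F V'),
      PolarNondeg Q' ∧
      finrank F V' = 2 * (k₀ + orderOf ((Fintype.card F : ℕ) : ZMod r) * a) ∧
      HasTS Q' (k₀ + orderOf ((Fintype.card F : ℕ) : ZMod r) * a) ∧
      (∀ v, Q' (T v) = Q' v) ∧ T ^ r = 1 ∧
      finrank F (LinearMap.ker (T - 1)) = 2 * k₀ := by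
  classical
  have hr : r.Prime := Fact.out
  have hrF : (r : F) ≠ 0 := Cfsg.Agent.Helper43.CycFactors.natCast_ne_zero_of_ne (p := p) hr hrp
  obtain ⟨V₁, i1, i2, i3, Q₁, T₁, hnd, hT, hcyc, hV₁, hts, -⟩ :=
    Cfsg.Agent.Helper37.TB.tb_blk_odd (F := F) p r hr2 hrp hodd a
  have hT₁r : T₁ ^ r = 1 := by
    have h1 : aeval T₁ (X ^ r - 1 : F[X]) = 0 := by
      rw [← cyclotomic_prime_mul_X_sub_one F r, map_mul, hcyc, zero_mul]
    simpa [sub_eq_zero] using h1
  have hdim₀ : finrank F (Fin k₀ ⊕ Fin k₀ → F) = 2 * k₀ := by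
    rw [Module.finrank_fintype_fun_eq_card, Fintype.card_sum, Fintype.card_fin]
    ring
  have hnd₀ : PolarNondeg (plusQF k₀ F) := polarNondeg_of_nondegenerate _ (plusQF_nondeg k₀)
  have hfix : ∀ y : V₁, T₁ y = y → y = 0 := by
    intro y hy
    by_contra hy0
    have hev : Module.End.HasEigenvector T₁ 1 y :=
      ⟨Module.End.mem_eigenspace_iff.mpr (by rw [hy, one_smul]), hy0⟩
    have h1 := Module.End.aeval_apply_of_hasEigenvector hev (p := cyclotomic r F)
    rw [hcyc, LinearMap.zero_apply, eval_one_cyclotomic_prime] at h1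
    rcases smul_eq_zero.mp h1.symm with h5 | h5
    · exact hrF h5
    · exact hy0 h5
  have hker : LinearMap.ker (((1 : Module.End F (Fin k₀ ⊕ Fin k₀ → F)).prodMap T₁) - 1)
      = LinearMap.range (LinearMap.inl F (Fin k₀ ⊕ Fin k₀ → F) V₁) := by
    ext ⟨x, y⟩
    rw [LinearMap.mem_ker, LinearMap.sub_apply, LinearMap.prodMap_apply, Module.End.one_apply,
      Module.End.one_apply, sub_eq_zero, LinearMap.mem_range]
    constructor
    · intro h
      have h2 : T₁ y = y := congrArg Prod.snd h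
      refine ⟨x, ?_⟩
      rw [LinearMap.inl_apply, hfix y h2]
    · rintro ⟨x', hx'⟩
      rw [LinearMap.inl_apply] at hx'
      have h1 : y = 0 := (congrArg Prod.snd hx').symm
      rw [h1, map_zero]
  refine ⟨(Fin k₀ ⊕ Fin k₀ → F) × V₁, inferInstance, inferInstance, inferInstance,
    (plusQF k₀ F).prod Q₁, (1 : Module.End F (Fin k₀ ⊕ Fin k₀ → F)).prodMap T₁,
    Cfsg.Agent.Helper31.TB.tb_prod_nd (plusQF k₀ F) Q₁ hnd₀ hnd, ?_, ?_, ?_, ?_, ?_⟩
  · rw [Module.finrank_prod, hdim₀, hV₁]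
    ring
  · rw [Cfsg.Agent.Helper93.TB.tb_type_prod (plusQF k₀ F) Q₁ hnd₀ hnd k₀ _ hdim₀ hV₁]
    exact ⟨fun _ => hts, fun _ => hasTS_plus k₀⟩
  · rintro ⟨x, y⟩
    rw [LinearMap.prodMap_apply, QuadraticMap.prod_apply, QuadraticMap.prod_apply, hT]
    rfl
  · have key : ∀ n : ℕ, ((1 : Module.End F (Fin k₀ ⊕ Fin k₀ → F)).prodMap T₁) ^ n
        = (1 : Module.End F (Fin k₀ ⊕ Fin k₀ → F)).prodMap (T₁ ^ n) := by
      intro n
      induction n with
      | zero =>
        rw [pow_zero, pow_zero]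
        exact LinearMap.prodMap_one.symm
      | succ n ih =>
        rw [pow_succ, ih, pow_succ, LinearMap.prodMap_mul, mul_one]
    rw [key r, hT₁r]
    exact LinearMap.prodMap_one
  · rw [hker, LinearMap.finrank_range_of_inj LinearMap.inl_injective, hdim₀]

end Cfsg.Agent.Helper30.S88OO
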