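import Mathlib
import Cfsg.Prelude.Def_GeometricClasses
import Cfsg.Prelude.Def_Classical
import Cfsg.Agent.Helper35.S88Defs
import Cfsg.Agent.Helper98.ELPMain
import Cfsg.Agent.Helper47.ELPAPP
import Cfsg.Agent.Helper47.ELPT0KER
import Cfsg.Agent.Helper74.ELPPOW
import Cfsg.Agent.Helper74.ELPT0NE
import Cfsg.Agent.Helper36.AltEven
import Cfsg.Agent.Helper80.TSR2TSB
import Cfsg.Agent.Helper35.TSSTDM

set_option autoImplicit false

/-!
# CALL S90 (helper98; row S5990), stage T2B (`r = p = 2`, `⟹`), double by helper30.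

`d` odd, `n = d - 1` even: `x = (Siegel element sieg (t0 n F)) ⊕ 1` on `(Fin n ⊕ Fin n) ⊕ Fin 2`
lies in `Ω` of the minus-type form, `x ^ 2 = 1`, `x` is not scalar, and every `x`-invariant
nondegenerate subspace `W` with `4 ∣ dim W` is of plus type.
With `π v = v ∘ inl ∘ inr`, `A = t0 - t0ᵀ` (injective), `L c = ((A c, 0), 0)`: `x v - v = L (π v)`;
`J = W ⊓ ker π ⊓ ker ρ` (`ρ v = v ∘ inr`) is totally singular, contains `L (π W)` and has codimension
`≤ 2` in `W ⊓ ker π`; `dim (π W)` is even; so `dim J = dim W / 2`.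
-/

namespace Cfsg.Agent.Helper30.S90

open Module Cfsg Cfsg.Geo Cfsg.Agent.Helper35.S88 Cfsg.Agent.Helper98.ELP Matrix
open scoped MatrixGroups

variable {F : Type*} [Field F] [Fintype F]

omit [Fintype F] in
theorem t2b_mem_iso {ι : Type} [Fintype ι] [DecidableEq ι] (Q : (ι → F) → F) (g : GL ι F) :
    g ∈ Cfsg.isometryGroup F Q ↔ ∀ u, Q ((g : Matrix ι ι F) *ᵥ u) = Q u :=
  ⟨fun h u => h u u, fun h u _ => h u⟩

omit [Fintype F] in
theorem t2b_mulVec_inl (n : ℕ) (M : Matrix (Fin n ⊕ Fin n) (Fin n ⊕ Fin n) F)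
    (v : (Fin n ⊕ Fin n) ⊕ Fin 2 → F) (x : Fin n ⊕ Fin n) :
    (Matrix.fromBlocks M 0 0 (1 : Matrix (Fin 2) (Fin 2) F) *ᵥ v) (Sum.inl x)
      = (M *ᵥ (fun y => v (Sum.inl y))) x := by
  have hv : v = Sum.elim (fun j => v (.inl j)) (fun j => v (.inr j)) := by
    funext x; cases x <;> rfl
  conv_lhs => rw [hv]
  rw [Matrix.fromBlocks_mulVec]
  simp [Matrix.one_mulVec]

omit [Fintype F] in
theorem t2b_mulVec_inr (n : ℕ) (M : Matrix (Fin n ⊕ Fin n) (Fin n ⊕ Fin n) F)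
    (v : (Fin n ⊕ Fin n) ⊕ Fin 2 → F) (k : Fin 2) :
    (Matrix.fromBlocks M 0 0 (1 : Matrix (Fin 2) (Fin 2) F) *ᵥ v) (Sum.inr k) = v (Sum.inr k) := by
  have hv : v = Sum.elim (fun j => v (.inl j)) (fun j => v (.inr j)) := by
    funext x; cases x <;> rfl
  conv_lhs => rw [hv]
  rw [Matrix.fromBlocks_mulVec]
  simp [Matrix.one_mulVec]

/-- the embedding `g ↦ g ⊕ 1`. -/
def t2bEmb (n : ℕ) (F : Type*) [Field F] :
    GL (Fin n ⊕ Fin n) F →* GL ((Fin n ⊕ Fin n) ⊕ Fin 2) F where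
  toFun g := ⟨Matrix.fromBlocks (g : Matrix (Fin n ⊕ Fin n) (Fin n ⊕ Fin n) F) 0 0 1,
    Matrix.fromBlocks ((g⁻¹ : GL (Fin n ⊕ Fin n) F) : Matrix (Fin n ⊕ Fin n) (Fin n ⊕ Fin n) F) 0 0 1,
    by rw [Matrix.fromBlocks_multiply]; simp [Matrix.fromBlocks_one],
    by rw [Matrix.fromBlocks_multiply]; simp [Matrix.fromBlocks_one]⟩
  map_one' := Units.ext (by simp [Matrix.fromBlocks_one])
  map_mul' g h := Units.ext (by simp [Matrix.fromBlocks_multiply])

omit [Fintype F] in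
theorem t2bEmb_coe (n : ℕ) (g : GL (Fin n ⊕ Fin n) F) :
    ((t2bEmb n F g : GL ((Fin n ⊕ Fin n) ⊕ Fin 2) F) :
      Matrix ((Fin n ⊕ Fin n) ⊕ Fin 2) ((Fin n ⊕ Fin n) ⊕ Fin 2) F)
      = Matrix.fromBlocks (g : Matrix (Fin n ⊕ Fin n) (Fin n ⊕ Fin n) F) 0 0 1 := rfl

omit [Fintype F] in
theorem t2b_emb_iso (n : ℕ) (a b : F) (g : GL (Fin n ⊕ Fin n) F)
    (hg : g ∈ Cfsg.isometryGroup F (Cfsg.quadFormPlus n F)) :
    t2bEmb n F g ∈ Cfsg.isometryGroup F (Cfsg.quadFormMinus n F a b) := by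
  rw [t2b_mem_iso] at hg ⊢
  intro v
  have h1 : ∑ i : Fin n, ((g : Matrix (Fin n ⊕ Fin n) (Fin n ⊕ Fin n) F) *ᵥ
        (fun y => v (Sum.inl y))) (Sum.inl i) *
      ((g : Matrix (Fin n ⊕ Fin n) (Fin n ⊕ Fin n) F) *ᵥ (fun y => v (Sum.inl y))) (Sum.inr i)
      = ∑ i : Fin n, v (Sum.inl (Sum.inl i)) * v (Sum.inl (Sum.inr i)) :=
    hg (fun y => v (Sum.inl y))
  rw [t2bEmb_coe]
  unfold Cfsg.quadFormMinus
  simp only [t2b_mulVec_inl, t2b_mulVec_inr]
  rw [h1]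

omit [Fintype F] in
theorem t2b_emb_omega (n : ℕ) (a b : F) (g : GL (Fin n ⊕ Fin n) F)
    (hg : g ∈ Cfsg.Geo.omegaGL (Cfsg.quadFormPlus n F)) :
    t2bEmb n F g ∈ Cfsg.Geo.omegaGL (Cfsg.quadFormMinus n F a b) := by
  obtain ⟨x, hx, rfl⟩ := hg
  obtain ⟨φ, hφ⟩ : ∃ φ : Cfsg.isometryGroup F (Cfsg.quadFormPlus n F) →*
      Cfsg.isometryGroup F (Cfsg.quadFormMinus n F a b),
      ∀ y, ((φ y : Cfsg.isometryGroup F (Cfsg.quadFormMinus n F a b)) :
        GL ((Fin n ⊕ Fin n) ⊕ Fin 2) F) = t2bEmb n F y.1 :=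
    ⟨((t2bEmb n F).comp (Cfsg.isometryGroup F (Cfsg.quadFormPlus n F)).subtype).codRestrict _
      (fun y => t2b_emb_iso n a b y.1 y.2), fun y => rfl⟩
  refine ⟨φ x, ?_, hφ x⟩
  have h1 : (commutator (Cfsg.isometryGroup F (Cfsg.quadFormPlus n F))).map φ
      ≤ commutator (Cfsg.isometryGroup F (Cfsg.quadFormMinus n F a b)) := by
    rw [commutator_def, commutator_def, Subgroup.map_commutator]
    exact Subgroup.commutator_mono le_top le_top
  exact h1 (Subgroup.mem_map_of_mem φ hx)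

/-- `π v = v ∘ inl ∘ inr`. -/
def t2bPi (n : ℕ) (F : Type*) [Field F] : ((Fin n ⊕ Fin n) ⊕ Fin 2 → F) →ₗ[F] (Fin n → F) :=
  LinearMap.funLeft F F (fun j => Sum.inl (Sum.inr j))

/-- `ρ v = v ∘ inr`. -/
def t2bRho (n : ℕ) (F : Type*) [Field F] : ((Fin n ⊕ Fin n) ⊕ Fin 2 → F) →ₗ[F] (Fin 2 → F) :=
  LinearMap.funLeft F F Sum.inr

/-- `c ↦ ((A c, 0), 0)`. -/
def t2bL (n : ℕ) (F : Type*) [Field F] (A : Matrix (Fin n) (Fin n) F) :
    (Fin n → F) →ₗ[F] ((Fin n ⊕ Fin n) ⊕ Fin 2 → F) where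
  toFun c := Sum.elim (Sum.elim (A *ᵥ c) 0) 0
  map_add' c e := by
    funext x
    rcases x with (x | x) | x <;> simp [Matrix.mulVec_add]
  map_smul' z c := by
    funext x
    rcases x with (x | x) | x <;> simp [Matrix.mulVec_smul]

omit [Fintype F] in
theorem t2b_N (n : ℕ) (v : (Fin n ⊕ Fin n) ⊕ Fin 2 → F) :
    Matrix.fromBlocks (siegM (t0 n F)) 0 0 (1 : Matrix (Fin 2) (Fin 2) F) *ᵥ v - v
      = t2bL n F (t0 n F - (t0 n F)ᵀ) (t2bPi n F v) := by
  funext x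
  rcases x with (i | i) | k
  · show (Matrix.fromBlocks (siegM (t0 n F)) 0 0 (1 : Matrix (Fin 2) (Fin 2) F) *ᵥ v)
        (Sum.inl (Sum.inl i)) - v (Sum.inl (Sum.inl i))
      = ((t0 n F - (t0 n F)ᵀ) *ᵥ fun j => v (Sum.inl (Sum.inr j))) i
    rw [t2b_mulVec_inl, Cfsg.Agent.Helper47.ELP.siegM_mulVec_inl]
    beta_reduce
    ring
  · show (Matrix.fromBlocks (siegM (t0 n F)) 0 0 (1 : Matrix (Fin 2) (Fin 2) F) *ᵥ v)
        (Sum.inl (Sum.inr i)) - v (Sum.inl (Sum.inr i)) = 0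
    rw [t2b_mulVec_inl, Cfsg.Agent.Helper47.ELP.siegM_mulVec_inr, sub_self]
  · show (Matrix.fromBlocks (siegM (t0 n F)) 0 0 (1 : Matrix (Fin 2) (Fin 2) F) *ᵥ v)
        (Sum.inr k) - v (Sum.inr k) = 0
    rw [t2b_mulVec_inr, sub_self]

omit [Fintype F] in
theorem t2b_polar_L (n : ℕ) (a b : F) (A : Matrix (Fin n) (Fin n) F) (c : Fin n → F)
    (v : (Fin n ⊕ Fin n) ⊕ Fin 2 → F) :
    QuadraticMap.polar (Cfsg.quadFormMinus n F a b) (t2bL n F A c) v
      = (A *ᵥ c) ⬝ᵥ (t2bPi n F v) := by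
  have h1 : ∀ i, (t2bL n F A c) (Sum.inl (Sum.inl i)) = (A *ᵥ c) i := fun i => rfl
  have h2 : ∀ i, (t2bL n F A c) (Sum.inl (Sum.inr i)) = 0 := fun i => rfl
  have h3 : ∀ k, (t2bL n F A c) (Sum.inr k) = 0 := fun k => rfl
  have h4 : ∑ i : Fin n, ((A *ᵥ c) i + v (Sum.inl (Sum.inl i))) * v (Sum.inl (Sum.inr i))
      = ∑ i : Fin n, (A *ᵥ c) i * v (Sum.inl (Sum.inr i))
        + ∑ i : Fin n, v (Sum.inl (Sum.inl i)) * v (Sum.inl (Sum.inr i)) := by
    rw [← Finset.sum_add_distrib]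
    exact Finset.sum_congr rfl (fun i _ => by ring)
  unfold QuadraticMap.polar Cfsg.quadFormMinus
  simp only [Pi.add_apply, h1, h2, h3, zero_add, mul_zero, Finset.sum_const_zero]
  rw [h4]
  show _ = ∑ i : Fin n, (A *ᵥ c) i * v (Sum.inl (Sum.inr i))
  ring

omit [Fintype F] in
theorem t2b_sing (n : ℕ) (a b : F) (v : (Fin n ⊕ Fin n) ⊕ Fin 2 → F)
    (h1 : ∀ i, v (Sum.inl (Sum.inr i)) = 0) (h2 : ∀ k, v (Sum.inr k) = 0) :
    Cfsg.quadFormMinus n F a b v = 0 := by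
  unfold Cfsg.quadFormMinus
  rw [h2 0, h2 1]
  simp only [h1, mul_zero, Finset.sum_const_zero]
  ring

omit [Fintype F] in
theorem t2b_L_inj (n : ℕ) (hne : Even n) :
    Function.Injective (t2bL n F (t0 n F - (t0 n F)ᵀ)) := by
  rw [← LinearMap.ker_eq_bot, LinearMap.ker_eq_bot']
  intro c hc
  have h0 : (t0 n F - (t0 n F)ᵀ) *ᵥ c = 0 := by
    funext i
    exact congrFun hc (Sum.inl (Sum.inl i))
  funext j
  refine Cfsg.Agent.Helper47.ELP.t0_ker n c h0 j ?_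
  obtain ⟨k, hk⟩ := hne
  have := j.isLt
  omega

omit [Fintype F] in
theorem t2b_alt (n : ℕ) (T : Matrix (Fin n) (Fin n) F) (c : Fin n → F) :
    ((T - Tᵀ) *ᵥ c) ⬝ᵥ c = 0 := by
  rw [Matrix.sub_mulVec, sub_dotProduct, Matrix.mulVec_transpose, ← Matrix.dotProduct_mulVec,
    dotProduct_comm c (T *ᵥ c), sub_self]

/-- every invariant nondegenerate subspace of dimension divisible by `4` is of plus type. -/
theorem t2b_plus (n : ℕ) (hne : Even n) (a b : F)
    (hab : ∀ x y : F, x ^ 2 + a * x * y + b * y ^ 2 = 0 → x = 0 ∧ y = 0)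
    (W : Submodule F ((Fin n ⊕ Fin n) ⊕ Fin 2 → F))
    (hnd : IsNondegenerateOn (QuadraticMap.polar (Cfsg.quadFormMinus n F a b)) W)
    (hinv : W.map (Matrix.toLin'
      (Matrix.fromBlocks (siegM (t0 n F)) 0 0 (1 : Matrix (Fin 2) (Fin 2) F))) ≤ W)
    (h4 : 4 ∣ finrank F W) :
    IsPlusTypeOn (Cfsg.quadFormMinus n F a b) W := by
  classical
  set A : Matrix (Fin n) (Fin n) F := t0 n F - (t0 n F)ᵀ with hA
  set π := t2bPi n F with hπ
  set ρ := t2bRho n F with hρ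
  set L := t2bL n F A with hL
  have hLinj : Function.Injective L := t2b_L_inj n hne
  have hLW : ∀ w ∈ W, L (π w) ∈ W := by
    intro w hw
    have h1 : Matrix.toLin' (Matrix.fromBlocks (siegM (t0 n F)) 0 0
        (1 : Matrix (Fin 2) (Fin 2) F)) w ∈ W := hinv (Submodule.mem_map_of_mem hw)
    rw [Matrix.toLin'_apply] at h1
    have h2 := W.sub_mem h1 hw
    rw [t2b_N] at h2
    exact h2
  have hπL : ∀ c, π (L c) = 0 := by
    intro c
    funext j
    rfl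
  have hρL : ∀ c, ρ (L c) = 0 := by
    intro c
    funext j
    rfl
  set W' : Submodule F (Fin n → F) := W.map π with hW'
  set K : Submodule F ((Fin n ⊕ Fin n) ⊕ Fin 2 → F) := W ⊓ LinearMap.ker π with hK
  set J : Submodule F ((Fin n ⊕ Fin n) ⊕ Fin 2 → F) := K ⊓ LinearMap.ker ρ with hJ
  have hJW : J ≤ W := fun u hu => hu.1.1
  -- J is totally singular
  have hJts : ∀ u ∈ J, Cfsg.quadFormMinus n F a b u = 0 := by
    intro u hu
    have hu1 : π u = 0 := LinearMap.mem_ker.mp hu.1.2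
    have hu2 : ρ u = 0 := LinearMap.mem_ker.mp hu.2
    exact t2b_sing n a b u (fun i => congrFun hu1 i) (fun k => congrFun hu2 k)
  -- (1) finrank W' ≤ finrank J
  have h1 : finrank F W' ≤ finrank F J := by
    have h1 : finrank F W' = finrank F (W'.map L) :=
      LinearEquiv.finrank_eq (Submodule.equivMapOfInjective L hLinj W')
    rw [h1]
    apply Submodule.finrank_mono
    rintro _ ⟨c, ⟨w, hw, rfl⟩, rfl⟩
    exact ⟨⟨hLW w hw, LinearMap.mem_ker.mpr (hπL _)⟩, LinearMap.mem_ker.mpr (hρL _)⟩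
  -- (2) 2 finrank J ≤ finrank W
  have h2 : 2 * finrank F J ≤ finrank F W :=
    Cfsg.Agent.Helper80.TSR2.r2_ts_bound (Cfsg.quadFormMinus n F a b)
      (Cfsg.Agent.Helper35.TS5973.ts_std_minus n a b hab).1 W J hnd hJW hJts
  -- (3) rank-nullity for π on W
  have h3 : finrank F W' + finrank F K = finrank F W := by
    have h1 := LinearMap.finrank_range_add_finrank_ker (π.domRestrict W)
    rw [LinearMap.range_domRestrict, LinearMap.ker_domRestrict] at h1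
    have h2 : finrank F ↥(Submodule.comap W.subtype (LinearMap.ker π)) = finrank F K := by
      rw [← Submodule.finrank_map_subtype_eq W (Submodule.comap W.subtype (LinearMap.ker π)),
        Submodule.map_comap_subtype]
    rw [h2] at h1
    exact h1
  -- (4) rank-nullity for ρ on K
  have h5 : finrank F K ≤ finrank F J + 2 := by
    have h1 := LinearMap.finrank_range_add_finrank_ker (ρ.domRestrict K)
    rw [LinearMap.range_domRestrict, LinearMap.ker_domRestrict] at h1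
    have h2 : finrank F ↥(Submodule.comap K.subtype (LinearMap.ker ρ)) = finrank F J := by
      rw [← Submodule.finrank_map_subtype_eq K (Submodule.comap K.subtype (LinearMap.ker ρ)),
        Submodule.map_comap_subtype]
    rw [h2] at h1
    have h3 : finrank F (K.map ρ) ≤ 2 := by
      have := Submodule.finrank_le (K.map ρ)
      rwa [Module.finrank_fin_fun] at this
    omega
  -- (5) finrank W' is even
  have he : Even (finrank F W') := by
    let B : W' →ₗ[F] W' →ₗ[F] F := ((Matrix.toLinearMap₂' F A).flip).domRestrict₁₂ W' W'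
    have hB : ∀ x y : W', B x y = (A *ᵥ (x : Fin n → F)) ⬝ᵥ (y : Fin n → F) := by
      intro x y
      show (Matrix.toLinearMap₂' F A) (y : Fin n → F) (x : Fin n → F) = _
      rw [Matrix.toLinearMap₂'_apply', dotProduct_comm]
    refine Cfsg.Agent.Helper36.even_finrank_of_alt (F := F) (finrank F W') W' B ?_ ?_ rfl
    · intro x
      rw [hB, hA]
      exact t2b_alt n (t0 n F) _
    · intro x hx
      obtain ⟨w₁, hw₁, hw₁a⟩ := x.2
      have hzero : L (π w₁) = 0 := by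
        by_contra hne'
        obtain ⟨y, hy, hy0⟩ := (hnd (L (π w₁)) (hLW w₁ hw₁) hne').2
        apply hy0
        rw [hL, t2b_polar_L]
        have := hx ⟨π y, Submodule.mem_map_of_mem hy⟩
        rw [hB] at this
        rw [hw₁a]
        exact this
      have hπ0 : π w₁ = 0 := hLinj (by rw [hzero, map_zero])
      apply Subtype.ext
      rw [← hw₁a, hπ0]
      rfl
  obtain ⟨j, hj⟩ := he
  obtain ⟨c, hc⟩ := h4
  exact ⟨J, hJW, hJts, by omega⟩

/-- T2B. -/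
theorem s90_two_even_bad {p : ℕ} [Fact p.Prime] [CharP F p] (d m : ℕ) (hd : 4 ≤ d) (hm : 2 ≤ m)
    (hme : Even m) (hmn : m + 2 ≤ 2 * d) (a b : F)
    (hab : ∀ x y : F, x ^ 2 + a * x * y + b * y ^ 2 = 0 → x = 0 ∧ y = 0) (hp2 : p = 2)
    (hall : AllEll (Cfsg.quadFormMinus (d - 1) F a b) 2 m) :
    Even d ∨ m % 4 = 2 := by
  rcases Nat.even_or_odd d with hde | hdo
  · exact Or.inl hde
  · right
    by_contra hm4
    have hne : Even (d - 1) := by
      obtain ⟨k, hk⟩ := hdo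
      exact ⟨k, by omega⟩
    have h4 : 4 ∣ m := by
      obtain ⟨k, hk⟩ := hme
      omega
    have h0 : p • t0 (d - 1) F = 0 := by
      ext i j
      simp [Matrix.smul_apply]
    have hpow : (sieg (t0 (d - 1) F)) ^ 2 = 1 := by
      rw [← hp2, Cfsg.Agent.Helper74.ELP.sieg_pow, h0, sieg_zero]
    have hΩ0 : sieg (t0 (d - 1) F) ∈ Cfsg.Geo.omegaGL (Cfsg.quadFormPlus (d - 1) F) := by
      have h := sieg_mem_omega (n := Fin (d - 1)) (F := F) (by simp; omega) (t0 (d - 1) F)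
      exact h
    have hΩ := t2b_emb_omega (d - 1) a b _ hΩ0
    have hx := hall (t2bEmb (d - 1) F (sieg (t0 (d - 1) F))) hΩ
      ⟨1, by rw [← map_pow, hpow, map_one, one_smul]; rfl⟩
      (fun z heq => by
        apply Cfsg.Agent.Helper74.ELP.t0_ne (F := F) (d - 1) (by omega)
        ext i j
        have h1 := congrFun (congrFun heq (Sum.inl (Sum.inl i))) (Sum.inl (Sum.inr j))
        have h2 : ((t2bEmb (d - 1) F (sieg (t0 (d - 1) F)) :
            GL ((Fin (d - 1) ⊕ Fin (d - 1)) ⊕ Fin 2) F) :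
            Matrix ((Fin (d - 1) ⊕ Fin (d - 1)) ⊕ Fin 2) ((Fin (d - 1) ⊕ Fin (d - 1)) ⊕ Fin 2) F)
            (Sum.inl (Sum.inl i)) (Sum.inl (Sum.inr j))
            = (t0 (d - 1) F - (t0 (d - 1) F)ᵀ) i j := rfl
        rw [h2] at h1
        rw [h1]
        simp [Matrix.smul_apply, Matrix.one_apply])
    obtain ⟨W, ⟨hdim, hnd, hnp⟩, hinv⟩ := hx
    exact hnp (t2b_plus (d - 1) hne a b hab W hnd hinv (by rw [hdim]; exact h4))

end Cfsg.Agent.Helper30.S90
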