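import Mathlib

/-!
# Conjugate subgroups and a few general lemmas used for the TI-subgroup theorem (S1786)
-/

set_option autoImplicit false
set_option linter.unusedSimpArgs false
set_option linter.unnecessarySimpa false
set_option linter.unusedVariables false
set_option linter.style.haveILetI false

namespace Cfsg.Agent.Helper30

open Subgroup

variable {G : Type*} [Group G]

/-- The conjugate subgroup `x K x⁻¹`. -/
abbrev cj (x : G) (K : Subgroup G) : Subgroup G := K.map (MulAut.conj x).toMonoidHom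

theorem mem_cj {x y : G} {K : Subgroup G} : y ∈ cj x K ↔ x⁻¹ * y * x ∈ K := by
  constructor
  · intro h
    obtain ⟨z, hz, rfl⟩ := Subgroup.mem_map.mp h
    have : x⁻¹ * ((MulAut.conj x).toMonoidHom z) * x = z := by
      show x⁻¹ * (x * z * x⁻¹) * x = z
      group
    rw [this]; exact hz
  · intro h
    refine Subgroup.mem_map.mpr ⟨x⁻¹ * y * x, h, ?_⟩
    show x * (x⁻¹ * y * x) * x⁻¹ = y
    group

theorem conj_mem_cj {x k : G} {K : Subgroup G} (hk : k ∈ K) : x * k * x⁻¹ ∈ cj x K := by
  rw [mem_cj]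
  have : x⁻¹ * (x * k * x⁻¹) * x = k := by group
  rw [this]; exact hk

theorem cj_one (K : Subgroup G) : cj 1 K = K := by
  ext y; rw [mem_cj]; simp

theorem cj_mul (x y : G) (K : Subgroup G) : cj (x * y) K = cj x (cj y K) := by
  ext z
  rw [mem_cj, mem_cj, mem_cj]
  have : (x * y)⁻¹ * z * (x * y) = y⁻¹ * (x⁻¹ * z * x) * y := by group
  rw [this]

theorem cj_inv_cj (x : G) (K : Subgroup G) : cj x⁻¹ (cj x K) = K := by
  rw [← cj_mul, inv_mul_cancel, cj_one]

theorem cj_cj_inv (x : G) (K : Subgroup G) : cj x (cj x⁻¹ K) = K := by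
  rw [← cj_mul, mul_inv_cancel, cj_one]

theorem cj_mono {H K : Subgroup G} (h : H ≤ K) (x : G) : cj x H ≤ cj x K :=
  Subgroup.map_mono h

theorem cj_le_iff {x : G} {H K : Subgroup G} : cj x H ≤ K ↔ H ≤ cj x⁻¹ K := by
  constructor
  · intro h
    have := cj_mono h x⁻¹
    rwa [cj_inv_cj] at this
  · intro h
    have := cj_mono h x
    rwa [cj_cj_inv] at this

theorem card_cj (x : G) (K : Subgroup G) : Nat.card (cj x K) = Nat.card K :=
  Subgroup.card_map_of_injective (MulAut.conj x).injective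

theorem cj_eq_of_mem_normalizer {x : G} {K : Subgroup G} (hx : x ∈ normalizer (K : Set G)) :
    cj x K = K := by
  ext y
  rw [mem_cj]
  have h1 := (mem_normalizer_iff.mp hx (x⁻¹ * y * x))
  have e : x * (x⁻¹ * y * x) * x⁻¹ = y := by group
  rw [e] at h1
  exact h1

theorem mem_normalizer_of_cj_eq {x : G} {K : Subgroup G} (h : cj x K = K) :
    x ∈ normalizer (K : Set G) := by
  rw [mem_normalizer_iff]
  intro k
  constructor
  · intro hk
    rw [← h]; exact conj_mem_cj hk
  · intro hk
    rw [← h, mem_cj] at hk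
    have e : x⁻¹ * (x * k * x⁻¹) * x = k := by group
    rwa [e] at hk

theorem mem_normalizer_of_cj_le [Finite G] {x : G} {K : Subgroup G} (h : cj x K ≤ K) :
    x ∈ normalizer (K : Set G) :=
  mem_normalizer_of_cj_eq (Subgroup.eq_of_le_of_card_ge h (card_cj x K).ge)

theorem cj_centralizer (x : G) (K : Subgroup G) :
    cj x (centralizer (K : Set G)) = centralizer ((cj x K : Subgroup G) : Set G) := by
  ext y
  rw [mem_cj, mem_centralizer_iff, mem_centralizer_iff]
  constructor
  · intro h z hz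
    have hz' : x⁻¹ * z * x ∈ K := mem_cj.mp hz
    have := h _ hz'
    have e1 : z * y = x * ((x⁻¹ * z * x) * (x⁻¹ * y * x)) * x⁻¹ := by group
    rw [e1, this]; group
  · intro h k hk
    have := h _ (conj_mem_cj (x := x) hk)
    have e1 : k * (x⁻¹ * y * x) = x⁻¹ * ((x * k * x⁻¹) * y) * x := by group
    rw [e1, this]; group

theorem cj_normalizer (x : G) (K : Subgroup G) :
    cj x (normalizer (K : Set G)) = normalizer ((cj x K : Subgroup G) : Set G) := by
  ext y
  rw [mem_cj, mem_normalizer_iff, mem_normalizer_iff]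
  constructor
  · intro h z
    rw [mem_cj, mem_cj, h (x⁻¹ * z * x)]
    have e : x⁻¹ * y * x * (x⁻¹ * z * x) * (x⁻¹ * y * x)⁻¹ = x⁻¹ * (y * z * y⁻¹) * x := by group
    rw [e]
  · intro h k
    have := h (x * k * x⁻¹)
    rw [mem_cj, mem_cj] at this
    have e1 : x⁻¹ * (x * k * x⁻¹) * x = k := by group
    have e2 : x⁻¹ * (y * (x * k * x⁻¹) * y⁻¹) * x = x⁻¹ * y * x * k * (x⁻¹ * y * x)⁻¹ := by group
    rw [e1, e2] at this
    exact this

theorem cj_inf (x : G) (H K : Subgroup G) : cj x (H ⊓ K) = cj x H ⊓ cj x K :=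
  Subgroup.map_inf H K _ (MulAut.conj x).injective

theorem cj_sup (x : G) (H K : Subgroup G) : cj x (H ⊔ K) = cj x H ⊔ cj x K :=
  Subgroup.map_sup H K _

theorem cj_bot (x : G) : cj x (⊥ : Subgroup G) = ⊥ := Subgroup.map_bot _

theorem cj_injective (x : G) {H K : Subgroup G} (h : cj x H = cj x K) : H = K := by
  have := congrArg (cj x⁻¹) h
  rwa [cj_inv_cj, cj_inv_cj] at this

/-- Elements of `H ⊔ K` when `H` normalizes `K`. -/
theorem mem_sup_of_normalizes {H K : Subgroup G} (h : H ≤ normalizer (K : Set G)) {z : G} :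
    z ∈ H ⊔ K ↔ ∃ x ∈ H, ∃ y ∈ K, z = x * y := by
  rw [le_normalizer_iff] at h
  constructor
  · intro hz
    let T : Subgroup G :=
      { carrier := {z | ∃ x ∈ H, ∃ y ∈ K, z = x * y}
        mul_mem' := by
          rintro _ _ ⟨x, hx, y, hy, rfl⟩ ⟨x', hx', y', hy', rfl⟩
          refine ⟨x * x', H.mul_mem hx hx', (x'⁻¹ * y * x'⁻¹⁻¹) * y',
            K.mul_mem (h _ (H.inv_mem hx') _ hy) hy', ?_⟩
          group
        one_mem' := ⟨1, H.one_mem, 1, K.one_mem, by simp⟩
        inv_mem' := by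
          rintro _ ⟨x, hx, y, hy, rfl⟩
          refine ⟨x⁻¹, H.inv_mem hx, x * y⁻¹ * x⁻¹, h _ hx _ (K.inv_mem hy), ?_⟩
          group }
    have hT : H ⊔ K ≤ T := by
      apply sup_le
      · intro x hx; exact ⟨x, hx, 1, K.one_mem, by simp⟩
      · intro y hy; exact ⟨1, H.one_mem, y, hy, by simp⟩
    exact hT hz
  · rintro ⟨x, hx, y, hy, rfl⟩
    exact mul_mem (mem_sup_left hx) (mem_sup_right hy)

theorem le_normalizer_sup {N H K : Subgroup G} (hH : N ≤ normalizer (H : Set G))
    (hK : N ≤ normalizer (K : Set G)) : N ≤ normalizer ((H ⊔ K : Subgroup G) : Set G) := by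
  intro n hn
  apply mem_normalizer_of_cj_eq
  rw [cj_sup, cj_eq_of_mem_normalizer (hH hn), cj_eq_of_mem_normalizer (hK hn)]

theorem le_normalizer_inf {N H K : Subgroup G} (hH : N ≤ normalizer (H : Set G))
    (hK : N ≤ normalizer (K : Set G)) : N ≤ normalizer ((H ⊓ K : Subgroup G) : Set G) := by
  intro n hn
  apply mem_normalizer_of_cj_eq
  rw [cj_inf, cj_eq_of_mem_normalizer (hH hn), cj_eq_of_mem_normalizer (hK hn)]

theorem le_normalizer_centralizer {N K : Subgroup G} (hK : N ≤ normalizer (K : Set G)) :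
    N ≤ normalizer ((centralizer (K : Set G) : Subgroup G) : Set G) := by
  intro n hn
  apply mem_normalizer_of_cj_eq
  rw [cj_centralizer, cj_eq_of_mem_normalizer (hK hn)]

/-- The join of two commuting abelian subgroups is abelian. -/
theorem comm_of_sup {H K : Subgroup G} (hH : ∀ x ∈ H, ∀ y ∈ H, x * y = y * x)
    (hK : ∀ x ∈ K, ∀ y ∈ K, x * y = y * x) (hHK : ∀ x ∈ H, ∀ y ∈ K, x * y = y * x) :
    ∀ x ∈ H ⊔ K, ∀ y ∈ H ⊔ K, x * y = y * x := by
  have h1 : H ⊔ K ≤ centralizer (H : Set G) := by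
    apply sup_le
    · intro x hx; rw [mem_centralizer_iff]; intro y hy; exact hH y hy x hx
    · intro x hx; rw [mem_centralizer_iff]; intro y hy; exact hHK y hy x hx
  have h2 : H ⊔ K ≤ centralizer (K : Set G) := by
    apply sup_le
    · intro x hx; rw [mem_centralizer_iff]; intro y hy; exact (hHK x hx y hy).symm
    · intro x hx; rw [mem_centralizer_iff]; intro y hy; exact hK y hy x hx
  have h3 : H ⊔ K ≤ centralizer ((H ⊔ K : Subgroup G) : Set G) := by
    apply sup_le
    · intro x hx; rw [mem_centralizer_iff]; intro y hy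
      exact (mem_centralizer_iff.mp (h1 hy) x hx).symm
    · intro x hx; rw [mem_centralizer_iff]; intro y hy
      exact (mem_centralizer_iff.mp (h2 hy) x hx).symm
  intro x hx y hy
  exact mem_centralizer_iff.mp (h3 hy) x hx

/-- A subgroup generated by pairwise commuting elements is abelian. -/
theorem comm_of_closure {S : Set G} (hS : ∀ x ∈ S, ∀ y ∈ S, x * y = y * x) :
    ∀ x ∈ closure S, ∀ y ∈ closure S, x * y = y * x := by
  have h1 : closure S ≤ centralizer S := by
    rw [closure_le]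
    intro x hx
    show x ∈ centralizer S
    rw [mem_centralizer_iff]; intro y hy; exact hS y hy x hx
  have h2 : closure S ≤ centralizer ((closure S : Subgroup G) : Set G) := by
    rw [closure_le]
    intro x hx
    show x ∈ centralizer ((closure S : Subgroup G) : Set G)
    rw [mem_centralizer_iff]; intro y hy
    exact (mem_centralizer_iff.mp (h1 hy) x hx).symm
  intro x hx y hy
  exact mem_centralizer_iff.mp (h2 hy) x hx

/-- If conjugation by the elements of `N` maps generators into the generated subgroup, `N`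
normalizes it. -/
theorem le_normalizer_closure {S : Set G} {N : Subgroup G}
    (h : ∀ m ∈ N, ∀ s ∈ S, m * s * m⁻¹ ∈ closure S) : N ≤ normalizer ((closure S : Subgroup G) : Set G) := by
  rw [le_normalizer_iff]
  intro m hm x hx
  induction hx using closure_induction with
  | mem s hs => exact h m hm s hs
  | one => simpa using (closure S).one_mem
  | mul x y hx hy ihx ihy =>
    have := (closure S).mul_mem ihx ihy
    have e : m * x * m⁻¹ * (m * y * m⁻¹) = m * (x * y) * m⁻¹ := by group
    rwa [e] at this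
  | inv x hx ih =>
    have := (closure S).inv_mem ih
    have e : (m * x * m⁻¹)⁻¹ = m * x⁻¹ * m⁻¹ := by group
    rwa [e] at this

/-- In a finite `p`-group `P`, a `P`-invariant subgroup `K ≤ P` not contained in `V` has an
element outside `V` whose commutators with `P` all lie in `V`. -/
theorem exists_central_mod [Finite G] {p : ℕ} [Fact p.Prime] {P K V : Subgroup G}
    (hP : IsPGroup p P) (hKP : K ≤ P) (hK : ∀ y ∈ P, ∀ x ∈ K, y * x * y⁻¹ ∈ K) (hne : ¬ K ≤ V) :
    ∃ x ∈ K, x ∉ V ∧ ∀ y ∈ P, x * y * x⁻¹ * y⁻¹ ∈ V := by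
  by_contra hcon
  push Not at hcon
  have hnil : Group.IsNilpotent ↥P := hP.isNilpotent
  have step : ∀ n : ℕ, ∃ x ∈ K, x ∉ V ∧ x ∈ P.lowerCentralSeries n := by
    intro n
    induction n with
    | zero =>
      obtain ⟨x, hxK, hxV⟩ := SetLike.not_le_iff_exists.mp hne
      exact ⟨x, hxK, hxV, hKP hxK⟩
    | succ n ih =>
      obtain ⟨x, hxK, hxV, hxn⟩ := ih
      obtain ⟨y, hyP, hy⟩ := hcon x hxK hxV
      have hmemK : x * y * x⁻¹ * y⁻¹ ∈ K := by
        have := K.mul_mem hxK (hK y hyP _ (K.inv_mem hxK))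
        simpa [mul_assoc] using this
      refine ⟨x * y * x⁻¹ * y⁻¹, hmemK, hy, ?_⟩
      rw [Subgroup.lowerCentralSeries_succ]
      exact Subgroup.commutator_mem_commutator hxn hyP
  obtain ⟨n, hn⟩ := (Subgroup.isNilpotent_iff_lowerCentralSeries P).mp hnil
  obtain ⟨x, hxK, hxV, hxn⟩ := step n
  rw [hn, Subgroup.mem_bot] at hxn
  apply hxV
  rw [hxn]; exact V.one_mem

end Cfsg.Agent.Helper30
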