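import Cfsg.Agent.Helper30.TIConfig
import Cfsg.Agent.Helper49.AxB

/-!
# The TI-subgroup setting of S1786: `V ≤ Q^g`
-/

set_option autoImplicit false
set_option linter.unusedSimpArgs false
set_option linter.unnecessarySimpa false
set_option linter.unusedVariables false
set_option linter.style.haveILetI false
set_option linter.unusedSectionVars false

namespace Cfsg.Agent.Helper30

open Subgroup

variable {G : Type*} [Group G]

namespace TIConfig

variable {V Q : Subgroup G} {g k : G}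

/-- `C_G(P^g) ≤ V^g`. -/
theorem cent_PA [Finite G] (c : TIConfig V Q g k) {x : G}
    (hx : ∀ p ∈ cj g (PP V Q), x * p = p * x) : x ∈ cj g V := by
  rw [mem_cj]
  apply c.toTISetting.cent_P
  intro p hp
  have := hx _ (conj_mem_cj (x := g) hp)
  calc g⁻¹ * x * g * p = g⁻¹ * (x * (g * p * g⁻¹)) * g := by group
    _ = g⁻¹ * ((g * p * g⁻¹) * x) * g := by rw [this]
    _ = p * (g⁻¹ * x * g) := by group

theorem W_sq [Finite G] (c : TIConfig V Q g k) {w : G} (hw : w ∈ V ⊔ cj g V) : w * w = 1 := by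
  have h := c.toTISetting
  obtain ⟨v, hv, a, ha, rfl⟩ := c.W_mem_iff.mp hw
  have e1 : a * v = v * a := h.P_comm_V (c.A_le_P ha) hv
  calc v * a * (v * a) = v * (a * v) * a := by group
    _ = v * (v * a) * a := by rw [e1]
    _ = (v * v) * (a * a) := by group
    _ = 1 := by rw [h.sq v hv, h.cj_sq ha, one_mul]

/-- If `u` centralizes `C_P(A)` and `V`, then `[p, u] ∈ W` for `p ∈ P`. -/
theorem key1 [Finite G] (c : TIConfig V Q g k) {u : G}
    (huX : ∀ x ∈ PP V Q ⊓ centralizer ((cj g V : Subgroup G) : Set G), u * x = x * u)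
    {p : G} (hp : p ∈ PP V Q) : cm p u ∈ V ⊔ cj g V := by
  have h := c.toTISetting
  have huV : ∀ v ∈ V, u * v = v * u := fun v hv => huX v (c.W_le_X (mem_sup_left hv))
  have huN : u ∈ normalizer (V : Set G) := by
    apply centralizer_le_normalizer
    rw [mem_centralizer_iff]
    intro v hv
    exact (huV v hv).symm
  have huNP := h.N_le_normalizer_P huN
  have hcmP : cm p u ∈ PP V Q := by
    have := mul_mem hp ((mem_normalizer_iff.mp huNP p⁻¹).mp (inv_mem hp))
    have e : p * (u * p⁻¹ * u⁻¹) = cm p u := by unfold cm; group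
    rwa [e] at this
  apply c.step5a hcmP
  intro x hx
  have hz : cm x p ∈ V := h.cm_mem_V hx.1 hp
  have e1 : x * cm p u * x⁻¹ = cm (x * p * x⁻¹) (x * u * x⁻¹) := by unfold cm; group
  have e2 : x * u * x⁻¹ = u := mul_inv_eq_iff_eq_mul.mpr (huX x hx).symm
  have e3 : x * p * x⁻¹ = cm x p * p := conj_eq_cm_mul x p
  have hzu : (cm x p)⁻¹ * u⁻¹ = u⁻¹ * (cm x p)⁻¹ := by
    rw [← mul_inv_rev, ← mul_inv_rev, huV _ hz]
  have e4 : cm (cm x p * p) u = cm x p * cm p u * (cm x p)⁻¹ := by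
    calc cm (cm x p * p) u = cm x p * p * u * p⁻¹ * ((cm x p)⁻¹ * u⁻¹) := by unfold cm; group
      _ = cm x p * p * u * p⁻¹ * (u⁻¹ * (cm x p)⁻¹) := by rw [hzu]
      _ = cm x p * cm p u * (cm x p)⁻¹ := by unfold cm; group
  have e5 : cm x p * cm p u * (cm x p)⁻¹ = cm p u := by
    rw [← h.P_comm_V hcmP hz]; group
  have e6 : x * cm p u * x⁻¹ = cm p u := by rw [e1, e2, e3, e4, e5]
  exact (mul_inv_eq_iff_eq_mul.mp e6).symm

/-- If `u` centralizes `C_P(A)`, then `[b, u] ∈ V` for `b ∈ B`. -/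
theorem key2 [Finite G] (c : TIConfig V Q g k) {u : G}
    (huX : ∀ x ∈ PP V Q ⊓ centralizer ((cj g V : Subgroup G) : Set G), u * x = x * u)
    {b : G} (hb : b ∈ cj k V) : cm b u ∈ V := by
  have h := c.toTISetting
  by_cases hb1 : b = 1
  · rw [hb1, cm_one_left]; exact one_mem _
  have hw := c.key1 huX (c.B_le_P hb)
  obtain ⟨v, hv, a, ha, hva⟩ := c.W_mem_iff.mp hw
  have hbb : b * b = 1 := h.cj_sq hb
  have hww : cm b u * cm b u = 1 := c.W_sq hw
  have e1 : b * cm b u = u * b⁻¹ * u⁻¹ := by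
    calc b * cm b u = (b * b) * u * b⁻¹ * u⁻¹ := by unfold cm; group
      _ = u * b⁻¹ * u⁻¹ := by rw [hbb, one_mul]
  have e2 : (b * cm b u) * (b * cm b u) = 1 := by
    rw [e1]
    calc (u * b⁻¹ * u⁻¹) * (u * b⁻¹ * u⁻¹) = u * (b * b)⁻¹ * u⁻¹ := by group
      _ = 1 := by rw [hbb]; group
  have i1 : (b * cm b u)⁻¹ = b * cm b u := inv_eq_of_mul_eq_one_left e2
  have i2 : (cm b u)⁻¹ = cm b u := inv_eq_of_mul_eq_one_left hww
  have i3 : b⁻¹ = b := inv_eq_of_mul_eq_one_left hbb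
  have e3 : b * cm b u = cm b u * b := by
    calc b * cm b u = (b * cm b u)⁻¹ := i1.symm
      _ = (cm b u)⁻¹ * b⁻¹ := mul_inv_rev _ _
      _ = cm b u * b := by rw [i2, i3]
  have hbv : b * v = v * b := h.P_comm_V (c.B_le_P hb) hv
  have hba : a * b = b * a := by
    have e4 : a = v⁻¹ * cm b u := by rw [hva]; group
    rw [e4]
    have hbv' : b * v⁻¹ = v⁻¹ * b := h.P_comm_V (c.B_le_P hb) (V.inv_mem hv)
    rw [mul_assoc, ← e3, ← mul_assoc, ← hbv', mul_assoc]
  by_cases ha1 : a = 1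
  · rw [hva, ha1, mul_one]; exact hv
  · exact absurd hba (c.step4c ha hb ha1 hb1)

/-- If `u` centralizes `C_P(A)`, then `u ∈ W`. -/
theorem key3 [Finite G] (c : TIConfig V Q g k) {u : G}
    (huX : ∀ x ∈ PP V Q ⊓ centralizer ((cj g V : Subgroup G) : Set G), u * x = x * u) :
    u ∈ V ⊔ cj g V := by
  have h := c.toTISetting
  have huV : ∀ v ∈ V, u * v = v * u := fun v hv => huX v (c.W_le_X (mem_sup_left hv))
  obtain ⟨b0, hb0, hb01⟩ := h.cj_exists_ne_one k
  have hb0A := c.B_not_cent hb0 hb01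
  have hb0P := c.B_le_P hb0
  obtain ⟨a, ha, haz⟩ := h.step3b c.gne c.gQ hb0P hb0A _ (c.key2 huX hb0)
  have haP := c.A_le_P ha
  -- conjugation of `t = u * a` by elements of `B`
  have hconj : ∀ b1 ∈ cj k V, b1 * (u * a) * b1⁻¹ = cm b1 u * cm b1 a * (u * a) := by
    intro b1 hb1
    have hc2 : cm b1 a ∈ V := h.cm_mem_V (c.B_le_P hb1) haP
    calc b1 * (u * a) * b1⁻¹ = (b1 * u * b1⁻¹) * (b1 * a * b1⁻¹) := by group
      _ = (cm b1 u * u) * (cm b1 a * a) := by rw [conj_eq_cm_mul, conj_eq_cm_mul]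
      _ = cm b1 u * (u * cm b1 a) * a := by group
      _ = cm b1 u * (cm b1 a * u) * a := by rw [huV _ hc2]
      _ = cm b1 u * cm b1 a * (u * a) := by group
  have ht0 : (u * a) * b0 = b0 * (u * a) := by
    have e1 := hconj b0 hb0
    rw [h.cm_symm hb0P haP, haz, h.sq _ (c.key2 huX hb0), one_mul] at e1
    exact (mul_inv_eq_iff_eq_mul.mp e1).symm
  have htN := h.cent_le_norm hb01 hb0 ht0
  have hBV := h.cj_inf_eq_bot c.kne
  have htB : ∀ b1 ∈ cj k V, (u * a) * b1 = b1 * (u * a) := by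
    intro b1 hb1
    have h1 : cm b1 (u * a) ∈ cj k V := by
      have := mul_mem hb1 ((mem_normalizer_iff.mp htN b1⁻¹).mp (inv_mem hb1))
      have e : b1 * (u * a * b1⁻¹ * (u * a)⁻¹) = cm b1 (u * a) := by unfold cm; group
      rwa [e] at this
    have h2 : cm b1 (u * a) ∈ V := by
      have e : cm b1 (u * a) = cm b1 u * cm b1 a := by
        calc cm b1 (u * a) = (b1 * (u * a) * b1⁻¹) * (u * a)⁻¹ := by unfold cm; group
          _ = cm b1 u * cm b1 a * (u * a) * (u * a)⁻¹ := by rw [hconj b1 hb1]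
          _ = cm b1 u * cm b1 a := by group
      rw [e]
      exact mul_mem (c.key2 huX hb1) (h.cm_mem_V (c.B_le_P hb1) haP)
    have h3 : cm b1 (u * a) ∈ cj k V ⊓ V := ⟨h1, h2⟩
    rw [hBV, mem_bot] at h3
    exact (cm_eq_one_iff.mp h3).symm
  have htX : ∀ x ∈ PP V Q ⊓ centralizer ((cj g V : Subgroup G) : Set G),
      (u * a) * x = x * (u * a) := by
    intro x hx
    have e1 : a * x = x * a := mem_centralizer_iff.mp hx.2 a ha
    rw [mul_assoc, e1, ← mul_assoc, huX x hx, mul_assoc]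
  have htP : ∀ p ∈ PP V Q, (u * a) * p = p * (u * a) := by
    intro p hp
    obtain ⟨x, hx, b, hb, rfl⟩ := c.step4e hp
    rw [← mul_assoc, htX x hx, mul_assoc, htB b hb, mul_assoc]
  have htV := h.cent_P htP
  have e : u = (u * a) * a⁻¹ := by group
  rw [e]
  exact mul_mem (mem_sup_left htV) (mem_sup_right (inv_mem ha))

/-- Some element of `N_G(W)` moves `V`. -/
theorem exists_move [Finite G] (c : TIConfig V Q g k) :
    ∃ y ∈ normalizer ((V ⊔ cj g V : Subgroup G) : Set G), cj y V ≠ V := by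
  haveI : Fact (Nat.Prime 2) := ⟨Nat.prime_two⟩
  have h := c.toTISetting
  by_contra hcon
  push Not at hcon
  have hX : IsPGroup 2 (PP V Q ⊓ centralizer ((cj g V : Subgroup G) : Set G) : Subgroup G) :=
    h.P_pgroup.to_le inf_le_left
  have hPA : IsPGroup 2 (cj g (PP V Q)) := h.P_pgroup.map _
  have hPAcent : cj g (PP V Q) ≤ centralizer ((cj g V : Subgroup G) : Set G) := by
    intro y hy
    rw [mem_centralizer_iff]
    intro a ha
    exact (c.PA_comm_A hy ha).symm
  -- (f1)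
  have f1 : PP V Q ⊓ centralizer ((cj g V : Subgroup G) : Set G)
      ≤ normalizer ((cj g (PP V Q) : Subgroup G) : Set G) := by
    intro x hx
    have h1 : x ∈ normalizer ((cj g V : Subgroup G) : Set G) := centralizer_le_normalizer _ hx.2
    rw [← cj_normalizer] at h1 ⊢
    exact cj_mono h.N_le_normalizer_P g h1
  -- (f2)
  have f2 : cj g (PP V Q) ⊓ centralizer (V : Set G)
      ≤ normalizer ((PP V Q ⊓ centralizer ((cj g V : Subgroup G) : Set G) : Subgroup G) : Set G) := by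
    intro y hy
    have h1 : y ∈ normalizer ((PP V Q : Subgroup G) : Set G) :=
      h.N_le_normalizer_P (centralizer_le_normalizer _ hy.2)
    have h2 : y ∈ normalizer ((centralizer ((cj g V : Subgroup G) : Set G) : Subgroup G) : Set G) :=
      le_normalizer_centralizer le_rfl (centralizer_le_normalizer _ (hPAcent hy.1))
    apply mem_normalizer_of_cj_eq
    rw [cj_inf, cj_eq_of_mem_normalizer h1, cj_eq_of_mem_normalizer h2]
  have hR : IsPGroup 2 ((PP V Q ⊓ centralizer ((cj g V : Subgroup G) : Set G)) ⊔ cj g (PP V Q) :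
      Subgroup G) := IsPGroup.to_sup_of_normal_right' hX hPA f1
  have hR1le : (PP V Q ⊓ centralizer ((cj g V : Subgroup G) : Set G)) ⊔
      (cj g (PP V Q) ⊓ centralizer (V : Set G))
      ≤ (PP V Q ⊓ centralizer ((cj g V : Subgroup G) : Set G)) ⊔ cj g (PP V Q) :=
    sup_le_sup_left inf_le_left _
  have hR1V : (PP V Q ⊓ centralizer ((cj g V : Subgroup G) : Set G)) ⊔
      (cj g (PP V Q) ⊓ centralizer (V : Set G)) ≤ centralizer (V : Set G) :=
    sup_le (inf_le_left.trans inf_le_right) inf_le_right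
  have hR1ne : (PP V Q ⊓ centralizer ((cj g V : Subgroup G) : Set G)) ⊔
      (cj g (PP V Q) ⊓ centralizer (V : Set G))
      ≠ (PP V Q ⊓ centralizer ((cj g V : Subgroup G) : Set G)) ⊔ cj g (PP V Q) := by
    intro heq
    have h1 : cj g (PP V Q) ≤ centralizer (V : Set G) := by
      refine le_trans ?_ hR1V
      rw [heq]; exact le_sup_right
    have h2 : V ≤ cj g V := by
      intro v hv
      apply c.cent_PA
      intro p hp
      exact mem_centralizer_iff.mp (h1 hp) v hv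
    exact c.gne (Subgroup.eq_of_le_of_card_ge h2 (card_cj g V).le).symm
  obtain ⟨y, hyR, hyN, hyR1⟩ :=
    Cfsg.Agent.Helper49.exists_mem_normalizer_not_mem hR hR1le hR1ne
  obtain ⟨x, hx, y', hy', rfl⟩ := (mem_sup_of_normalizes f1).mp hyR
  have hxR1 : x ∈ (PP V Q ⊓ centralizer ((cj g V : Subgroup G) : Set G)) ⊔
      (cj g (PP V Q) ⊓ centralizer (V : Set G)) := mem_sup_left hx
  have hy'N : y' ∈ normalizer (((PP V Q ⊓ centralizer ((cj g V : Subgroup G) : Set G)) ⊔
      (cj g (PP V Q) ⊓ centralizer (V : Set G)) : Subgroup G) : Set G) := by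
    have := mul_mem (inv_mem (le_normalizer hxR1)) hyN
    rwa [inv_mul_cancel_left] at this
  have hy'R1 : y' ∉ (PP V Q ⊓ centralizer ((cj g V : Subgroup G) : Set G)) ⊔
      (cj g (PP V Q) ⊓ centralizer (V : Set G)) := fun h1 => hyR1 (mul_mem hxR1 h1)
  have hy'V : y' ∉ normalizer (V : Set G) := by
    intro h1
    exact hy'R1 (mem_sup_right ⟨hy', c.norm_V_in_PA hy' h1⟩)
  -- (f9)
  have f9 : ∀ u ∈ cj y' V, ∀ x ∈ PP V Q ⊓ centralizer ((cj g V : Subgroup G) : Set G),
      u * x = x * u := by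
    intro u hu x hx
    have hu' : y'⁻¹ * u * y' ∈ V := mem_cj.mp hu
    have hx' : y'⁻¹ * x * y'⁻¹⁻¹ ∈ centralizer (V : Set G) :=
      hR1V ((mem_normalizer_iff.mp (inv_mem hy'N) x).mp (mem_sup_left hx))
    have h1 := mem_centralizer_iff.mp hx' _ hu'
    calc u * x = y' * ((y'⁻¹ * u * y') * (y'⁻¹ * x * y'⁻¹⁻¹)) * y'⁻¹ := by group
      _ = y' * ((y'⁻¹ * x * y'⁻¹⁻¹) * (y'⁻¹ * u * y')) * y'⁻¹ := by rw [h1]
      _ = x * u := by group
  have f10 : cj y' V ≤ V ⊔ cj g V := fun u hu => c.key3 (f9 u hu)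
  have f11 : y' ∈ normalizer ((V ⊔ cj g V : Subgroup G) : Set G) := by
    apply mem_normalizer_of_cj_le
    rw [cj_sup, cj_eq_of_mem_normalizer (centralizer_le_normalizer _ (hPAcent hy'))]
    exact sup_le f10 le_sup_right
  exact hy'V (mem_normalizer_of_cj_eq (hcon y' f11))

/-- **Claim (a)**: `V ≤ Q^g`. -/
theorem claim_a [Finite G] (c : TIConfig V Q g k) : V ≤ cj g Q := by
  have h := c.toTISetting
  obtain ⟨k0, hk0W, hk0V⟩ := c.exists_move
  have h1 : cj k0 V ≤ V ⊔ cj g V := by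
    have := cj_mono (le_sup_left : V ≤ V ⊔ cj g V) k0
    rwa [cj_eq_of_mem_normalizer hk0W] at this
  obtain ⟨p, hp, hpk⟩ := c.sigma_members h1 hk0V
  have hk' : cj (p⁻¹ * k0) V = cj g V := by
    rw [cj_mul, hpk, cj_inv_cj]
  have hk'W : p⁻¹ * k0 ∈ normalizer ((V ⊔ cj g V : Subgroup G) : Set G) :=
    mul_mem (inv_mem (c.P_le_normalizer_W hp)) hk0W
  have h2 : cj (p⁻¹ * k0)⁻¹ V ≤ V ⊔ cj g V := by
    have := cj_mono (le_sup_left : V ≤ V ⊔ cj g V) (p⁻¹ * k0)⁻¹
    rwa [cj_eq_of_mem_normalizer (inv_mem hk'W)] at this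
  have h3 : cj (p⁻¹ * k0)⁻¹ V ≠ V := by
    intro h4
    have := congrArg (cj (p⁻¹ * k0)) h4
    rw [cj_cj_inv, hk'] at this
    exact c.gne this.symm
  obtain ⟨p', hp', hpk'⟩ := c.sigma_members h2 h3
  have h5 : cj p' (cj g V) ≤ Q := by
    have := cj_mono c.A_le_P p'
    rw [cj_eq_of_mem_normalizer (le_normalizer hp')] at this
    exact this.trans inf_le_left
  rw [← hpk', cj_le_iff, inv_inv] at h5
  have h6 : g⁻¹ * (p⁻¹ * k0) ∈ normalizer (V : Set G) := by
    apply mem_normalizer_of_cj_eq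
    rw [cj_mul, hk', cj_inv_cj]
  have h7 : cj (p⁻¹ * k0) Q = cj g Q := by
    have e : p⁻¹ * k0 = g * (g⁻¹ * (p⁻¹ * k0)) := by group
    rw [e, cj_mul, cj_eq_of_mem_normalizer (h.Q_normal h6)]
  rw [← h7]; exact h5

end TIConfig

end Cfsg.Agent.Helper30
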