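import Cfsg.Agent.Helper30.TISetting

/-!
# The TI-subgroup setting of S1786: the configuration `V, A = V^g, B = V^k` inside `P`
-/

set_option autoImplicit false
set_option linter.unusedSimpArgs false
set_option linter.unnecessarySimpa false
set_option linter.unusedVariables false
set_option linter.style.haveILetI false
set_option linter.unusedSectionVars false

namespace Cfsg.Agent.Helper30

open Subgroup

variable {G : Type*} [Group G]

namespace TISetting

variable {V Q : Subgroup G}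

/-- **Step 3a**: an element of `P` commuting with a nonidentity element of `A` centralizes `A`. -/
theorem step3a [Finite G] (h : TISetting V Q) {g : G} (hne : cj g V ≠ V) (hQ : cj g V ≤ Q)
    {a y : G} (ha : a ∈ cj g V) (ha1 : a ≠ 1) (hy : y ∈ PP V Q) (hay : a * y = y * a) :
    y ∈ centralizer ((cj g V : Subgroup G) : Set G) := by
  have hAP := h.A_le_P hne hQ
  have hyN := h.cent_le_norm ha1 ha hay.symm
  rw [mem_centralizer_iff]
  intro b hb
  have h1 : cm y b ∈ cj g V :=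
    mul_mem ((mem_normalizer_iff.mp hyN b).mp hb) (inv_mem hb)
  have h2 : cm y b ∈ V := h.cm_mem_V hy (hAP hb)
  have h3 : cm y b ∈ cj g V ⊓ V := ⟨h1, h2⟩
  rw [h.cj_inf_eq_bot hne, mem_bot] at h3
  exact (cm_eq_one_iff.mp h3).symm

theorem step3b_inj [Finite G] (h : TISetting V Q) {g : G} (hne : cj g V ≠ V) (hQ : cj g V ≤ Q)
    {y : G} (hy : y ∈ PP V Q) (hyA : y ∉ centralizer ((cj g V : Subgroup G) : Set G))
    {a b : G} (ha : a ∈ cj g V) (hb : b ∈ cj g V) (hab : cm a y = cm b y) : a = b := by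
  have hAP := h.A_le_P hne hQ
  have h1 : cm (a * b⁻¹) y = 1 := by
    rw [h.cm_mul_left (hAP ha) (inv_mem (hAP hb)) hy, h.cm_inv_left (hAP hb) hy, hab,
      h.cm_self_mul (hAP hb) hy]
  have h2 := cm_eq_one_iff.mp h1
  by_contra hne'
  have h3 : a * b⁻¹ ≠ 1 := fun h4 => hne' (mul_inv_eq_one.mp h4)
  exact hyA (h.step3a hne hQ (mul_mem ha (inv_mem hb)) h3 hy h2)

/-- **Step 3b**: for `y ∈ P` not centralizing `A`, `a ↦ [a, y]` maps `A` onto `V`. -/
theorem step3b [Finite G] (h : TISetting V Q) {g : G} (hne : cj g V ≠ V) (hQ : cj g V ≤ Q)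
    {y : G} (hy : y ∈ PP V Q) (hyA : y ∉ centralizer ((cj g V : Subgroup G) : Set G)) :
    ∀ v ∈ V, ∃ a ∈ cj g V, cm a y = v := by
  have hAP := h.A_le_P hne hQ
  let f : ↥(cj g V) → ↥V := fun a => ⟨cm (a : G) y, h.cm_mem_V (hAP a.2) hy⟩
  have hf : Function.Injective f := by
    rintro ⟨a, ha⟩ ⟨b, hb⟩ hab
    apply Subtype.ext
    exact h.step3b_inj hne hQ hy hyA ha hb (congrArg Subtype.val hab)
  have hbij := hf.bijective_of_nat_card_le (card_cj g V).ge
  intro v hv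
  obtain ⟨⟨a, ha⟩, hfa⟩ := hbij.2 ⟨v, hv⟩
  exact ⟨a, ha, congrArg Subtype.val hfa⟩

/-- **Step 4a**: some `N(V)`-conjugate of `A` does not centralize `A`. -/
theorem step4a [Finite G] (h : TISetting V Q) {g : G} (hne : cj g V ≠ V) (hQ : cj g V ≤ Q) :
    ∃ n ∈ normalizer (V : Set G), ¬ cj n (cj g V) ≤ centralizer ((cj g V : Subgroup G) : Set G) := by
  by_contra hcon
  push Not at hcon
  have hAP := h.A_le_P hne hQ
  let S : Set G := {x | ∃ n ∈ normalizer (V : Set G), x ∈ cj n (cj g V)}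
  have hScomm : ∀ x ∈ S, ∀ y ∈ S, x * y = y * x := by
    rintro x ⟨n, hn, hx⟩ y ⟨m, hm, hy⟩
    have hx' : n⁻¹ * x * n ∈ cj g V := mem_cj.mp hx
    have hy' : n⁻¹ * y * n ∈ cj (n⁻¹ * m) (cj g V) := by
      rw [mem_cj]
      have e : (n⁻¹ * m)⁻¹ * (n⁻¹ * y * n) * (n⁻¹ * m) = m⁻¹ * y * m := by group
      rw [e]; exact mem_cj.mp hy
    have h1 := mem_centralizer_iff.mp (hcon _ (mul_mem (inv_mem hn) hm) hy') _ hx'
    calc x * y = n * ((n⁻¹ * x * n) * (n⁻¹ * y * n)) * n⁻¹ := by group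
      _ = n * ((n⁻¹ * y * n) * (n⁻¹ * x * n)) * n⁻¹ := by rw [h1]
      _ = y * x := by group
  have hDN : closure S ≤ normalizer (V : Set G) := by
    rw [closure_le]
    rintro x ⟨n, hn, hx⟩
    have hx' : n⁻¹ * x * n ∈ normalizer (V : Set G) := h.P_le_N (hAP (mem_cj.mp hx))
    have := mul_mem (mul_mem hn hx') (inv_mem hn)
    have e : n * (n⁻¹ * x * n) * n⁻¹ = x := by group
    rwa [e] at this
  have hDV : closure S ≤ centralizer (V : Set G) := by
    rw [closure_le]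
    rintro x ⟨n, hn, hx⟩
    show x ∈ centralizer (V : Set G)
    rw [mem_centralizer_iff]
    intro v hv
    have hv' : n⁻¹ * v * n⁻¹⁻¹ ∈ V := (mem_normalizer_iff.mp (inv_mem hn) v).mp hv
    have h1 := h.P_comm_V (hAP (mem_cj.mp hx)) hv'
    calc v * x = n * ((n⁻¹ * v * n⁻¹⁻¹) * (n⁻¹ * x * n)) * n⁻¹ := by group
      _ = n * ((n⁻¹ * x * n) * (n⁻¹ * v * n⁻¹⁻¹)) * n⁻¹ := by rw [h1]
      _ = x * v := by group
  have hDnorm : normalizer (V : Set G) ≤ normalizer ((closure S : Subgroup G) : Set G) := by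
    apply le_normalizer_closure
    rintro m hm s ⟨n, hn, hs⟩
    apply Subgroup.subset_closure
    refine ⟨m * n, mul_mem hm hn, ?_⟩
    rw [cj_mul]
    exact conj_mem_cj hs
  have hD := h.abelian_normal_le hDN (comm_of_closure hScomm) hDV hDnorm
  have hAV : cj g V ≤ V := by
    intro a ha
    apply hD
    apply Subgroup.subset_closure
    exact ⟨1, one_mem _, by rw [cj_one]; exact ha⟩
  exact hne (Subgroup.eq_of_le_of_card_ge hAV (card_cj g V).ge)

end TISetting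

/-- The configuration: two conjugates `A = V^g`, `B = V^k` of `V` inside `Q`, different from `V`,
which do not centralize each other. -/
structure TIConfig (V Q : Subgroup G) (g k : G) : Prop extends TISetting V Q where
  gne : cj g V ≠ V
  gQ : cj g V ≤ Q
  kne : cj k V ≠ V
  kQ : cj k V ≤ Q
  AB : ¬ cj k V ≤ centralizer ((cj g V : Subgroup G) : Set G)

theorem TISetting.exists_config [Finite G] {V Q : Subgroup G} (h : TISetting V Q) {g : G}
    (hne : cj g V ≠ V) (hQ : cj g V ≤ Q) : ∃ k : G, TIConfig V Q g k := by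
  obtain ⟨n, hn, hAB⟩ := h.step4a hne hQ
  have hAP := h.A_le_P hne hQ
  refine ⟨n * g, { h with gne := hne, gQ := hQ, kne := ?_, kQ := ?_, AB := ?_ }⟩
  · intro h1
    apply hAB
    rw [← cj_mul, h1]
    intro v hv
    rw [mem_centralizer_iff]
    intro a ha
    exact h.P_comm_V (hAP ha) hv
  · rw [cj_mul]
    have := cj_mono hQ n
    rwa [cj_eq_of_mem_normalizer (h.Q_normal hn)] at this
  · rw [cj_mul]; exact hAB

namespace TIConfig

variable {V Q : Subgroup G} {g k : G}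

theorem A_le_P [Finite G] (c : TIConfig V Q g k) : cj g V ≤ PP V Q :=
  c.toTISetting.A_le_P c.gne c.gQ

theorem B_le_P [Finite G] (c : TIConfig V Q g k) : cj k V ≤ PP V Q :=
  c.toTISetting.A_le_P c.kne c.kQ

/-- **Step 4c**: nonidentity elements of `A` and `B` do not commute. -/
theorem step4c [Finite G] (c : TIConfig V Q g k) {a b : G} (ha : a ∈ cj g V) (hb : b ∈ cj k V)
    (ha1 : a ≠ 1) (hb1 : b ≠ 1) : a * b ≠ b * a := by
  intro hab
  have h := c.toTISetting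
  have hbA := h.step3a c.gne c.gQ ha ha1 (c.B_le_P hb) hab
  apply c.AB
  intro b' hb'
  rw [mem_centralizer_iff]
  intro a' ha'
  have h1 : a' * b = b * a' := mem_centralizer_iff.mp hbA a' ha'
  have h2 := h.step3a c.kne c.kQ hb hb1 (c.A_le_P ha') h1.symm
  exact (mem_centralizer_iff.mp h2 b' hb').symm

theorem B_not_cent [Finite G] (c : TIConfig V Q g k) {b : G} (hb : b ∈ cj k V) (hb1 : b ≠ 1) :
    b ∉ centralizer ((cj g V : Subgroup G) : Set G) := by
  intro hbA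
  obtain ⟨a, ha, ha1⟩ := c.toTISetting.cj_exists_ne_one g
  exact c.step4c ha hb ha1 hb1 (mem_centralizer_iff.mp hbA a ha)

/-- **Step 4d**: for `1 ≠ a ∈ A`, `b ↦ [a, b]` maps `B` onto `V`. -/
theorem step4d [Finite G] (c : TIConfig V Q g k) {a : G} (ha : a ∈ cj g V) (ha1 : a ≠ 1) :
    ∀ v ∈ V, ∃ b ∈ cj k V, cm a b = v := by
  have h := c.toTISetting
  let f : ↥(cj k V) → ↥V := fun b => ⟨cm a (b : G), h.cm_mem_V (c.A_le_P ha) (c.B_le_P b.2)⟩
  have hf : Function.Injective f := by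
    rintro ⟨b, hb⟩ ⟨b', hb'⟩ hbb
    apply Subtype.ext
    have hab : cm a b = cm a b' := congrArg Subtype.val hbb
    have h1 : cm a (b * b'⁻¹) = 1 := by
      rw [h.cm_mul_right (c.A_le_P ha) (c.B_le_P hb) (inv_mem (c.B_le_P hb')),
        h.cm_inv_right (c.A_le_P ha) (c.B_le_P hb'), hab,
        h.cm_self_mul (c.A_le_P ha) (c.B_le_P hb')]
    have h2 := cm_eq_one_iff.mp h1
    by_contra hne'
    have h3 : b * b'⁻¹ ≠ 1 := fun h4 => hne' (mul_inv_eq_one.mp h4)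
    exact c.step4c ha (mul_mem hb (inv_mem hb')) ha1 h3 h2
  have hbij := hf.bijective_of_nat_card_le (card_cj k V).ge
  intro v hv
  obtain ⟨⟨b, hb⟩, hfb⟩ := hbij.2 ⟨v, hv⟩
  exact ⟨b, hb, congrArg Subtype.val hfb⟩

/-- **Step 4e**: `P = C_P(A) B`. -/
theorem step4e [Finite G] (c : TIConfig V Q g k) {p : G} (hp : p ∈ PP V Q) :
    ∃ x ∈ PP V Q ⊓ centralizer ((cj g V : Subgroup G) : Set G), ∃ b ∈ cj k V, p = x * b := by
  have h := c.toTISetting
  obtain ⟨a0, ha0, ha01⟩ := h.cj_exists_ne_one g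
  obtain ⟨b, hb, hbv⟩ := c.step4d ha0 ha01 _ (h.cm_mem_V (c.A_le_P ha0) hp)
  have hx : p * b⁻¹ ∈ PP V Q := mul_mem hp (inv_mem (c.B_le_P hb))
  have h1 : cm a0 (p * b⁻¹) = 1 := by
    rw [h.cm_mul_right (c.A_le_P ha0) hp (inv_mem (c.B_le_P hb)),
      h.cm_inv_right (c.A_le_P ha0) (c.B_le_P hb), hbv, h.cm_self_mul (c.A_le_P ha0) hp]
  refine ⟨p * b⁻¹, ⟨hx, h.step3a c.gne c.gQ ha0 ha01 hx (cm_eq_one_iff.mp h1)⟩, b, hb, ?_⟩
  group

theorem V_le_centA [Finite G] (c : TIConfig V Q g k) :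
    V ≤ centralizer ((cj g V : Subgroup G) : Set G) := by
  intro v hv
  rw [mem_centralizer_iff]
  intro a ha
  exact c.toTISetting.P_comm_V (c.A_le_P ha) hv

theorem W_mem_iff [Finite G] (c : TIConfig V Q g k) {w : G} :
    w ∈ V ⊔ cj g V ↔ ∃ v ∈ V, ∃ a ∈ cj g V, w = v * a :=
  mem_sup_of_normalizes (c.V_le_centA.trans (centralizer_le_normalizer _))

theorem cjP_A_le_W [Finite G] (c : TIConfig V Q g k) {y : G} (hy : y ∈ PP V Q) :
    cj y (cj g V) ≤ V ⊔ cj g V := by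
  intro z hz
  have ha : y⁻¹ * z * y ∈ cj g V := mem_cj.mp hz
  have e : z = cm y (y⁻¹ * z * y) * (y⁻¹ * z * y) := by unfold cm; group
  rw [e]
  exact mul_mem (mem_sup_left (c.toTISetting.cm_mem_V hy (c.A_le_P ha))) (mem_sup_right ha)

theorem P_le_normalizer_W [Finite G] (c : TIConfig V Q g k) :
    PP V Q ≤ normalizer ((V ⊔ cj g V : Subgroup G) : Set G) := by
  intro y hy
  apply mem_normalizer_of_cj_le
  rw [cj_sup, cj_eq_of_mem_normalizer (c.toTISetting.P_le_N hy)]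
  exact sup_le le_sup_left (c.cjP_A_le_W hy)

theorem sigma_exists [Finite G] (c : TIConfig V Q g k) {w : G} (hw : w ∈ V ⊔ cj g V)
    (hw1 : w ≠ 1) : w ∈ V ∨ ∃ b ∈ cj k V, w ∈ cj b (cj g V) := by
  have h := c.toTISetting
  obtain ⟨v, hv, a, ha, rfl⟩ := c.W_mem_iff.mp hw
  by_cases ha1 : a = 1
  · left; rw [ha1, mul_one]; exact hv
  · right
    obtain ⟨b, hb, hbv⟩ := c.step4d ha ha1 v hv
    refine ⟨b, hb, ?_⟩
    have e : v * a = b * a * b⁻¹ := by
      rw [conj_eq_cm_mul, h.cm_symm (c.B_le_P hb) (c.A_le_P ha), hbv]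
    rw [e]; exact conj_mem_cj ha

theorem sigma_members [Finite G] (c : TIConfig V Q g k) {x : G} (hxW : cj x V ≤ V ⊔ cj g V)
    (hxV : cj x V ≠ V) : ∃ p ∈ PP V Q, cj x V = cj p (cj g V) := by
  have h := c.toTISetting
  obtain ⟨w, hw, hw1⟩ := h.cj_exists_ne_one x
  rcases c.sigma_exists (hxW hw) hw1 with hwV | ⟨b, hb, hwb⟩
  · exfalso
    apply hxV
    have := h.ti_unique (y := 1) hw1 hw (by rw [cj_one]; exact hwV)
    rwa [cj_one] at this
  · refine ⟨b, c.B_le_P hb, ?_⟩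
    rw [← cj_mul] at hwb ⊢
    exact h.ti_unique hw1 hw hwb

/-- **Claim (b)**: every nonidentity element of `W` lies in a unique conjugate of `V` inside `W`. -/
theorem claim_b [Finite G] (c : TIConfig V Q g k) :
    ∀ w ∈ V ⊔ cj g V, w ≠ 1 →
      ∃! U : Subgroup G, (∃ x : G, U = cj x V) ∧ U ≤ V ⊔ cj g V ∧ w ∈ U := by
  have h := c.toTISetting
  intro w hw hw1
  have huniq : ∀ U U' : Subgroup G, (∃ x : G, U = cj x V) ∧ U ≤ V ⊔ cj g V ∧ w ∈ U →
      (∃ x : G, U' = cj x V) ∧ U' ≤ V ⊔ cj g V ∧ w ∈ U' → U' = U := by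
    rintro U U' ⟨⟨x, rfl⟩, _, hwU⟩ ⟨⟨x', rfl⟩, _, hwU'⟩
    exact h.ti_unique hw1 hwU' hwU
  rcases c.sigma_exists hw hw1 with hwV | ⟨b, hb, hwb⟩
  · exact ⟨V, ⟨⟨1, (cj_one V).symm⟩, le_sup_left, hwV⟩, fun U' hU' =>
      huniq V U' ⟨⟨1, (cj_one V).symm⟩, le_sup_left, hwV⟩ hU'⟩
  · have hU : (∃ x : G, cj b (cj g V) = cj x V) ∧ cj b (cj g V) ≤ V ⊔ cj g V ∧
        w ∈ cj b (cj g V) :=
      ⟨⟨b * g, (cj_mul b g V).symm⟩, c.cjP_A_le_W (c.B_le_P hb), hwb⟩
    exact ⟨_, hU, fun U' hU' => huniq _ U' hU hU'⟩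

/-- **Step 5a**: `C_P(C_P(A)) = W`. -/
theorem step5a [Finite G] (c : TIConfig V Q g k) {z : G} (hz : z ∈ PP V Q)
    (hc : ∀ x ∈ PP V Q ⊓ centralizer ((cj g V : Subgroup G) : Set G), z * x = x * z) :
    z ∈ V ⊔ cj g V := by
  have h := c.toTISetting
  have hAX : cj g V ≤ PP V Q ⊓ centralizer ((cj g V : Subgroup G) : Set G) := by
    intro a ha
    refine Subgroup.mem_inf.mpr ⟨c.A_le_P ha, ?_⟩
    rw [mem_centralizer_iff]
    intro a' ha'
    exact h.cj_comm ha' ha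
  obtain ⟨b0, hb0, hb01⟩ := h.cj_exists_ne_one k
  have hb0A := c.B_not_cent hb0 hb01
  obtain ⟨a, ha, hav⟩ := h.step3b c.gne c.gQ (c.B_le_P hb0) hb0A _
    (h.cm_mem_V hz (c.B_le_P hb0))
  have hp1 : z * a⁻¹ ∈ PP V Q := mul_mem hz (inv_mem (c.A_le_P ha))
  have h1 : cm (z * a⁻¹) b0 = 1 := by
    rw [h.cm_mul_left hz (inv_mem (c.A_le_P ha)) (c.B_le_P hb0),
      h.cm_inv_left (c.A_le_P ha) (c.B_le_P hb0), hav, h.cm_self_mul hz (c.B_le_P hb0)]
  have h2 : z * a⁻¹ ∈ centralizer ((cj k V : Subgroup G) : Set G) :=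
    h.step3a c.kne c.kQ hb0 hb01 hp1 (cm_eq_one_iff.mp h1).symm
  have h3 : ∀ x ∈ PP V Q ⊓ centralizer ((cj g V : Subgroup G) : Set G),
      (z * a⁻¹) * x = x * (z * a⁻¹) := by
    intro x hx
    have e1 : a⁻¹ * x = x * a⁻¹ := mem_centralizer_iff.mp hx.2 _ (inv_mem ha)
    rw [mul_assoc, e1, ← mul_assoc, hc x hx, mul_assoc]
  have h4 : ∀ p ∈ PP V Q, (z * a⁻¹) * p = p * (z * a⁻¹) := by
    intro p hp
    obtain ⟨x, hx, b, hb, rfl⟩ := c.step4e hp
    have e1 : b * (z * a⁻¹) = (z * a⁻¹) * b := mem_centralizer_iff.mp h2 b hb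
    rw [← mul_assoc, h3 x hx, mul_assoc, ← e1, mul_assoc]
  have h5 := h.center_P hp1 h4
  have e : z = (z * a⁻¹) * a := by group
  rw [e]
  exact mul_mem (mem_sup_left h5) (mem_sup_right ha)

theorem W_le_X [Finite G] (c : TIConfig V Q g k) :
    V ⊔ cj g V ≤ PP V Q ⊓ centralizer ((cj g V : Subgroup G) : Set G) := by
  have h := c.toTISetting
  apply sup_le
  · exact le_inf h.V_le_P c.V_le_centA
  · intro a ha
    refine Subgroup.mem_inf.mpr ⟨c.A_le_P ha, ?_⟩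
    rw [mem_centralizer_iff]
    intro a' ha'
    exact h.cj_comm ha' ha

theorem W_comm_X [Finite G] (c : TIConfig V Q g k) {w x : G} (hw : w ∈ V ⊔ cj g V)
    (hx : x ∈ PP V Q ⊓ centralizer ((cj g V : Subgroup G) : Set G)) : w * x = x * w := by
  have h := c.toTISetting
  obtain ⟨v, hv, a, ha, rfl⟩ := c.W_mem_iff.mp hw
  have e1 : a * x = x * a := mem_centralizer_iff.mp hx.2 a ha
  have e2 : x * v = v * x := h.P_comm_V hx.1 hv
  rw [mul_assoc, e1, ← mul_assoc, ← e2, mul_assoc]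

/-- **Step 5b**: `N_G(C_P(A)) ≤ N_G(W)`. -/
theorem step5b [Finite G] (c : TIConfig V Q g k) :
    normalizer ((PP V Q ⊓ centralizer ((cj g V : Subgroup G) : Set G) : Subgroup G) : Set G)
      ≤ normalizer ((V ⊔ cj g V : Subgroup G) : Set G) := by
  intro n hn
  apply mem_normalizer_of_cj_le
  intro z hz
  have hw : n⁻¹ * z * n ∈ V ⊔ cj g V := mem_cj.mp hz
  have hzX : z ∈ PP V Q ⊓ centralizer ((cj g V : Subgroup G) : Set G) := by
    have := (mem_normalizer_iff.mp hn _).mp (c.W_le_X hw)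
    have e : n * (n⁻¹ * z * n) * n⁻¹ = z := by group
    rwa [e] at this
  apply c.step5a hzX.1
  intro x hx
  have hx' : n⁻¹ * x * n⁻¹⁻¹ ∈ PP V Q ⊓ centralizer ((cj g V : Subgroup G) : Set G) :=
    (mem_normalizer_iff.mp (inv_mem hn) x).mp hx
  have h1 := c.W_comm_X hw hx'
  calc z * x = n * ((n⁻¹ * z * n) * (n⁻¹ * x * n⁻¹⁻¹)) * n⁻¹ := by group
    _ = n * ((n⁻¹ * x * n⁻¹⁻¹) * (n⁻¹ * z * n)) * n⁻¹ := by rw [h1]
    _ = x * z := by group

end TIConfig

namespace TISetting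

variable {V Q : Subgroup G}

/-- **Step 6**: `C_G(P) ≤ V`. -/
theorem cent_P [Finite G] (h : TISetting V Q) {c : G} (hc : ∀ p ∈ PP V Q, c * p = p * c) :
    c ∈ V := by
  haveI : Fact (Nat.Prime 2) := ⟨Nat.prime_two⟩
  have hCV : centralizer ((PP V Q : Subgroup G) : Set G) ≤ centralizer (V : Set G) :=
    centralizer_le h.V_le_P
  have hCN : centralizer ((PP V Q : Subgroup G) : Set G) ≤ normalizer (V : Set G) :=
    hCV.trans (centralizer_le_normalizer _)
  have hCQ : ∀ x ∈ centralizer ((PP V Q : Subgroup G) : Set G), x ∈ Q → x ∈ V := by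
    intro x hx hxQ
    exact h.center_P ⟨hxQ, hCV hx⟩ (fun p hp => (mem_centralizer_iff.mp hx p hp).symm)
  have hodd : ∀ x ∈ centralizer ((PP V Q : Subgroup G) : Set G), (orderOf x).Coprime 2 →
      x = 1 := by
    intro x hx hcop
    have hB : ¬ 2 ∣ Nat.card (zpowers x) := by
      rw [Nat.card_zpowers]
      exact (Nat.Prime.coprime_iff_not_dvd Nat.prime_two).mp hcop.symm
    have hAB : ⁅V, zpowers x⁆ = ⊥ := by
      rw [commutator_eq_bot_iff_le_centralizer, le_centralizer_iff, zpowers_le]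
      exact hCV hx
    have hnA : V ≤ normalizer (Q : Set G) := h.V_le_Q.trans le_normalizer
    have hnB : zpowers x ≤ normalizer (Q : Set G) := zpowers_le.mpr (h.Q_normal (hCN hx))
    have hC : Q ⊓ centralizer (V : Set G) ≤ centralizer ((zpowers x : Subgroup G) : Set G) := by
      rw [le_centralizer_iff, zpowers_le]
      exact hx
    have h1 := Cfsg.Agent.Helper48.thompson_AxB Q V (zpowers x) h.Q_pgroup h.V_pgroup hB hAB
      hnA hnB hC
    rw [le_centralizer_iff, zpowers_le] at h1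
    have h2 : x ∈ Q := h.Q_self ⟨hCN hx, h1⟩
    obtain ⟨j, hj⟩ := h.Q_pgroup ⟨x, h2⟩
    exact Cfsg.Agent.Helper49.eq_one_of_pPow_of_coprime
      ⟨j, by simpa using congrArg Subtype.val hj⟩ hcop
  have hCp : IsPGroup 2 (centralizer ((PP V Q : Subgroup G) : Set G)) :=
    Cfsg.Agent.Helper49.isPGroup_of_coprime_order_trivial _ (fun g _ => isOfFinOrder_of_finite g)
      hodd
  have hCle := h.Q_max _ hCN hCp (le_normalizer_centralizer h.N_le_normalizer_P)
  have hcC : c ∈ centralizer ((PP V Q : Subgroup G) : Set G) := by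
    rw [mem_centralizer_iff]
    intro p hp
    exact (hc p hp).symm
  exact hCQ c hcC (hCle hcC)

end TISetting

namespace TIConfig

variable {V Q : Subgroup G} {g k : G}

/-- **Step 7**: an element centralizing `A` and a nonidentity element of `V` centralizes `V`. -/
theorem step7 [Finite G] (c : TIConfig V Q g k) {v y : G} (hv : v ∈ V) (hv1 : v ≠ 1)
    (hyv : y * v = v * y) (hyA : ∀ a ∈ cj g V, y * a = a * y) : ∀ u ∈ V, y * u = u * y := by
  have h := c.toTISetting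
  intro u hu
  by_cases hu1 : u = 1
  · rw [hu1]; simp
  obtain ⟨a, ha, ha1⟩ := h.cj_exists_ne_one g
  obtain ⟨b, hb, hbu⟩ := c.step4d ha ha1 u hu
  have hb1 : b ≠ 1 := by
    intro hb1
    rw [hb1, cm_one_right] at hbu
    exact hu1 hbu.symm
  have hbP := c.B_le_P hb
  have hbA := c.B_not_cent hb hb1
  have hAV := h.cj_inf_eq_bot c.gne
  -- `u * a ∈ U = cj b A`
  have hw : u * a ∈ cj (b * g) V := by
    rw [cj_mul]
    have e : u * a = b * a * b⁻¹ := by
      rw [conj_eq_cm_mul, h.cm_symm hbP (c.A_le_P ha), hbu]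
    rw [e]; exact conj_mem_cj ha
  obtain ⟨a', ha', hav⟩ := h.step3b c.gne c.gQ hbP hbA v hv
  have hw' : v * a' ∈ cj (b * g) V := by
    rw [cj_mul]
    have e : v * a' = b * a' * b⁻¹ := by
      rw [conj_eq_cm_mul, h.cm_symm hbP (c.A_le_P ha'), hav]
    rw [e]; exact conj_mem_cj ha'
  have hw'1 : v * a' ≠ 1 := by
    intro h1
    have h2 : a' = v⁻¹ := (inv_eq_of_mul_eq_one_right h1).symm
    have h3 : a' ∈ cj g V ⊓ V := ⟨ha', by rw [h2]; exact V.inv_mem hv⟩
    rw [hAV, mem_bot] at h3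
    rw [h3, mul_one] at h1
    exact hv1 h1
  have hyw' : y * (v * a') = (v * a') * y := by
    rw [← mul_assoc, hyv, mul_assoc, hyA a' ha', mul_assoc]
  have hyU := h.cent_le_norm hw'1 hw' hyw'
  have hyV := h.cent_le_norm_V hv1 hv hyv
  have h1 : y * (u * a) * y⁻¹ ∈ cj (b * g) V := (mem_normalizer_iff.mp hyU _).mp hw
  have e1 : y * (u * a) * y⁻¹ = (y * u * y⁻¹) * a := by
    have e0 : y * a * y⁻¹ = a := mul_inv_eq_iff_eq_mul.mpr (hyA a ha)
    calc y * (u * a) * y⁻¹ = (y * u * y⁻¹) * (y * a * y⁻¹) := by group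
      _ = (y * u * y⁻¹) * a := by rw [e0]
  rw [e1] at h1
  have h2 : (y * u * y⁻¹) * a * (u * a)⁻¹ ∈ cj (b * g) V := mul_mem h1 (inv_mem hw)
  have e2 : (y * u * y⁻¹) * a * (u * a)⁻¹ = y * u * y⁻¹ * u⁻¹ := by group
  rw [e2] at h2
  have h3 : y * u * y⁻¹ * u⁻¹ ∈ V :=
    mul_mem ((mem_normalizer_iff.mp hyV u).mp hu) (inv_mem hu)
  have hUV : cj (b * g) V ⊓ V = ⊥ := by
    rcases h.ti (b * g) with h4 | h4
    · exfalso
      rw [h4] at hw
      have h5 : a ∈ V := by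
        have := V.mul_mem (V.inv_mem hu) hw
        rwa [inv_mul_cancel_left] at this
      have h6 : a ∈ cj g V ⊓ V := ⟨ha, h5⟩
      rw [hAV, mem_bot] at h6
      exact ha1 h6
    · exact h4
  have h4 : y * u * y⁻¹ * u⁻¹ ∈ cj (b * g) V ⊓ V := ⟨h2, h3⟩
  rw [hUV, mem_bot] at h4
  exact cm_eq_one_iff.mp h4

theorem PA_comm_A (c : TIConfig V Q g k) {y a : G} (hy : y ∈ cj g (PP V Q)) (ha : a ∈ cj g V) :
    y * a = a * y := by
  have := c.toTISetting.P_comm_V (mem_cj.mp hy) (mem_cj.mp ha)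
  calc y * a = g * ((g⁻¹ * y * g) * (g⁻¹ * a * g)) * g⁻¹ := by group
    _ = g * ((g⁻¹ * a * g) * (g⁻¹ * y * g)) * g⁻¹ := by rw [this]
    _ = a * y := by group

/-- An element of `P^g` normalizing `V` centralizes `V`. -/
theorem norm_V_in_PA [Finite G] (c : TIConfig V Q g k) {y : G} (hy : y ∈ cj g (PP V Q))
    (hyN : y ∈ normalizer (V : Set G)) : y ∈ centralizer (V : Set G) := by
  haveI : Fact (Nat.Prime 2) := ⟨Nat.prime_two⟩
  have h := c.toTISetting
  have hPA : IsPGroup 2 (cj g (PP V Q)) := h.P_pgroup.map _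
  have hzy : IsPGroup 2 (zpowers y) := hPA.to_le (zpowers_le.mpr hy)
  have hR : IsPGroup 2 (zpowers y ⊔ V : Subgroup G) :=
    IsPGroup.to_sup_of_normal_right' hzy h.V_pgroup (zpowers_le.mpr hyN)
  have hRn : zpowers y ⊔ V ≤ normalizer (V : Set G) := sup_le (zpowers_le.mpr hyN) le_normalizer
  have hne : ¬ V ≤ (⊥ : Subgroup G) := fun h1 => h.ne_bot (le_bot_iff.mp h1)
  obtain ⟨v, hv, hv1, hv2⟩ := exists_central_mod hR le_sup_right (le_normalizer_iff.mp hRn) hne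
  have hv1' : v ≠ 1 := fun h1 => hv1 (by rw [h1]; exact one_mem _)
  have h1 := hv2 y (mem_sup_left (mem_zpowers y))
  rw [mem_bot] at h1
  have h2 : v * y = y * v := cm_eq_one_iff.mp h1
  rw [mem_centralizer_iff]
  intro u hu
  exact (c.step7 hv hv1' h2.symm (fun a ha => c.PA_comm_A hy ha) u hu).symm

end TIConfig

end Cfsg.Agent.Helper30
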