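import Cfsg.Agent.Helper30.TIClaimA
import Cfsg.Agent.Helper30.QPairSL2

/-!
# The TI-subgroup setting of S1786: symmetry between `V` and `V^g`, and the main theorem
-/

set_option autoImplicit false
set_option linter.unusedSimpArgs false
set_option linter.unnecessarySimpa false
set_option linter.unusedVariables false
set_option linter.style.haveILetI false
set_option linter.unusedSectionVars false

namespace Cfsg.Agent.Helper30

open Subgroup

variable {G : Type*} [Group G]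

theorem PP_cj (g : G) (V Q : Subgroup G) : PP (cj g V) (cj g Q) = cj g (PP V Q) := by
  rw [cj_inf, cj_centralizer]

namespace TISetting

variable {V Q : Subgroup G}

/-- The setting is invariant under conjugation. -/
theorem conj (h : TISetting V Q) (g : G) : TISetting (cj g V) (cj g Q) where
  comm := fun a ha b hb => h.cj_comm ha hb
  sq := fun a ha => h.cj_sq ha
  ne_bot := by
    obtain ⟨a, ha, ha1⟩ := h.cj_exists_ne_one g
    intro hb
    rw [hb, mem_bot] at ha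
    exact ha1 ha
  ti := fun x => by rw [← cj_mul]; exact h.ti' (x * g) g
  Q_le := by rw [← cj_normalizer]; exact cj_mono h.Q_le g
  Q_pgroup := h.Q_pgroup.map _
  Q_normal := by rw [← cj_normalizer, ← cj_normalizer]; exact cj_mono h.Q_normal g
  Q_self := by rw [← cj_normalizer, ← cj_centralizer, ← cj_inf]; exact cj_mono h.Q_self g
  Q_max := by
    intro R hR hRp hRn
    rw [← cj_normalizer] at hR hRn
    have h1 : cj g⁻¹ R ≤ normalizer (V : Set G) := by
      rw [cj_le_iff, inv_inv]; exact hR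
    have h2 : IsPGroup 2 (cj g⁻¹ R) := hRp.map _
    have h3 : normalizer (V : Set G) ≤ normalizer ((cj g⁻¹ R : Subgroup G) : Set G) := by
      rw [← cj_normalizer]
      exact cj_le_iff.mp hRn
    have := h.Q_max _ h1 h2 h3
    rw [cj_le_iff, inv_inv] at this
    exact this
  max := by
    intro A' hVA hAN hAc hAn
    rw [← cj_normalizer] at hAN hAn
    have h1 : V ≤ cj g⁻¹ A' := cj_le_iff.mp hVA
    have h2 : cj g⁻¹ A' ≤ normalizer (V : Set G) := by rw [cj_le_iff, inv_inv]; exact hAN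
    have h3 : ∀ a ∈ cj g⁻¹ A', ∀ b ∈ cj g⁻¹ A', a * b = b * a := by
      intro a ha b hb
      have ha' := mem_cj.mp ha
      have hb' := mem_cj.mp hb
      have := hAc _ ha' _ hb'
      calc a * b = g⁻¹ * ((g⁻¹⁻¹ * a * g⁻¹) * (g⁻¹⁻¹ * b * g⁻¹)) * g⁻¹⁻¹ := by group
        _ = g⁻¹ * ((g⁻¹⁻¹ * b * g⁻¹) * (g⁻¹⁻¹ * a * g⁻¹)) * g⁻¹⁻¹ := by rw [this]
        _ = b * a := by group
    have h4 : normalizer (V : Set G) ≤ normalizer ((cj g⁻¹ A' : Subgroup G) : Set G) := by
      rw [← cj_normalizer]; exact cj_le_iff.mp hAn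
    have := h.max _ h1 h2 h3 h4
    rw [← this, cj_cj_inv]

/-- Squares of elements of `P` lie in `V`. -/
theorem sq_mem_V [Finite G] (h : TISetting V Q) {x : G} (hx : x ∈ PP V Q) : x * x ∈ V := by
  apply h.center_P (mul_mem hx hx)
  intro y hy
  have hc := h.cm_mem_V hx hy
  have e1 : x * y = cm x y * (y * x) := by unfold cm; group
  have e2 : x * cm x y = cm x y * x := h.P_comm_V hx hc
  calc x * x * y = x * (x * y) := by group
    _ = x * (cm x y * (y * x)) := by rw [← e1]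
    _ = (x * cm x y) * (y * x) := by group
    _ = (cm x y * x) * (y * x) := by rw [e2]
    _ = cm x y * (x * y) * x := by group
    _ = cm x y * (cm x y * (y * x)) * x := by rw [← e1]
    _ = (cm x y * cm x y) * y * (x * x) := by group
    _ = y * (x * x) := by rw [h.sq _ hc, one_mul]

end TISetting

namespace TIConfig

variable {V Q : Subgroup G} {g k : G}

/-- The symmetric configuration, with the roles of `V` and `V^g` exchanged. -/
theorem exists_symm [Finite G] (c : TIConfig V Q g k) :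
    ∃ k' : G, TIConfig (cj g V) (cj g Q) g⁻¹ k' := by
  apply (c.toTISetting.conj g).exists_config
  · rw [cj_inv_cj]; exact fun h => c.gne h.symm
  · rw [cj_inv_cj]; exact c.claim_a

/-- The quadratic pair `(V, V^g, P, P^g)`. -/
theorem qpair [Finite G] (c : TIConfig V Q g k) {k' : G}
    (c' : TIConfig (cj g V) (cj g Q) g⁻¹ k') :
    QPair V (cj g V) (PP V Q) (cj g (PP V Q)) := by
  have h := c.toTISetting
  have h' := c'.toTISetting
  have hVPA : V ≤ PP (cj g V) (cj g Q) := by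
    have := c'.A_le_P
    rwa [cj_inv_cj] at this
  have hAV : cj g V ⊓ V = ⊥ := h.cj_inf_eq_bot c.gne
  rw [← PP_cj]
  refine {
    Vcomm := h.comm, Vsq := h.sq, VA := ?_, inf := ?_, Vne := h.ne_bot, Ane := h'.ne_bot,
    PV := ?_, PAcm := ?_, QA := ?_, QVcm := ?_, reg := ?_, T1 := ?_, T2 := ?_ }
  · intro v hv a ha; exact (h.P_comm_V (c.A_le_P ha) hv).symm
  · rw [inf_comm]; exact hAV
  · intro p hp v hv; exact h.P_comm_V hp hv
  · intro p hp a ha; exact h.cm_mem_V hp (c.A_le_P ha)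
  · intro q hq a ha; exact h'.P_comm_V hq ha
  · intro q hq v hv; exact h'.cm_mem_V hq (hVPA hv)
  · intro a ha ha1 v hv
    obtain ⟨b, hb, hbv⟩ := c.step4d ha ha1 v hv
    exact ⟨b, c.B_le_P hb, by rw [h.cm_symm (c.B_le_P hb) (c.A_le_P ha)]; exact hbv⟩
  · rintro p hp ⟨a, ha, hpa⟩
    have h1 : cj p (cj g V) ≤ cj g V ⊔ cj g⁻¹ (cj g V) := by
      rw [cj_inv_cj, sup_comm]; exact c.cjP_A_le_W hp
    have h2 : cj p (cj g V) ≠ cj g V := by
      intro heq
      have hpN := mem_normalizer_of_cj_eq heq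
      have h3 : cm p a ∈ cj g V := mul_mem ((mem_normalizer_iff.mp hpN a).mp ha) (inv_mem ha)
      have h4 : cm p a ∈ cj g V ⊓ V := ⟨h3, h.cm_mem_V hp (c.A_le_P ha)⟩
      rw [hAV, mem_bot] at h4
      exact hpa h4
    obtain ⟨q, hq, hqe⟩ := c'.sigma_members h1 h2
    rw [cj_inv_cj] at hqe
    exact ⟨q, hq, hqe⟩
  · rintro q hq ⟨v, hv, hqv⟩
    have h1 : cj q V ≤ V ⊔ cj g V := by
      have := c'.cjP_A_le_W hq
      rwa [cj_inv_cj, sup_comm] at this
    have h2 : cj q V ≠ V := by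
      intro heq
      have hqN := mem_normalizer_of_cj_eq heq
      have h3 : cm q v ∈ V := mul_mem ((mem_normalizer_iff.mp hqN v).mp hv) (inv_mem hv)
      have h4 : cm q v ∈ cj g V ⊓ V := ⟨h'.cm_mem_V hq (hVPA hv), h3⟩
      rw [hAV, mem_bot] at h4
      exact hqv h4
    exact c.sigma_members h1 h2

/-- **Main theorem** in the abstract setting. -/
theorem main [Finite G] (c : TIConfig V Q g k) :
    V ≤ cj g Q ∧
    (∀ w ∈ V ⊔ cj g V, w ≠ 1 →
      ∃! U : Subgroup G, (∃ x : G, U = cj x V) ∧ U ≤ V ⊔ cj g V ∧ w ∈ U) ∧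
    PP V Q ⊔ cj g (PP V Q) ≤ normalizer ((V ⊔ cj g V : Subgroup G) : Set G) ∧
    (∃ (F : Type) (_ : Field F) (_ : Fintype F), Fintype.card F = Nat.card V ∧
      ∃ Φ : ↥(PP V Q ⊔ cj g (PP V Q)) →* Matrix.SpecialLinearGroup (Fin 2) F,
        Function.Surjective Φ ∧
        (∀ h : ↥(PP V Q ⊔ cj g (PP V Q)),
          Φ h = 1 ↔ (h : G) ∈ centralizer ((V ⊔ cj g V : Subgroup G) : Set G))) ∧
    PP V Q = Q ∧ (∀ x ∈ Q, ∀ y ∈ Q, cm x y ∈ V) ∧ (∀ x ∈ Q, x * x ∈ V) ∧
    (∀ v ∈ V, ∃ a ∈ Q, ∃ b ∈ Q, cm a b = v) ∧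
    (∀ z ∈ Q, (∀ y ∈ Q, z * y = y * z) → z ∈ V) := by
  haveI : Fact (Nat.Prime 2) := ⟨Nat.prime_two⟩
  have h := c.toTISetting
  obtain ⟨k', c'⟩ := c.exists_symm
  have hq := c.qpair c'
  obtain ⟨F, iF, iFt, hFcard, Φ, hsurj, hker, htorus⟩ := hq.sl2
  have hQV : Q ≤ centralizer (V : Set G) := by
    have hne : ¬ V ≤ (⊥ : Subgroup G) := fun h1 => h.ne_bot (le_bot_iff.mp h1)
    obtain ⟨v0, hv0, hv0b, hv0c⟩ := exists_central_mod h.Q_pgroup h.V_le_Q
      (le_normalizer_iff.mp h.Q_le) hne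
    have hv01 : v0 ≠ 1 := fun h1 => hv0b (by rw [h1]; exact one_mem _)
    have hv0Q : ∀ y ∈ Q, v0 * y = y * v0 := fun y hy =>
      cm_eq_one_iff.mp (mem_bot.mp (hv0c y hy))
    intro y hy
    rw [mem_centralizer_iff]
    intro v hv
    by_cases hv1 : v = 1
    · rw [hv1]; simp
    obtain ⟨t, htH, htN, htv⟩ := htorus v0 hv0 hv01 v hv hv1
    have hy' : t⁻¹ * y * t⁻¹⁻¹ ∈ Q :=
      (mem_normalizer_iff.mp (h.Q_normal (inv_mem htN)) y).mp hy
    have h1 := hv0Q _ hy'
    rw [← htv]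
    calc t * v0 * t⁻¹ * y = t * (v0 * (t⁻¹ * y * t⁻¹⁻¹)) * t⁻¹ := by group
      _ = t * ((t⁻¹ * y * t⁻¹⁻¹) * v0) * t⁻¹ := by rw [h1]
      _ = y * (t * v0 * t⁻¹) := by group
  have hPQ : PP V Q = Q := inf_eq_left.mpr hQV
  refine ⟨c.claim_a, c.claim_b, ?_, ⟨F, iF, iFt, hFcard, Φ, hsurj, hker⟩, hPQ, ?_, ?_, ?_, ?_⟩
  · apply sup_le c.P_le_normalizer_W
    have := c'.P_le_normalizer_W
    rwa [cj_inv_cj, sup_comm, PP_cj] at this
  · intro x hx y hy
    rw [← hPQ] at hx hy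
    exact h.cm_mem_V hx hy
  · intro x hx
    rw [← hPQ] at hx
    exact h.sq_mem_V hx
  · intro v hv
    obtain ⟨a, ha, ha1⟩ := h.cj_exists_ne_one g
    obtain ⟨b, hb, hbv⟩ := c.step4d ha ha1 v hv
    exact ⟨a, c.gQ ha, b, c.kQ hb, hbv⟩
  · intro z hz hzc
    rw [← hPQ] at hz
    apply h.center_P hz
    intro p hp
    exact hzc p hp.1

end TIConfig

end Cfsg.Agent.Helper30
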