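import Cfsg.Agent.Helper30.TIBase
import Cfsg.Agent.Helper48.ThompsonAB
import Cfsg.Agent.Helper49.PCore

/-!
# The TI-subgroup setting of S1786 (Timmesfeld): basic structure

`V` is an elementary abelian TI `2`-subgroup, `Q = O_2(N_G(V))`, `C_{N(V)}(Q) ≤ Q`, and `V` is a
maximal abelian normal subgroup of `N_G(V)`.
-/

set_option autoImplicit false
set_option linter.unusedSimpArgs false
set_option linter.unnecessarySimpa false
set_option linter.unusedVariables false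
set_option linter.style.haveILetI false
set_option linter.unusedSectionVars false

namespace Cfsg.Agent.Helper30

open Subgroup

variable {G : Type*} [Group G]

/-- The hypotheses on `V` and `Q = O_2(N_G(V))`. -/
structure TISetting (V Q : Subgroup G) : Prop where
  comm : ∀ u ∈ V, ∀ v ∈ V, u * v = v * u
  sq : ∀ v ∈ V, v * v = 1
  ne_bot : V ≠ ⊥
  ti : ∀ x : G, cj x V = V ∨ cj x V ⊓ V = ⊥
  Q_le : Q ≤ normalizer (V : Set G)
  Q_pgroup : IsPGroup 2 Q
  Q_normal : normalizer (V : Set G) ≤ normalizer (Q : Set G)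
  Q_self : normalizer (V : Set G) ⊓ centralizer (Q : Set G) ≤ Q
  Q_max : ∀ R : Subgroup G, R ≤ normalizer (V : Set G) → IsPGroup 2 R →
    normalizer (V : Set G) ≤ normalizer (R : Set G) → R ≤ Q
  max : ∀ A : Subgroup G, V ≤ A → A ≤ normalizer (V : Set G) →
    (∀ a ∈ A, ∀ b ∈ A, a * b = b * a) → normalizer (V : Set G) ≤ normalizer (A : Set G) → A = V

/-- `P = C_Q(V)`. -/
abbrev PP (V Q : Subgroup G) : Subgroup G := Q ⊓ centralizer (V : Set G)

/-- The commutator `x y x⁻¹ y⁻¹`. -/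
def cm (x y : G) : G := x * y * x⁻¹ * y⁻¹

theorem conj_eq_cm_mul (x y : G) : x * y * x⁻¹ = cm x y * y := by unfold cm; group

theorem cm_eq_one_iff {x y : G} : cm x y = 1 ↔ x * y = y * x := by
  unfold cm
  rw [mul_inv_eq_one, mul_inv_eq_iff_eq_mul]

theorem cm_one_right (x : G) : cm x 1 = 1 := by unfold cm; group

theorem cm_one_left (x : G) : cm 1 x = 1 := by unfold cm; group

namespace TISetting

variable {V Q : Subgroup G}

theorem V_pgroup (h : TISetting V Q) : IsPGroup 2 V := by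
  rintro ⟨v, hv⟩
  refine ⟨1, ?_⟩
  apply Subtype.ext
  simp [pow_two, h.sq v hv]

theorem inv_eq (h : TISetting V Q) {v : G} (hv : v ∈ V) : v⁻¹ = v :=
  inv_eq_of_mul_eq_one_left (h.sq v hv)

theorem V_le_Q (h : TISetting V Q) : V ≤ Q := h.Q_max V le_normalizer h.V_pgroup le_rfl

theorem V_le_P (h : TISetting V Q) : V ≤ PP V Q :=
  le_inf h.V_le_Q (fun v hv => mem_centralizer_iff.mpr (fun u hu => h.comm u hu v hv))

theorem P_comm_V (h : TISetting V Q) {p v : G} (hp : p ∈ PP V Q) (hv : v ∈ V) : p * v = v * p :=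
  (mem_centralizer_iff.mp hp.2 v hv).symm

theorem P_le_N (h : TISetting V Q) : PP V Q ≤ normalizer (V : Set G) := inf_le_left.trans h.Q_le

theorem N_le_normalizer_P (h : TISetting V Q) :
    normalizer (V : Set G) ≤ normalizer ((PP V Q : Subgroup G) : Set G) :=
  le_normalizer_inf h.Q_normal (le_normalizer_centralizer le_rfl)

theorem P_pgroup (h : TISetting V Q) : IsPGroup 2 (PP V Q) := h.Q_pgroup.to_le inf_le_left

theorem exists_ne_one (h : TISetting V Q) : ∃ v ∈ V, v ≠ 1 := by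
  obtain ⟨⟨v, hv⟩, hv1⟩ := (Subgroup.ne_bot_iff_exists_ne_one).mp h.ne_bot
  exact ⟨v, hv, fun h1 => hv1 (Subtype.ext h1)⟩

theorem ti' (h : TISetting V Q) (x y : G) : cj x V = cj y V ∨ cj x V ⊓ cj y V = ⊥ := by
  rcases h.ti (y⁻¹ * x) with h1 | h1
  · left
    have := congrArg (cj y) h1
    rwa [← cj_mul, mul_inv_cancel_left] at this
  · right
    have := congrArg (cj y) h1
    rwa [cj_inf, ← cj_mul, mul_inv_cancel_left, cj_bot] at this

theorem ti_unique (h : TISetting V Q) {x y u : G} (hu : u ≠ 1) (hx : u ∈ cj x V)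
    (hy : u ∈ cj y V) : cj x V = cj y V := by
  rcases h.ti' x y with h1 | h1
  · exact h1
  · exfalso
    apply hu
    have : u ∈ cj x V ⊓ cj y V := ⟨hx, hy⟩
    rw [h1] at this
    exact mem_bot.mp this

theorem cent_le_norm (h : TISetting V Q) {x u c : G} (hu : u ≠ 1) (hx : u ∈ cj x V)
    (hc : c * u = u * c) : c ∈ normalizer ((cj x V : Subgroup G) : Set G) := by
  apply mem_normalizer_of_cj_eq
  rw [← cj_mul]
  apply h.ti_unique hu ?_ hx
  rw [cj_mul]
  have : u = c * u * c⁻¹ := by rw [hc]; group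
  rw [this]; exact conj_mem_cj hx

theorem cent_le_norm_V (h : TISetting V Q) {u c : G} (hu : u ≠ 1) (hx : u ∈ V)
    (hc : c * u = u * c) : c ∈ normalizer (V : Set G) := by
  have := h.cent_le_norm (x := 1) hu (by rw [cj_one]; exact hx) hc
  rwa [cj_one] at this

theorem cj_sq (h : TISetting V Q) {g a : G} (ha : a ∈ cj g V) : a * a = 1 := by
  have := h.sq _ (mem_cj.mp ha)
  calc a * a = g * ((g⁻¹ * a * g) * (g⁻¹ * a * g)) * g⁻¹ := by group
    _ = 1 := by rw [this]; group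

theorem cj_inv_eq (h : TISetting V Q) {g a : G} (ha : a ∈ cj g V) : a⁻¹ = a :=
  inv_eq_of_mul_eq_one_left (h.cj_sq ha)

theorem cj_comm (h : TISetting V Q) {g a b : G} (ha : a ∈ cj g V) (hb : b ∈ cj g V) :
    a * b = b * a := by
  have := h.comm _ (mem_cj.mp ha) _ (mem_cj.mp hb)
  calc a * b = g * ((g⁻¹ * a * g) * (g⁻¹ * b * g)) * g⁻¹ := by group
    _ = g * ((g⁻¹ * b * g) * (g⁻¹ * a * g)) * g⁻¹ := by rw [this]
    _ = b * a := by group

theorem cj_inf_eq_bot (h : TISetting V Q) {g : G} (hne : cj g V ≠ V) : cj g V ⊓ V = ⊥ :=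
  (h.ti g).resolve_left hne

theorem cj_exists_ne_one (h : TISetting V Q) (g : G) : ∃ a ∈ cj g V, a ≠ 1 := by
  obtain ⟨v, hv, hv1⟩ := h.exists_ne_one
  refine ⟨g * v * g⁻¹, conj_mem_cj hv, ?_⟩
  intro h1
  apply hv1
  calc v = g⁻¹ * (g * v * g⁻¹) * g := by group
    _ = 1 := by rw [h1]; group

/-- **Step 1**: a conjugate of `V` different from `V` and normalizing `V` centralizes `V`. -/
theorem step1 [Finite G] (h : TISetting V Q) {g : G} (hne : cj g V ≠ V)
    (hN : cj g V ≤ normalizer (V : Set G)) : cj g V ≤ centralizer (V : Set G) := by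
  by_contra hcon
  obtain ⟨a0, ha0, ha0c⟩ := SetLike.not_le_iff_exists.mp hcon
  rw [mem_centralizer_iff] at ha0c
  push Not at ha0c
  obtain ⟨v0, hv0, hv0a⟩ := ha0c
  have hAV := h.cj_inf_eq_bot hne
  -- claim c
  have hc : ∀ a ∈ cj g V, a ≠ 1 → ∀ v ∈ V, a * v = v * a →
      v ∈ centralizer ((cj g V : Subgroup G) : Set G) := by
    intro a ha ha1 v hv hav
    have hvN := h.cent_le_norm ha1 ha hav.symm
    rw [mem_centralizer_iff]
    intro b hb
    have h1 : v * b * v⁻¹ * b⁻¹ ∈ cj g V :=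
      mul_mem ((mem_normalizer_iff.mp hvN b).mp hb) (inv_mem hb)
    have h2 : v * b * v⁻¹ * b⁻¹ ∈ V := by
      have := V.mul_mem hv ((mem_normalizer_iff.mp (hN hb) v⁻¹).mp (V.inv_mem hv))
      simpa [mul_assoc] using this
    have h3 : v * b * v⁻¹ * b⁻¹ ∈ cj g V ⊓ V := ⟨h1, h2⟩
    rw [hAV, mem_bot] at h3
    have h4 := cm_eq_one_iff.mp h3
    exact h4.symm
  -- the injection
  have hwV : ∀ a ∈ cj g V, v0⁻¹ * (a * v0 * a⁻¹) ∈ V := fun a ha =>
    V.mul_mem (V.inv_mem hv0) ((mem_normalizer_iff.mp (hN ha) v0).mp hv0)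
  have hwC : ∀ a ∈ cj g V, v0⁻¹ * (a * v0 * a⁻¹) ∈ centralizer ((cj g V : Subgroup G) : Set G) := by
    intro a ha
    by_cases ha1 : a = 1
    · subst ha1; simp
    · apply hc a ha ha1 _ (hwV a ha)
      have ha2 := h.cj_sq ha
      have hz : a * v0 * a⁻¹ ∈ V := (mem_normalizer_iff.mp (hN ha) v0).mp hv0
      have e1 : a * (v0⁻¹ * (a * v0 * a⁻¹)) * a⁻¹ = v0⁻¹ * (a * v0 * a⁻¹) := by
        calc a * (v0⁻¹ * (a * v0 * a⁻¹)) * a⁻¹
            = (a * v0 * a⁻¹)⁻¹ * ((a * a) * v0 * (a * a)⁻¹) := by group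
          _ = (a * v0 * a⁻¹)⁻¹ * v0 := by rw [ha2]; group
          _ = v0⁻¹ * (a * v0 * a⁻¹) := by
            rw [h.inv_eq hz, h.inv_eq hv0, h.comm _ hz _ hv0]
      exact mul_inv_eq_iff_eq_mul.mp e1
  let f : ↥(cj g V) → ↥(V ⊓ centralizer ((cj g V : Subgroup G) : Set G)) := fun a =>
    ⟨v0⁻¹ * ((a : G) * v0 * (a : G)⁻¹), hwV a a.2, hwC a a.2⟩
  have hv0C : v0 ∉ centralizer ((cj g V : Subgroup G) : Set G) := by
    intro hv
    exact hv0a (mem_centralizer_iff.mp hv a0 ha0).symm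
  have hf : Function.Injective f := by
    rintro ⟨a, ha⟩ ⟨b, hb⟩ hab
    have h1 : v0⁻¹ * (a * v0 * a⁻¹) = v0⁻¹ * (b * v0 * b⁻¹) := congrArg Subtype.val hab
    have h2 : a * v0 * a⁻¹ = b * v0 * b⁻¹ := mul_left_cancel h1
    have h3 : (b⁻¹ * a) * v0 = v0 * (b⁻¹ * a) := by
      calc (b⁻¹ * a) * v0 = b⁻¹ * (a * v0 * a⁻¹) * a := by group
        _ = b⁻¹ * (b * v0 * b⁻¹) * a := by rw [h2]
        _ = v0 * (b⁻¹ * a) := by group
    apply Subtype.ext
    by_contra hne'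
    have h4 : b⁻¹ * a ≠ 1 := by
      intro h5
      apply hne'
      show a = b
      calc a = b * (b⁻¹ * a) := by group
        _ = b := by rw [h5, mul_one]
    exact hv0C (hc _ (mul_mem (inv_mem hb) ha) h4 v0 hv0 h3)
  have hcard := Nat.card_le_card_of_injective f hf
  rw [card_cj] at hcard
  have := Subgroup.eq_of_le_of_card_ge (H := V ⊓ centralizer ((cj g V : Subgroup G) : Set G))
    (K := V) inf_le_left hcard
  have hv0' : v0 ∈ V ⊓ centralizer ((cj g V : Subgroup G) : Set G) := by rw [this]; exact hv0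
  exact hv0C hv0'.2

theorem A_le_P [Finite G] (h : TISetting V Q) {g : G} (hne : cj g V ≠ V) (hQ : cj g V ≤ Q) :
    cj g V ≤ PP V Q :=
  le_inf hQ (h.step1 hne (hQ.trans h.Q_le))

/-- An abelian subgroup normalized by `N(V)` and centralizing `V` lies in `V`. -/
theorem abelian_normal_le (h : TISetting V Q) {B : Subgroup G}
    (hBN : B ≤ normalizer (V : Set G)) (hB : ∀ x ∈ B, ∀ y ∈ B, x * y = y * x)
    (hBV : B ≤ centralizer (V : Set G))
    (hn : normalizer (V : Set G) ≤ normalizer (B : Set G)) : B ≤ V := by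
  have := h.max (V ⊔ B) le_sup_left (sup_le le_normalizer hBN)
    (comm_of_sup h.comm hB (fun x hx y hy => (mem_centralizer_iff.mp (hBV hy) x hx)))
    (le_normalizer_sup le_rfl hn)
  rw [← this]; exact le_sup_right

/-- `Z(P) = V`. -/
theorem center_P (h : TISetting V Q) {z : G} (hz : z ∈ PP V Q)
    (hc : ∀ p ∈ PP V Q, z * p = p * z) : z ∈ V := by
  have := h.abelian_normal_le (B := PP V Q ⊓ centralizer ((PP V Q : Subgroup G) : Set G))
    (inf_le_left.trans h.P_le_N)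
    (fun x hx y hy => mem_centralizer_iff.mp hy.2 x hx.1)
    (fun x hx => hx.1.2)
    (le_normalizer_inf h.N_le_normalizer_P (le_normalizer_centralizer h.N_le_normalizer_P))
  exact this ⟨hz, mem_centralizer_iff.mpr (fun p hp => (hc p hp).symm)⟩

/-- The preimage in `P` of the centre of `P / V`. -/
def Z2 (h : TISetting V Q) : Subgroup G where
  carrier := {x | x ∈ PP V Q ∧ ∀ y ∈ PP V Q, x * y * x⁻¹ * y⁻¹ ∈ V}
  mul_mem' := by
    rintro x x' ⟨hx, hx2⟩ ⟨hx', hx2'⟩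
    refine ⟨mul_mem hx hx', fun y hy => ?_⟩
    have h1 : x * (x' * y * x'⁻¹ * y⁻¹) * x⁻¹ ∈ V :=
      (mem_normalizer_iff.mp (h.P_le_N hx) _).mp (hx2' y hy)
    have := V.mul_mem h1 (hx2 y hy)
    have e : x * (x' * y * x'⁻¹ * y⁻¹) * x⁻¹ * (x * y * x⁻¹ * y⁻¹)
        = x * x' * y * (x * x')⁻¹ * y⁻¹ := by group
    rwa [e] at this
  one_mem' := ⟨one_mem _, fun y hy => by simp⟩
  inv_mem' := by
    rintro x ⟨hx, hx2⟩
    refine ⟨inv_mem hx, fun y hy => ?_⟩
    have h1 : x⁻¹ * (x * y * x⁻¹ * y⁻¹)⁻¹ * x⁻¹⁻¹ ∈ V :=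
      (mem_normalizer_iff.mp (h.P_le_N (inv_mem hx)) _).mp (V.inv_mem (hx2 y hy))
    have e : x⁻¹ * (x * y * x⁻¹ * y⁻¹)⁻¹ * x⁻¹⁻¹ = x⁻¹ * y * x⁻¹⁻¹ * y⁻¹ := by group
    rwa [e] at h1

/-- `[P, P] ≤ V`. -/
theorem cm_mem_V [Finite G] (h : TISetting V Q) {x y : G} (hx : x ∈ PP V Q) (hy : y ∈ PP V Q) :
    cm x y ∈ V := by
  have hVZ2 : V ≤ h.Z2 := by
    intro v hv
    refine ⟨h.V_le_P hv, fun y hy => ?_⟩
    have : v * y * v⁻¹ * y⁻¹ = 1 := by
      rw [← h.P_comm_V hy hv]; group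
    rw [this]; exact V.one_mem
  have hZ2P : h.Z2 ≤ PP V Q := fun x hx => hx.1
  have hNZ2 : normalizer (V : Set G) ≤ normalizer ((h.Z2 : Subgroup G) : Set G) := by
    rw [le_normalizer_iff]
    intro n hn x hx
    refine ⟨(mem_normalizer_iff.mp (h.N_le_normalizer_P hn) x).mp hx.1, fun y hy => ?_⟩
    have hy' : n⁻¹ * y * n⁻¹⁻¹ ∈ PP V Q :=
      (mem_normalizer_iff.mp (h.N_le_normalizer_P (inv_mem hn)) y).mp hy
    have h1 := hx.2 _ hy'
    have h2 := (mem_normalizer_iff.mp hn _).mp h1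
    have e : n * (x * (n⁻¹ * y * n⁻¹⁻¹) * x⁻¹ * (n⁻¹ * y * n⁻¹⁻¹)⁻¹) * n⁻¹
        = n * x * n⁻¹ * y * (n * x * n⁻¹)⁻¹ * y⁻¹ := by group
    rwa [e] at h2
  have hZZ : h.Z2 ⊓ centralizer ((h.Z2 : Subgroup G) : Set G) ≤ V :=
    h.abelian_normal_le (inf_le_left.trans (hZ2P.trans h.P_le_N))
      (fun x hx y hy => mem_centralizer_iff.mp hy.2 x hx.1)
      (fun x hx => (hZ2P hx.1).2)
      (le_normalizer_inf hNZ2 (le_normalizer_centralizer hNZ2))
  have hC : PP V Q ⊓ centralizer ((h.Z2 : Subgroup G) : Set G) ≤ V := by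
    by_contra hcon
    have hPn : PP V Q ≤ normalizer ((PP V Q ⊓ centralizer ((h.Z2 : Subgroup G) : Set G) :
        Subgroup G) : Set G) :=
      le_normalizer_inf le_normalizer (le_normalizer_centralizer (h.P_le_N.trans hNZ2))
    obtain ⟨x, hxK, hxV, hx2⟩ := exists_central_mod h.P_pgroup inf_le_left
      (le_normalizer_iff.mp hPn) hcon
    exact hxV (hZZ ⟨⟨hxK.1, hx2⟩, hxK.2⟩)
  have h3 : ⁅⁅PP V Q, PP V Q⁆, h.Z2⁆ = ⊥ := by
    have hZP : ⁅h.Z2, PP V Q⁆ ≤ V := by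
      rw [commutator_le]
      intro x hx y hy
      exact hx.2 y hy
    have hVP : ⁅V, PP V Q⁆ = ⊥ := by
      rw [commutator_eq_bot_iff_le_centralizer]
      intro v hv
      rw [mem_centralizer_iff]
      intro p hp
      exact h.P_comm_V hp hv
    have h2 : ⁅⁅h.Z2, PP V Q⁆, PP V Q⁆ = ⊥ := by
      rw [eq_bot_iff, ← hVP]
      exact commutator_mono hZP le_rfl
    have h1 : ⁅⁅PP V Q, h.Z2⁆, PP V Q⁆ = ⊥ := by
      rw [commutator_comm (PP V Q) h.Z2]; exact h2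
    exact commutator_commutator_eq_bot_of_rotate h1 h2
  rw [commutator_eq_bot_iff_le_centralizer] at h3
  have h4 : ⁅PP V Q, PP V Q⁆ ≤ PP V Q := by
    rw [commutator_le]
    intro a ha b hb
    exact mul_mem (mul_mem (mul_mem ha hb) (inv_mem ha)) (inv_mem hb)
  have h5 : cm x y ∈ ⁅PP V Q, PP V Q⁆ := commutator_mem_commutator hx hy
  exact hC ⟨h4 h5, h3 h5⟩

theorem cm_mul_left [Finite G] (h : TISetting V Q) {x y z : G} (hx : x ∈ PP V Q)
    (hy : y ∈ PP V Q) (hz : z ∈ PP V Q) : cm (x * y) z = cm x z * cm y z := by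
  have e : cm (x * y) z = x * cm y z * x⁻¹ * cm x z := by unfold cm; group
  have hc : x * cm y z * x⁻¹ = cm y z := by
    rw [h.P_comm_V hx (h.cm_mem_V hy hz), mul_assoc, mul_inv_cancel, mul_one]
  rw [e, hc, h.comm _ (h.cm_mem_V hy hz) _ (h.cm_mem_V hx hz)]

theorem cm_mul_right [Finite G] (h : TISetting V Q) {x y z : G} (hx : x ∈ PP V Q)
    (hy : y ∈ PP V Q) (hz : z ∈ PP V Q) : cm x (y * z) = cm x y * cm x z := by
  have e : cm x (y * z) = cm x y * (y * cm x z * y⁻¹) := by unfold cm; group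
  have hc : y * cm x z * y⁻¹ = cm x z := by
    rw [h.P_comm_V hy (h.cm_mem_V hx hz), mul_assoc, mul_inv_cancel, mul_one]
  rw [e, hc]

theorem cm_symm [Finite G] (h : TISetting V Q) {x y : G} (hx : x ∈ PP V Q) (hy : y ∈ PP V Q) :
    cm x y = cm y x := by
  have e : cm y x = (cm x y)⁻¹ := by unfold cm; group
  rw [e, h.inv_eq (h.cm_mem_V hx hy)]

theorem cm_inv_left [Finite G] (h : TISetting V Q) {x z : G} (hx : x ∈ PP V Q)
    (hz : z ∈ PP V Q) : cm x⁻¹ z = cm x z := by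
  have h1 := h.cm_mul_left hx (inv_mem hx) hz
  rw [mul_inv_cancel, cm_one_left] at h1
  have h2 : cm x⁻¹ z = (cm x z)⁻¹ := (inv_eq_of_mul_eq_one_right h1.symm).symm
  rw [h2, h.inv_eq (h.cm_mem_V hx hz)]

theorem cm_inv_right [Finite G] (h : TISetting V Q) {x z : G} (hx : x ∈ PP V Q)
    (hz : z ∈ PP V Q) : cm x z⁻¹ = cm x z := by
  rw [h.cm_symm hx (inv_mem hz), h.cm_inv_left hz hx, h.cm_symm hz hx]

theorem cm_self_mul [Finite G] (h : TISetting V Q) {x y : G} (hx : x ∈ PP V Q)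
    (hy : y ∈ PP V Q) : cm x y * cm x y = 1 := h.sq _ (h.cm_mem_V hx hy)

end TISetting

end Cfsg.Agent.Helper30
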