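import Mathlib
import Cfsg.Agent.Helper95.UBNDefs

/-!
Piece BTRANS of CALL S2546 (helper95): Witt-type elimination inside the upper unitriangular unitary
group.  One-shot construction: for an isotropic vector `w` with last non-zero coordinate `w r = 1`
the Siegel transformation `1 + c ⊗ e_r + e_{r'} ⊗ ρ` (`r' = rev r`) is unitary, upper unitriangular
and maps `w` to `e_r`.
-/

set_option autoImplicit false

namespace Cfsg.Agent.Helper30.UBN

open Matrix Cfsg.Agent.Helper95.UBN

variable {F : Type*} [Field F] {n : ℕ}

/-- `uinv` of a rank-one matrix -/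
theorem bt_uinv_vecMulVec (τ : F →+* F) (x y : Fin n → F) :
    uinv τ (vecMulVec x y) =
      vecMulVec (fun i => τ (y (Fin.rev i))) (fun i => τ (x (Fin.rev i))) := by
  ext a b
  rw [uinv_apply, vecMulVec_apply, vecMulVec_apply, map_mul, mul_comm]

theorem bt_uinv_add (τ : F →+* F) (A B : Matrix (Fin n) (Fin n) F) :
    uinv τ (A + B) = uinv τ A + uinv τ B := by
  ext a b
  simp only [uinv_apply, Matrix.add_apply, map_add]

/-- the column vector of the Siegel transformation -/
def btC (τ : F →+* F) (w : Fin n → F) (r r' : Fin n) : Fin n → F :=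
  fun a => if a = r then 0 else if a = r' then τ (w r') else - w a

/-- the row vector of the Siegel transformation -/
def btR (τ : F →+* F) (w : Fin n → F) (r r' : Fin n) : Fin n → F :=
  fun b => if b = r then 0 else if b = r' then 0 else τ (w (Fin.rev b))

theorem bt_core (τ : F →+* F) (hτ : ∀ x, τ (τ x) = x) (k : ℕ) (w : Fin n → F)
    (hiso : ∑ i, w i * τ (w (Fin.rev i)) = 0)
    (hsupp : ∀ i : Fin n, (i.1 < k ∨ n ≤ i.1 + k) → w i = 0)
    (r : Fin n) (hr : w r = 1) (hlast : ∀ i : Fin n, r < i → w i = 0) :
    ∃ u : Matrix (Fin n) (Fin n) F, IsU τ u ∧ IsUp u ∧ (∀ a, u a a = 1) ∧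
      Fixk k u ∧ u *ᵥ w = Pi.single r (1 : F) := by
  obtain ⟨r', hr'⟩ : ∃ r' : Fin n, r' = Fin.rev r := ⟨_, rfl⟩
  have hrevr : ∀ i : Fin n, Fin.rev i = r ↔ i = r' := by
    intro i
    rw [hr', Fin.rev_eq_iff]
  have hrevr' : ∀ i : Fin n, Fin.rev i = r' ↔ i = r := by
    intro i
    rw [hr', Fin.rev_inj]
  have hrr'rev : Fin.rev r' = r := (hrevr r').mpr rfl
  -- `r` is not the middle index
  have hne : r' ≠ r := by
    intro h
    have h1 : ∑ i, w i * τ (w (Fin.rev i)) = w r * τ (w (Fin.rev r)) := by
      apply Finset.sum_eq_single r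
      · intro i _ hir
        rcases lt_or_gt_of_ne hir with hlt | hgt
        · have h2 : r < Fin.rev i := by
            have h3 : Fin.rev r < Fin.rev i := Fin.rev_lt_rev.mpr hlt
            rwa [← hr', h] at h3
          rw [hlast _ h2, map_zero, mul_zero]
        · rw [hlast _ hgt, zero_mul]
      · intro h0
        exact absurd (Finset.mem_univ r) h0
    rw [hiso, ← hr', h, hr, map_one, mul_one] at h1
    exact zero_ne_one h1
  have hne' : r ≠ r' := fun h => hne h.symm
  have hcr : btC τ w r r' r = 0 := by simp [btC]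
  have hcr' : btC τ w r r' r' = τ (w r') := by simp [btC, hne]
  have hρr : btR τ w r r' r = 0 := by simp [btR]
  have hρr' : btR τ w r r' r' = 0 := by simp [btR]
  have her' : (Pi.single r (1 : F) : Fin n → F) r' = 0 := by
    rw [Pi.single_apply, if_neg hne]
  have he'r : (Pi.single r' (1 : F) : Fin n → F) r = 0 := by
    rw [Pi.single_apply, if_neg hne']
  -- the twisted vectors
  have hct : (fun i => τ (btC τ w r r' (Fin.rev i))) =
      fun i => - btR τ w r r' i + w r' * (Pi.single r (1 : F) : Fin n → F) i := by
    funext i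
    by_cases h1 : i = r
    · subst h1
      have : Fin.rev i = r' := (hrevr' i).mpr rfl
      rw [this, hcr', hτ, hρr, Pi.single_eq_same]
      ring
    · by_cases h2 : i = r'
      · subst h2
        rw [hrr'rev, hcr, hρr', her', map_zero]
        ring
      · have h3 : Fin.rev i ≠ r := fun h => h2 ((hrevr i).mp h)
        have h4 : Fin.rev i ≠ r' := fun h => h1 ((hrevr' i).mp h)
        simp only [btC, btR, if_neg h1, if_neg h2, if_neg h3, if_neg h4, Pi.single_apply, map_neg]
        ring
  have hρt : (fun i => τ (btR τ w r r' (Fin.rev i))) =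
      fun i => - btC τ w r r' i + τ (w r') * (Pi.single r' (1 : F) : Fin n → F) i := by
    funext i
    by_cases h1 : i = r
    · subst h1
      have : Fin.rev i = r' := (hrevr' i).mpr rfl
      rw [this, hρr', hcr, he'r, map_zero]
      ring
    · by_cases h2 : i = r'
      · subst h2
        rw [hrr'rev, hρr, hcr', Pi.single_eq_same, map_zero]
        ring
      · have h3 : Fin.rev i ≠ r := fun h => h2 ((hrevr i).mp h)
        have h4 : Fin.rev i ≠ r' := fun h => h1 ((hrevr' i).mp h)
        simp only [btC, btR, if_neg h1, if_neg h2, if_neg h3, if_neg h4, Pi.single_apply,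
          Fin.rev_rev, hτ]
        ring
  have het : (fun i => τ ((Pi.single r (1 : F) : Fin n → F) (Fin.rev i))) =
      (Pi.single r' (1 : F) : Fin n → F) := by
    funext i
    by_cases h2 : i = r'
    · subst h2
      rw [hrr'rev, Pi.single_eq_same, Pi.single_eq_same, map_one]
    · have h3 : Fin.rev i ≠ r := fun h => h2 ((hrevr i).mp h)
      rw [Pi.single_apply, if_neg h3, Pi.single_apply, if_neg h2, map_zero]
  have he't : (fun i => τ ((Pi.single r' (1 : F) : Fin n → F) (Fin.rev i))) =
      (Pi.single r (1 : F) : Fin n → F) := by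
    funext i
    by_cases h1 : i = r
    · subst h1
      have : Fin.rev i = r' := (hrevr' i).mpr rfl
      rw [this, Pi.single_eq_same, Pi.single_eq_same, map_one]
    · have h4 : Fin.rev i ≠ r' := fun h => h1 ((hrevr' i).mp h)
      rw [Pi.single_apply, if_neg h4, Pi.single_apply, if_neg h1, map_zero]
  -- the key scalar
  have hs : ∑ b, btR τ w r r' b * w b = -(τ (w r') + w r') := by
    have h1 : ∀ b : Fin n, btR τ w r r' b * w b = w b * τ (w (Fin.rev b)) -
        (if b = r then τ (w r') else 0) - (if b = r' then w r' else 0) := by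
      intro b
      by_cases h1 : b = r
      · subst h1
        have : Fin.rev b = r' := (hrevr' b).mpr rfl
        rw [hρr, this, hr, if_pos rfl, if_neg hne']
        ring
      · by_cases h2 : b = r'
        · subst h2
          rw [hρr', hrr'rev, hr, map_one, if_neg h1, if_pos rfl]
          ring
        · simp only [btR, if_neg h1, if_neg h2]
          ring
    rw [Finset.sum_congr rfl (fun b _ => h1 b), Finset.sum_sub_distrib, Finset.sum_sub_distrib,
      hiso, Finset.sum_ite_eq' Finset.univ r, Finset.sum_ite_eq' Finset.univ r',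
      if_pos (Finset.mem_univ _), if_pos (Finset.mem_univ _)]
    ring
  have hs2 : ∑ i, btR τ w r r' i * btC τ w r r' i = τ (w r') + w r' := by
    have h1 : ∀ i : Fin n, btR τ w r r' i * btC τ w r r' i = -(btR τ w r r' i * w i) := by
      intro i
      by_cases h1 : i = r
      · subst h1
        rw [hρr]; ring
      · by_cases h2 : i = r'
        · subst h2
          rw [hρr']; ring
        · simp only [btC, if_neg h1, if_neg h2]
          ring
    rw [Finset.sum_congr rfl (fun b _ => h1 b), Finset.sum_neg_distrib, hs, neg_neg]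
  -- the matrix
  obtain ⟨N, hN⟩ : ∃ N : Matrix (Fin n) (Fin n) F,
      N = vecMulVec (btC τ w r r') (Pi.single r (1 : F)) +
        vecMulVec (Pi.single r' (1 : F)) (btR τ w r r') := ⟨_, rfl⟩
  have hNab : ∀ a b, N a b = btC τ w r r' a * (Pi.single r (1 : F) : Fin n → F) b +
      (Pi.single r' (1 : F) : Fin n → F) a * btR τ w r r' b := by
    intro a b
    rw [hN, Matrix.add_apply, vecMulVec_apply, vecMulVec_apply]
  have hU : uinv τ N =
      vecMulVec (Pi.single r' (1 : F))
        (fun i => - btR τ w r r' i + w r' * (Pi.single r (1 : F) : Fin n → F) i) +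
      vecMulVec (fun i => - btC τ w r r' i + τ (w r') * (Pi.single r' (1 : F) : Fin n → F) i)
        (Pi.single r (1 : F)) := by
    rw [hN, bt_uinv_add, bt_uinv_vecMulVec, bt_uinv_vecMulVec, het, he't, hct, hρt]
  have hUN : uinv τ N * N =
      vecMulVec (Pi.single r' (1 : F)) ((-(τ (w r') + w r')) • (Pi.single r (1 : F) : Fin n → F)) := by
    have d1 : (fun i => - btR τ w r r' i + w r' * (Pi.single r (1 : F) : Fin n → F) i) ⬝ᵥ
        btC τ w r r' = -(τ (w r') + w r') := by
      unfold dotProduct
      have h1 : ∀ i : Fin n, (- btR τ w r r' i + w r' * (Pi.single r (1 : F) : Fin n → F) i) *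
          btC τ w r r' i = -(btR τ w r r' i * btC τ w r r' i) := by
        intro i
        by_cases h1 : i = r
        · subst h1
          rw [hcr]; ring
        · rw [Pi.single_apply, if_neg h1]; ring
      rw [Finset.sum_congr rfl (fun b _ => h1 b), Finset.sum_neg_distrib, hs2]
    have d2 : (fun i => - btR τ w r r' i + w r' * (Pi.single r (1 : F) : Fin n → F) i) ⬝ᵥ
        (Pi.single r' (1 : F) : Fin n → F) = 0 := by
      rw [dotProduct_single, hρr', her']
      ring
    have d3 : (Pi.single r (1 : F) : Fin n → F) ⬝ᵥ btC τ w r r' = 0 := by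
      rw [single_dotProduct, hcr, mul_zero]
    have d4 : (Pi.single r (1 : F) : Fin n → F) ⬝ᵥ (Pi.single r' (1 : F) : Fin n → F) = 0 := by
      rw [single_dotProduct, he'r, mul_zero]
    rw [hU, hN, Matrix.add_mul, Matrix.mul_add, Matrix.mul_add, vecMulVec_mul_vecMulVec,
      vecMulVec_mul_vecMulVec, vecMulVec_mul_vecMulVec, vecMulVec_mul_vecMulVec, d1, d2, d3, d4]
    simp
  refine ⟨1 + N, ?_, ?_, ?_, ?_, ?_⟩
  · -- unitary
    show uinv τ (1 + N) * (1 + N) = 1
    rw [bt_uinv_add, uinv_one]
    have h0 : N + uinv τ N + uinv τ N * N = 0 := by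
      rw [hUN, hU]
      ext a b
      simp only [Matrix.add_apply, vecMulVec_apply, Pi.smul_apply, smul_eq_mul, hNab,
        Matrix.zero_apply]
      ring
    calc (1 + uinv τ N) * (1 + N) = 1 + (N + uinv τ N + uinv τ N * N) := by
          rw [Matrix.add_mul, Matrix.mul_add, Matrix.mul_add, Matrix.one_mul, Matrix.mul_one,
            Matrix.one_mul]
          abel
      _ = 1 := by rw [h0, add_zero]
  · -- upper triangular
    intro a b hba
    rw [Matrix.add_apply, Matrix.one_apply_ne (ne_of_gt hba), hNab, zero_add]
    have t1 : btC τ w r r' a * (Pi.single r (1 : F) : Fin n → F) b = 0 := by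
      by_cases hb : b = r
      · subst hb
        have har : a ≠ b := ne_of_gt hba
        by_cases ha' : a = r'
        · subst ha'
          rw [hcr', hlast _ hba, map_zero, zero_mul]
        · simp only [btC, if_neg har, if_neg ha', hlast _ hba, neg_zero, zero_mul]
      · rw [Pi.single_apply, if_neg hb, mul_zero]
    have t2 : (Pi.single r' (1 : F) : Fin n → F) a * btR τ w r r' b = 0 := by
      by_cases ha' : a = r'
      · subst ha'
        by_cases hb : b = r
        · subst hb
          rw [hρr, mul_zero]
        · have hb' : b ≠ a := ne_of_lt hba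
          have h5 : r < Fin.rev b := by
            have h6 : Fin.rev a < Fin.rev b := Fin.rev_lt_rev.mpr hba
            rwa [hrr'rev] at h6
          simp only [btR, if_neg hb, if_neg hb', hlast _ h5, map_zero, mul_zero]
      · rw [Pi.single_apply, if_neg ha', zero_mul]
    rw [t1, t2, add_zero]
  · -- unit diagonal
    intro a
    rw [Matrix.add_apply, Matrix.one_apply_eq, hNab]
    have t1 : btC τ w r r' a * (Pi.single r (1 : F) : Fin n → F) a = 0 := by
      by_cases ha : a = r
      · subst ha
        rw [hcr, zero_mul]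
      · rw [Pi.single_apply, if_neg ha, mul_zero]
    have t2 : (Pi.single r' (1 : F) : Fin n → F) a * btR τ w r r' a = 0 := by
      by_cases ha' : a = r'
      · subst ha'
        rw [hρr', mul_zero]
      · rw [Pi.single_apply, if_neg ha', zero_mul]
    rw [t1, t2, add_zero, add_zero]
  · -- fixes the outer basis vectors
    intro i hi a
    have hir : i ≠ r := by
      intro h
      have := hsupp i hi
      rw [h, hr] at this
      exact one_ne_zero this
    have hρi : btR τ w r r' i = 0 := by
      by_cases hi' : i = r'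
      · subst hi'
        exact hρr'
      · have h7 : w (Fin.rev i) = 0 := by
          apply hsupp
          have h8 : ((Fin.rev i : Fin n) : ℕ) = n - (i.1 + 1) := Fin.val_rev i
          have h9 := i.2
          rcases hi with h | h
          · right; omega
          · left; omega
        simp only [btR, if_neg hir, if_neg hi', h7, map_zero]
    rw [Matrix.add_apply, hNab, Pi.single_apply, if_neg hir, hρi, mul_zero, mul_zero, add_zero,
      add_zero, Matrix.one_apply]
  · -- maps `w` to `e_r`
    funext a
    rw [Matrix.add_mulVec, Matrix.one_mulVec, Pi.add_apply]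
    have h1 : (N *ᵥ w) a = btC τ w r r' a * w r +
        (Pi.single r' (1 : F) : Fin n → F) a * ∑ b, btR τ w r r' b * w b := by
      unfold Matrix.mulVec dotProduct
      rw [Finset.mul_sum]
      have h2 : ∀ b : Fin n, N a b * w b =
          (if b = r then btC τ w r r' a * w r else 0) +
            (Pi.single r' (1 : F) : Fin n → F) a * (btR τ w r r' b * w b) := by
        intro b
        rw [hNab]
        by_cases hb : b = r
        · subst hb
          rw [if_pos rfl, Pi.single_eq_same]
          ring
        · rw [if_neg hb, Pi.single_apply, if_neg hb]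
          ring
      rw [Finset.sum_congr rfl (fun b _ => h2 b), Finset.sum_add_distrib,
        Finset.sum_ite_eq' Finset.univ r, if_pos (Finset.mem_univ _)]
    rw [h1, hs, hr]
    by_cases ha : a = r
    · subst ha
      rw [hcr, he'r, Pi.single_eq_same, hr]
      ring
    · by_cases ha' : a = r'
      · subst ha'
        rw [hcr', Pi.single_eq_same, Pi.single_apply, if_neg ha]
        ring
      · simp only [btC, if_neg ha, if_neg ha', Pi.single_apply]
        ring

theorem p_BTRANS (τ : F →+* F) (hτ : ∀ x, τ (τ x) = x)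
    (hTr : ∀ s : F, τ s = s → ∃ u : F, u + τ u = s) (k : ℕ) (v : Fin n → F)
    (hiso : ∑ i, v i * τ (v (Fin.rev i)) = 0)
    (hsupp : ∀ i : Fin n, (i.1 < k ∨ n ≤ i.1 + k) → v i = 0)
    (r : Fin n) (hr : v r ≠ 0) (hlast : ∀ i : Fin n, r < i → v i = 0) :
    ∃ u : Matrix.SpecialLinearGroup (Fin n) F, u ∈ UG τ n ∧ IsUp u.1 ∧ (∀ a, u.1 a a = 1) ∧
      Fixk k u.1 ∧ u.1 *ᵥ v = v r • Pi.single r (1 : F) := by
  have hτr : τ (v r) ≠ 0 := by
    intro h
    apply hr
    have := congrArg τ h
    rwa [hτ, map_zero] at this
  have hiso' : ∑ i, (fun i => v i / v r) i * τ ((fun i => v i / v r) (Fin.rev i)) = 0 := by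
    have h1 : ∀ i : Fin n, (fun i => v i / v r) i * τ ((fun i => v i / v r) (Fin.rev i)) =
        v i * τ (v (Fin.rev i)) / (v r * τ (v r)) := by
      intro i
      show v i / v r * τ (v (Fin.rev i) / v r) = _
      rw [map_div₀]
      field_simp
    rw [Finset.sum_congr rfl (fun i _ => h1 i), ← Finset.sum_div, hiso, zero_div]
  obtain ⟨u, hU, hup, hdiag, hfix, hw⟩ := bt_core τ hτ k (fun i => v i / v r) hiso'
    (fun i hi => by show v i / v r = 0; rw [hsupp i hi, zero_div]) r
    (by show v r / v r = 1; exact div_self hr)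
    (fun i hi => by show v i / v r = 0; rw [hlast i hi, zero_div])
  have hdet : u.det = 1 := by
    have hbt : Matrix.BlockTriangular u id := fun i j hij => hup i j hij
    rw [Matrix.det_of_isUpperTriangular hbt]
    exact Finset.prod_eq_one (fun i _ => hdiag i)
  refine ⟨⟨u, hdet⟩, (mem_UG_iff hτ _).mpr hU, hup, hdiag, hfix, ?_⟩
  have hv : v = v r • (fun i => v i / v r) := by
    funext i
    show v i = v r * (v i / v r)
    field_simp
  show u *ᵥ v = v r • Pi.single r (1 : F)
  conv_lhs => rw [hv]
  rw [Matrix.mulVec_smul, hw]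

end Cfsg.Agent.Helper30.UBN
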