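import Mathlib
import Cfsg.Agent.Helper95.UBNDefs
import Cfsg.Agent.Helper30.UBNBTRANS

/-!
Piece RK1C of CALL S2546 (helper95), doubled by helper30: the rank one relation
`x ∈ Y B` for a non-trivial element `x` of the root group of the last simple root when `n` is odd
(a copy of `SU_3`).
-/

set_option autoImplicit false

namespace Cfsg.Agent.Helper30.UBN

open Matrix Cfsg.Agent.Helper95.UBN

variable {F : Type*} [Field F] {n : ℕ}

theorem rk_uinv_single (τ : F →+* F) (p q : Fin n) (s : F) :
    uinv τ (Matrix.single p q s) = Matrix.single (Fin.rev q) (Fin.rev p) (τ s) := by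
  ext i k
  rw [uinv_apply, Matrix.single_apply, Matrix.single_apply]
  by_cases h : p = Fin.rev k ∧ q = Fin.rev i
  · rw [if_pos h, if_pos ⟨by rw [h.2, Fin.rev_rev], by rw [h.1, Fin.rev_rev]⟩]
  · rw [if_neg h, if_neg (fun h' => h ⟨by rw [← h'.2, Fin.rev_rev], by rw [← h'.1, Fin.rev_rev]⟩),
      map_zero]

theorem rk1c_core (τ : F →+* F) (hτ : ∀ x, τ (τ x) = x) (a c a' : Fin n)
    (hc : c.1 = a.1 + 1) (ha' : a'.1 = a.1 + 2)
    (hra : Fin.rev a = a') (hrc : Fin.rev c = c)
    (x : Matrix.SpecialLinearGroup (Fin n) F) (hx : x ∈ UG τ n)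
    (hsh : XSh (Equiv.swap a a') x.1) (hx1 : x ≠ 1) :
    ∃ y : Matrix.SpecialLinearGroup (Fin n) F, y ∈ UG τ n ∧ YSh (Equiv.swap a a') y.1 ∧
      ∀ p q, Equiv.swap a a' q < p → (y * x⁻¹).1 p q = 0 := by
  have hra' : Fin.rev a' = a := by rw [← hra, Fin.rev_rev]
  have hac : a ≠ c := fun h => by rw [h] at hc; omega
  have hca : c ≠ a := fun h => hac h.symm
  have haa' : a ≠ a' := fun h => by rw [← h] at ha'; omega
  have ha'a : a' ≠ a := fun h => haa' h.symm
  have hca' : c ≠ a' := fun h => by rw [h] at hc; omega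
  have ha'c : a' ≠ c := fun h => hca' h.symm
  -- values of the transposition
  have hσ : ∀ z : Fin n, (Equiv.swap a a' z).1 =
      if z.1 = a.1 then a.1 + 2 else if z.1 = a.1 + 2 then a.1 else z.1 := by
    intro z
    rw [Equiv.swap_apply_def]
    by_cases h1 : z = a
    · rw [if_pos h1, if_pos (by rw [h1]), ha']
    · have h1' : z.1 ≠ a.1 := fun h => h1 (Fin.ext h)
      rw [if_neg h1, if_neg h1']
      by_cases h2 : z = a'
      · rw [if_pos h2, if_pos (by rw [h2, ha'])]
      · have h2' : z.1 ≠ a.1 + 2 := fun h => h2 (Fin.ext (by rw [h, ha']))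
        rw [if_neg h2, if_neg h2']
  obtain ⟨hd, hoff⟩ := hsh
  -- decomposition of x
  obtain ⟨t, ht⟩ : ∃ t, t = x.1 a c := ⟨_, rfl⟩
  obtain ⟨w, hw⟩ : ∃ w, w = x.1 c a' := ⟨_, rfl⟩
  obtain ⟨u, hu⟩ : ∃ u, u = x.1 a a' := ⟨_, rfl⟩
  have hX : x.1 = 1 + Matrix.single a c t + Matrix.single c a' w + Matrix.single a a' u := by
    ext p q
    rw [Matrix.add_apply, Matrix.add_apply, Matrix.add_apply, Matrix.one_apply,
      Matrix.single_apply, Matrix.single_apply, Matrix.single_apply]
    by_cases hpq : p = q
    · subst hpq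
      rw [hd, if_pos rfl, if_neg (fun h => hac (h.1.trans h.2.symm)),
        if_neg (fun h => hca' (h.1.trans h.2.symm)), if_neg (fun h => haa' (h.1.trans h.2.symm))]
      simp
    · rw [if_neg hpq]
      by_cases h1 : a = p ∧ c = q
      · rw [if_pos h1, if_neg (fun h => hca (h.1.trans h1.1.symm)),
          if_neg (fun h => hca' (h1.2.trans h.2.symm)), ← h1.1, ← h1.2, ht]
        simp
      · by_cases h2 : c = p ∧ a' = q
        · rw [if_neg h1, if_pos h2, if_neg (fun h => hca (h2.1.trans h.1.symm)), ← h2.1, ← h2.2,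
            hw]
          simp
        · by_cases h3 : a = p ∧ a' = q
          · rw [if_neg h1, if_neg h2, if_pos h3, ← h3.1, ← h3.2, hu]
            simp
          · rw [if_neg h1, if_neg h2, if_neg h3]
            by_contra h0
            have h0' : x.1 p q ≠ 0 := fun h => h0 (by rw [h]; simp)
            obtain ⟨hlt, hlt2⟩ := hoff p q hpq h0'
            have e1 := hσ p
            have e2 := hσ q
            rw [Fin.lt_def] at hlt hlt2
            rw [e1, e2] at hlt2
            have hpq' : p.1 ≠ q.1 := fun h => hpq (Fin.ext h)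
            have g1 : ¬ (a.1 = p.1 ∧ c.1 = q.1) := fun h => h1 ⟨Fin.ext h.1, Fin.ext h.2⟩
            have g2 : ¬ (c.1 = p.1 ∧ a'.1 = q.1) := fun h => h2 ⟨Fin.ext h.1, Fin.ext h.2⟩
            have g3 : ¬ (a.1 = p.1 ∧ a'.1 = q.1) := fun h => h3 ⟨Fin.ext h.1, Fin.ext h.2⟩
            split_ifs at hlt2 <;> omega
  have hXu : uinv τ x.1 = 1 + Matrix.single c a' (τ t) + Matrix.single a c (τ w)
      + Matrix.single a a' (τ u) := by
    rw [hX, bt_uinv_add, bt_uinv_add, bt_uinv_add, uinv_one, rk_uinv_single, rk_uinv_single,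
      rk_uinv_single, hra, hrc, hra']
  have hU : uinv τ x.1 * x.1 = 1 := isU_of_mem hx
  have hprod : uinv τ x.1 * x.1 = 1 + Matrix.single a c (t + τ w) + Matrix.single c a' (w + τ t)
      + Matrix.single a a' (u + τ u + τ w * w) := by
    rw [hXu, hX]
    simp only [add_mul, mul_add, one_mul, mul_one, Matrix.single_mul_single_same,
      Matrix.single_mul_single_of_ne, ne_eq, ha'a, ha'c, hca, hac, haa', hca', not_false_eq_true,
      Matrix.single_add, add_zero, zero_add]
    abel
  have hrel := hprod.symm.trans hU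
  have r1 : t + τ w = 0 := by
    have := congrFun (congrFun hrel a) c
    simpa [Matrix.add_apply, Matrix.one_apply, Matrix.single_apply, hac, hca, haa', ha'a, hca',
      ha'c] using this
  have r2 : u + τ u + τ w * w = 0 := by
    have := congrFun (congrFun hrel a) a'
    simpa [Matrix.add_apply, Matrix.one_apply, Matrix.single_apply, hac, hca, haa', ha'a, hca',
      ha'c] using this
  have hw' : w = - τ t := by
    have := congrArg τ r1
    rw [map_add, hτ, map_zero] at this
    linear_combination this
  have hτw : τ w = - t := by linear_combination r1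
  have r2' : u + τ u + t * τ t = 0 := by
    rw [hτw, hw'] at r2
    linear_combination r2
  have hu0 : u ≠ 0 := by
    intro h0
    rw [h0, map_zero] at r2'
    have ht0 : t = 0 := by
      have h1 : t * τ t = 0 := by linear_combination r2'
      rcases mul_eq_zero.mp h1 with h | h
      · exact h
      · have := congrArg τ h
        rwa [hτ, map_zero] at this
    apply hx1
    apply Subtype.ext
    show x.1 = 1
    rw [hX, hw', ht0, h0]
    simp
  have hτu0 : τ u ≠ 0 := fun h => hu0 (by have := congrArg τ h; rwa [hτ, map_zero] at this)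
  obtain ⟨t', ht'⟩ : ∃ t', t' = - τ t / τ u := ⟨_, rfl⟩
  obtain ⟨Y, hY⟩ : ∃ Y : Matrix (Fin n) (Fin n) F, Y = 1 + Matrix.single c a t'
      + Matrix.single a' c (t / u) + Matrix.single a' a u⁻¹ := ⟨_, rfl⟩
  have hYapp : ∀ p q, Y p q = (if p = q then 1 else 0) + (if c = p ∧ a = q then t' else 0)
      + (if a' = p ∧ c = q then t / u else 0) + (if a' = p ∧ a = q then u⁻¹ else 0) := by
    intro p q
    rw [hY, Matrix.add_apply, Matrix.add_apply, Matrix.add_apply, Matrix.one_apply,
      Matrix.single_apply, Matrix.single_apply, Matrix.single_apply]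
  have hYd : ∀ p, Y p p = 1 := by
    intro p
    rw [hYapp, if_pos rfl, if_neg (fun h => hca (h.1.trans h.2.symm)),
      if_neg (fun h => ha'c (h.1.trans h.2.symm)), if_neg (fun h => ha'a (h.1.trans h.2.symm))]
    simp
  have hYlow : ∀ p q : Fin n, p < q → Y p q = 0 := by
    intro p q h
    have hlt : p.1 < q.1 := h
    rw [hYapp, if_neg (ne_of_lt h),
      if_neg (fun h' => by
        have e1 := congrArg Fin.val h'.1
        have e2 := congrArg Fin.val h'.2
        omega),
      if_neg (fun h' => by
        have e1 := congrArg Fin.val h'.1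
        have e2 := congrArg Fin.val h'.2
        omega),
      if_neg (fun h' => by
        have e1 := congrArg Fin.val h'.1
        have e2 := congrArg Fin.val h'.2
        omega)]
    simp
  have hdet : Y.det = 1 := by
    rw [Matrix.det_of_lowerTriangular Y (fun i j hij => hYlow i j hij)]
    exact Finset.prod_eq_one (fun i _ => hYd i)
  have hYu : uinv τ Y = 1 + Matrix.single a' c (τ t') + Matrix.single c a (τ (t / u))
      + Matrix.single a' a (τ u⁻¹) := by
    rw [hY, bt_uinv_add, bt_uinv_add, bt_uinv_add, uinv_one, rk_uinv_single, rk_uinv_single,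
      rk_uinv_single, hra, hrc, hra']
  have c1 : t' + τ (t / u) = 0 := by
    rw [ht', map_div₀]; ring
  have c2 : t / u + τ t' = 0 := by
    rw [ht', map_div₀, map_neg, hτ, hτ]; ring
  have c3 : u⁻¹ + τ u⁻¹ + τ t' * t' = 0 := by
    rw [ht', map_div₀, map_neg, hτ, hτ, map_inv₀]
    field_simp
    linear_combination r2'
  have hYU : uinv τ Y * Y = 1 := by
    have e : uinv τ Y * Y = 1 + Matrix.single c a (t' + τ (t / u))
        + Matrix.single a' c (t / u + τ t') + Matrix.single a' a (u⁻¹ + τ u⁻¹ + τ t' * t') := by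
      rw [hYu, hY]
      simp only [add_mul, mul_add, one_mul, mul_one, Matrix.single_mul_single_same,
        Matrix.single_mul_single_of_ne, ne_eq, ha'a, ha'c, hca, hac, haa', hca', not_false_eq_true,
        Matrix.single_add, add_zero, zero_add]
      abel
    rw [e, c1, c2, c3]
    simp
  -- the product
  have hZ : ∀ p q, (Y * uinv τ x.1) p q = (if p = q then 1 else 0)
      + (if c = p ∧ a' = q then τ t + t' * τ u else 0)
      + (if a = p ∧ c = q then τ w else 0)
      + (if a = p ∧ a' = q then τ u else 0)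
      + (if c = p ∧ a = q then t' else 0)
      + (if c = p ∧ c = q then t' * τ w else 0)
      + (if a' = p ∧ c = q then t / u + u⁻¹ * τ w else 0)
      + (if a' = p ∧ a' = q then t / u * τ t + u⁻¹ * τ u else 0)
      + (if a' = p ∧ a = q then u⁻¹ else 0) := by
    intro p q
    have e : Y * uinv τ x.1 = 1 + Matrix.single c a' (τ t + t' * τ u)
        + Matrix.single a c (τ w) + Matrix.single a a' (τ u) + Matrix.single c a t'
        + Matrix.single c c (t' * τ w) + Matrix.single a' c (t / u + u⁻¹ * τ w)
        + Matrix.single a' a' (t / u * τ t + u⁻¹ * τ u) + Matrix.single a' a u⁻¹ := by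
      rw [hXu, hY]
      simp only [add_mul, mul_add, one_mul, mul_one, Matrix.single_mul_single_same,
        Matrix.single_mul_single_of_ne, ne_eq, ha'a, ha'c, hca, hac, haa', hca', not_false_eq_true,
        Matrix.single_add, add_zero, zero_add]
      abel
    rw [e]
    simp only [Matrix.add_apply, Matrix.one_apply, Matrix.single_apply]
  have z1 : τ t + t' * τ u = 0 := by
    rw [ht', div_mul_cancel₀ _ hτu0]; ring
  have z2 : t / u + u⁻¹ * τ w = 0 := by
    rw [hτw]; field_simp; ring
  have z3 : 1 + (t / u * τ t + u⁻¹ * τ u) = 0 := by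
    field_simp
    linear_combination r2'
  refine ⟨⟨Y, hdet⟩, (mem_UG_iff hτ _).mpr hYU, ⟨hYd, ?_⟩, ?_⟩
  · intro p q hpq h0
    show q < p ∧ Equiv.swap a a' p < Equiv.swap a a' q
    have h0' : Y p q ≠ 0 := h0
    rw [hYapp, if_neg hpq] at h0'
    rw [Fin.lt_def, Fin.lt_def, hσ p, hσ q]
    by_cases h1 : c = p ∧ a = q
    · have e1 := congrArg Fin.val h1.1
      have e2 := congrArg Fin.val h1.2
      constructor
      · omega
      · split_ifs <;> omega
    · by_cases h2 : a' = p ∧ c = q
      · have e1 := congrArg Fin.val h2.1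
        have e2 := congrArg Fin.val h2.2
        constructor
        · omega
        · split_ifs <;> omega
      · by_cases h3 : a' = p ∧ a = q
        · have e1 := congrArg Fin.val h3.1
          have e2 := congrArg Fin.val h3.2
          constructor
          · omega
          · split_ifs <;> omega
        · rw [if_neg h1, if_neg h2, if_neg h3] at h0'
          simp at h0'
  · intro p q hlt
    have hlt' : (Equiv.swap a a' q).1 < p.1 := hlt
    rw [hσ q] at hlt'
    show (Y * (x⁻¹).1) p q = 0
    rw [inv_eq_uinv hx]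
    rw [hZ]
    by_cases h1 : c = p ∧ a' = q
    · rw [← h1.1, ← h1.2, z1]
      simp [hac, hca, haa', ha'a, hca', ha'c, z2]
    · by_cases h2 : a' = p ∧ c = q
      · rw [← h2.1, ← h2.2, z2]
        simp [hac, hca, haa', ha'a, hca', ha'c]
      · by_cases h3 : a' = p ∧ a' = q
        · rw [← h3.1, ← h3.2]
          simp [hac, hca, haa', ha'a, hca', ha'c]
          linear_combination z3
        · have g0 : ¬ p = q := fun h => by
            have e := congrArg Fin.val h
            have g3 : ¬ (a'.1 = p.1 ∧ a'.1 = q.1) := fun h => h3 ⟨Fin.ext h.1, Fin.ext h.2⟩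
            split_ifs at hlt' <;> omega
          have g1 : ¬ (a = p ∧ c = q) := fun h => by
            have e1 := congrArg Fin.val h.1
            have e2 := congrArg Fin.val h.2
            split_ifs at hlt' <;> omega
          have g2 : ¬ (a = p ∧ a' = q) := fun h => by
            have e1 := congrArg Fin.val h.1
            have e2 := congrArg Fin.val h.2
            split_ifs at hlt' <;> omega
          have g4 : ¬ (c = p ∧ a = q) := fun h => by
            have e1 := congrArg Fin.val h.1
            have e2 := congrArg Fin.val h.2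
            split_ifs at hlt' <;> omega
          have g5 : ¬ (c = p ∧ c = q) := fun h => by
            have e1 := congrArg Fin.val h.1
            have e2 := congrArg Fin.val h.2
            split_ifs at hlt' <;> omega
          have g6 : ¬ (a' = p ∧ a = q) := fun h => by
            have e1 := congrArg Fin.val h.1
            have e2 := congrArg Fin.val h.2
            split_ifs at hlt' <;> omega
          rw [if_neg g0, if_neg h1, if_neg g1, if_neg g2, if_neg g4, if_neg g5, if_neg h2,
            if_neg h3, if_neg g6]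
          simp

/-- PIECE RK1C of CALL S2546. -/
theorem p_RK1C (τ : F →+* F) (hτ : ∀ x, τ (τ x) = x) (j : Fin (n / 2)) (hj : j.1 + 1 = n / 2)
    (hn : Odd n)
    (x : Matrix.SpecialLinearGroup (Fin n) F) (hx : x ∈ UG τ n) (hsh : XSh (sigP j) x.1)
    (hx1 : x ≠ 1) :
    ∃ y : Matrix.SpecialLinearGroup (Fin n) F, y ∈ UG τ n ∧ YSh (sigP j) y.1 ∧
      ∀ a b, sigP j b < a → (y * x⁻¹).1 a b = 0 := by
  obtain ⟨m, hm⟩ := hn
  have hn' : n = 2 * j.1 + 3 := by omega
  have hσ : sigP j = Equiv.swap (ia j) (Fin.rev (ia j)) := by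
    unfold sigP
    rw [if_neg (by omega)]
    unfold ib
    rw [dif_neg (by omega)]
  have hc : j.1 + 1 < n := by omega
  rw [hσ] at hsh ⊢
  exact rk1c_core τ hτ (ia j) ⟨j.1 + 1, hc⟩ (Fin.rev (ia j)) rfl
    (by rw [Fin.val_rev]; show n - (j.1 + 1) = j.1 + 2; omega) rfl
    (Fin.ext (by rw [Fin.val_rev]; show n - (j.1 + 1 + 1) = j.1 + 1; omega)) x hx hsh hx1

end Cfsg.Agent.Helper30.UBN
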