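import Mathlib
import Cfsg.Agent.Helper44.PSUT
import Cfsg.Agent.Helper43.GraphAut

set_option autoImplicit false

/-!
Helper library (helper30): the dictionary for the involutory graph automorphisms of
`PSU_n(q)` (definitions and basic matrix lemmas).  `ugr hF g` is the automorphism
`x ↦ g τ(x) g⁻¹` (`τ` the `q`-th power map, `g` unitary); `UDat hF ι g k B` is a descent datum:
up to scalars `g = k τ(k)⁻¹` and the Gram matrix `kᵀ τ(k)` is the matrix `B` over the fixed
field `F₀` of `τ`.  The dictionary (files `UG*.lean`) transfers conjugacy and centralisers of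
`ugr g` to those of the graph automorphism `grph B` of `PSL_n(F₀)`.
-/

namespace Cfsg.Agent.Helper30.UG

open Matrix Cfsg.Agent.Helper44.PSLn Cfsg.Agent.Helper44.PSUn Cfsg.Agent.Helper43.GraphAut

universe u v

variable {F : Type u} [Field F] [Fintype F] {q n : ℕ}

/-- the graph automorphism of `PSU_n(q)` attached to the unitary matrix `g` -/
noncomputable def ugr (hF : Fintype.card F = q ^ 2) (g : ↥(Cfsg.GU n F q)) :
    MulAut (Cfsg.PSU n F q) := uD g * uF (ulang_tau hF)

/-- descent datum for the unitary matrix `g`: up to scalars `g = k τ(k)⁻¹` and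
`kᵀ τ(k) = ι(B)` with `B` over the fixed field -/
def UDat {F₀ : Type v} [Field F₀] (hF : Fintype.card F = q ^ 2) (ι : F₀ →+* F)
    (g : ↥(Cfsg.GU n F q)) (k : GL (Fin n) F) (B : GL (Fin n) F₀) : Prop :=
  ∃ a u : F, a ≠ 0 ∧ u ≠ 0 ∧
    (a • ((g : GL (Fin n) F) : Mn n F)) * (k : Mn n F).map (ulang_tau hF) = (k : Mn n F) ∧
    (k : Mn n F)ᵀ * (k : Mn n F).map (ulang_tau hF) = u • (B : Mn n F₀).map ι

/-! ### basic matrix lemmas for `τ` -/

theorem ug_map_map (hF : Fintype.card F = q ^ 2) (M : Mn n F) :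
    (M.map (ulang_tau hF)).map (ulang_tau hF) = M := by
  ext i j
  exact ulang_tau_tau hF _

theorem ug_map_mul (hF : Fintype.card F = q ^ 2) (M N : Mn n F) :
    (M * N).map (ulang_tau hF) = M.map (ulang_tau hF) * N.map (ulang_tau hF) :=
  Matrix.map_mul (f := ((ulang_tau hF : RingAut F) : F →+* F))

theorem ug_map_smul (hF : Fintype.card F = q ^ 2) (c : F) (M : Mn n F) :
    (c • M).map (ulang_tau hF) = ulang_tau hF c • M.map (ulang_tau hF) :=
  lang_map_smul _ c M

theorem ug_map_one (hF : Fintype.card F = q ^ 2) :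
    (1 : Mn n F).map (ulang_tau hF) = 1 :=
  lang_map_one _

theorem ug_map_transpose (hF : Fintype.card F = q ^ 2) (M : Mn n F) :
    (Mᵀ).map (ulang_tau hF) = (M.map (ulang_tau hF))ᵀ :=
  (Matrix.transpose_map).symm

theorem ug_map_inj (hF : Fintype.card F = q ^ 2) {M N : Mn n F}
    (h : M.map (ulang_tau hF) = N.map (ulang_tau hF)) : M = N := by
  rw [← ug_map_map hF M, h, ug_map_map]

theorem ug_map_det (hF : Fintype.card F = q ^ 2) (M : Mn n F) :
    (M.map (ulang_tau hF)).det = ulang_tau hF M.det :=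
  ((ulang_tau hF : RingAut F) : F →+* F).map_det M |>.symm

/-- membership in the unitary group -/
theorem ug_mem_GU (hF : Fintype.card F = q ^ 2) (g : GL (Fin n) F) :
    g ∈ Cfsg.GU n F q ↔ (g : Mn n F)ᵀ * (g : Mn n F).map (ulang_tau hF) = 1 :=
  lang_mem_GU (ulang_tau hF) q (ulang_tau_apply hF) g

theorem ug_GU (hF : Fintype.card F = q ^ 2) (g : ↥(Cfsg.GU n F q)) :
    ((g : GL (Fin n) F) : Mn n F)ᵀ * ((g : GL (Fin n) F) : Mn n F).map (ulang_tau hF) = 1 :=
  (ug_mem_GU hF _).mp g.2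

theorem ug_GU' (hF : Fintype.card F = q ^ 2) (g : ↥(Cfsg.GU n F q)) :
    ((g : GL (Fin n) F) : Mn n F).map (ulang_tau hF) * ((g : GL (Fin n) F) : Mn n F)ᵀ = 1 :=
  mul_eq_one_comm.mp (ug_GU hF g)

theorem ug_mapGU_coe (σ : RingAut F) (g : ↥(Cfsg.GU n F q)) :
    (((mapGU σ g : ↥(Cfsg.GU n F q)) : GL (Fin n) F) : Mn n F)
      = ((g : GL (Fin n) F) : Mn n F).map σ := rfl

/-! ### basic matrix lemmas for the embedding of the fixed field -/

section Iota

variable {F₀ : Type v} [Field F₀]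

theorem ug_iota_mul (ι : F₀ →+* F) (M N : Mn n F₀) :
    (M * N).map ι = M.map ι * N.map ι :=
  Matrix.map_mul (f := ι)

theorem ug_iota_one (ι : F₀ →+* F) : (1 : Mn n F₀).map ι = 1 := by
  ext i j
  rw [Matrix.map_apply, Matrix.one_apply, Matrix.one_apply]
  by_cases hij : i = j
  · rw [if_pos hij, if_pos hij, map_one]
  · rw [if_neg hij, if_neg hij, map_zero]

theorem ug_iota_smul (ι : F₀ →+* F) (c : F₀) (M : Mn n F₀) :
    (c • M).map ι = ι c • M.map ι := by
  ext i j
  simp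

theorem ug_iota_transpose (ι : F₀ →+* F) (M : Mn n F₀) : (Mᵀ).map ι = (M.map ι)ᵀ :=
  (Matrix.transpose_map).symm

theorem ug_iota_inj (ι : F₀ →+* F) {M N : Mn n F₀} (h : M.map ι = N.map ι) : M = N :=
  Matrix.map_injective ι.injective h

theorem ug_iota_det (ι : F₀ →+* F) (M : Mn n F₀) : (M.map ι).det = ι M.det :=
  (ι.map_det M).symm

/-- matrices over the fixed field are fixed by `τ` -/
theorem ug_iota_fixed (hF : Fintype.card F = q ^ 2) (ι : F₀ →+* F)
    (hι : ∀ x, ulang_tau hF x = x ↔ x ∈ Set.range ι) (M₀ : Mn n F₀) :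
    (M₀.map ι).map (ulang_tau hF) = M₀.map ι :=
  ulang_map_fixed (ulang_tau hF) ι hι M₀

/-- a matrix fixed by `τ` comes from the fixed field -/
theorem ug_iota_pullback (hF : Fintype.card F = q ^ 2) (ι : F₀ →+* F)
    (hι : ∀ x, ulang_tau hF x = x ↔ x ∈ Set.range ι) (M : Mn n F)
    (hM : M.map (ulang_tau hF) = M) : ∃ M₀ : Mn n F₀, M₀.map ι = M :=
  ulang_pullback (ulang_tau hF) ι hι M hM

end Iota

end Cfsg.Agent.Helper30.UG
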