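import Mathlib
import Cfsg.Agent.Helper30.UGDefs
import Cfsg.Agent.Helper42.UGA1
import Cfsg.Agent.Helper42.UGA7

set_option autoImplicit false

/-!
Helper library (helper30): piece CE of the PSU graph dictionary (CALL S2708).  For a descent
datum `UDat hF ι g k B` the centraliser of `ugr g` in `Inndiag(PSU_n(q))` is isomorphic to the
centraliser of `grph B` in `Inndiag(PSL_n(F₀))` (`ug_cent`); the unitary matrices centralising
`ugr g` are the matrices `k (b ι(x)) k⁻¹` with `x` a similitude of `B` (`ug_cGU_desc`).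
-/

namespace Cfsg.Agent.Helper30.UGCE

open Matrix Cfsg.Agent.Helper44.PSLn Cfsg.Agent.Helper44.PSUn Cfsg.Agent.Helper43.GraphAut
open Cfsg.Agent.Helper30.UG
open Cfsg.Agent.Helper42.UGA1 Cfsg.Agent.Helper42.UGA7

universe u v

variable {F : Type u} [Field F] [Fintype F] {q n : ℕ}

/-! ### small matrix lemmas -/

theorem ce_GL_mul_inv {R : Type*} [CommRing R] (k : GL (Fin n) R) :
    (k : Matrix (Fin n) (Fin n) R) * ((k⁻¹ : GL (Fin n) R) : Matrix (Fin n) (Fin n) R) = 1 := by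
  rw [← Units.val_mul, mul_inv_cancel, Units.val_one]

theorem ce_GL_inv_mul {R : Type*} [CommRing R] (k : GL (Fin n) R) :
    ((k⁻¹ : GL (Fin n) R) : Matrix (Fin n) (Fin n) R) * (k : Matrix (Fin n) (Fin n) R) = 1 := by
  rw [← Units.val_mul, inv_mul_cancel, Units.val_one]

/-- solving `k⁻¹ h k = b X` for `h` -/
theorem ce_h_eq (K K' H X : Mn n F) (hKK' : K * K' = 1) (b : F) (h : K' * H * K = b • X) :
    H = b • (K * X * K') := by
  calc H = (K * K') * H * (K * K') := by rw [hKK', Matrix.one_mul, Matrix.mul_one]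
    _ = K * (K' * H * K) * K' := by simp only [Matrix.mul_assoc]
    _ = b • (K * X * K') := by rw [h, Matrix.mul_smul, Matrix.smul_mul]

section Dict

variable {F₀ : Type v} [Field F₀]

/-- the pairs `(h, x)` with `k⁻¹ h k = b ι(x)` -/
def ceG (ι : F₀ →+* F) (k : GL (Fin n) F) :
    Subgroup (↥(Cfsg.GU n F q) × GL (Fin n) F₀) where
  carrier := {γ | ∃ b : F, b ≠ 0 ∧
    ((k⁻¹ : GL (Fin n) F) : Mn n F) * ((γ.1 : GL (Fin n) F) : Mn n F) * (k : Mn n F)
      = b • ((γ.2 : GL (Fin n) F₀) : Mn n F₀).map ι}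
  mul_mem' := by
    rintro γ γ' ⟨b, hb, e⟩ ⟨b', hb', e'⟩
    refine ⟨b * b', mul_ne_zero hb hb', ?_⟩
    rw [Prod.fst_mul, Prod.snd_mul, Subgroup.coe_mul, Units.val_mul, Units.val_mul, ug_iota_mul]
    calc ((k⁻¹ : GL (Fin n) F) : Mn n F)
          * (((γ.1 : GL (Fin n) F) : Mn n F) * ((γ'.1 : GL (Fin n) F) : Mn n F)) * (k : Mn n F)
        = (((k⁻¹ : GL (Fin n) F) : Mn n F) * ((γ.1 : GL (Fin n) F) : Mn n F))
          * ((k : Mn n F) * ((k⁻¹ : GL (Fin n) F) : Mn n F))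
          * (((γ'.1 : GL (Fin n) F) : Mn n F) * (k : Mn n F)) := by
          rw [ce_GL_mul_inv, Matrix.mul_one]
          simp only [Matrix.mul_assoc]
      _ = (((k⁻¹ : GL (Fin n) F) : Mn n F) * ((γ.1 : GL (Fin n) F) : Mn n F) * (k : Mn n F))
          * (((k⁻¹ : GL (Fin n) F) : Mn n F) * ((γ'.1 : GL (Fin n) F) : Mn n F) * (k : Mn n F)) := by
          simp only [Matrix.mul_assoc]
      _ = _ := by rw [e, e', Matrix.smul_mul, Matrix.mul_smul, smul_smul]
  one_mem' := by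
    refine ⟨1, one_ne_zero, ?_⟩
    rw [Prod.fst_one, Prod.snd_one, Subgroup.coe_one, Units.val_one, Units.val_one, Matrix.mul_one,
      ce_GL_inv_mul, ug_iota_one, one_smul]
  inv_mem' := by
    rintro γ ⟨b, hb, e⟩
    refine ⟨b⁻¹, inv_ne_zero hb, ?_⟩
    rw [Prod.fst_inv, Prod.snd_inv, Subgroup.coe_inv]
    have h1 : (((k⁻¹ : GL (Fin n) F) : Mn n F) * (((γ.1 : GL (Fin n) F)⁻¹ : GL (Fin n) F) : Mn n F)
        * (k : Mn n F))
        * (((k⁻¹ : GL (Fin n) F) : Mn n F) * ((γ.1 : GL (Fin n) F) : Mn n F) * (k : Mn n F)) = 1 := by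
      calc _ = ((k⁻¹ : GL (Fin n) F) : Mn n F)
            * ((((γ.1 : GL (Fin n) F)⁻¹ : GL (Fin n) F) : Mn n F)
              * ((k : Mn n F) * ((k⁻¹ : GL (Fin n) F) : Mn n F))
              * ((γ.1 : GL (Fin n) F) : Mn n F)) * (k : Mn n F) := by
            simp only [Matrix.mul_assoc]
        _ = 1 := by
            rw [ce_GL_mul_inv, Matrix.mul_one, ce_GL_inv_mul, Matrix.mul_one, ce_GL_inv_mul]
    have h2 : (b • ((γ.2 : GL (Fin n) F₀) : Mn n F₀).map ι)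
        * (b⁻¹ • (((γ.2⁻¹ : GL (Fin n) F₀)) : Mn n F₀).map ι) = 1 := by
      rw [Matrix.smul_mul, Matrix.mul_smul, smul_smul, mul_inv_cancel₀ hb, one_smul, ← ug_iota_mul,
        ce_GL_mul_inv, ug_iota_one]
    rw [e] at h1
    calc ((k⁻¹ : GL (Fin n) F) : Mn n F) * (((γ.1 : GL (Fin n) F)⁻¹ : GL (Fin n) F) : Mn n F)
          * (k : Mn n F)
        = (((k⁻¹ : GL (Fin n) F) : Mn n F) * (((γ.1 : GL (Fin n) F)⁻¹ : GL (Fin n) F) : Mn n F)
          * (k : Mn n F)) * ((b • ((γ.2 : GL (Fin n) F₀) : Mn n F₀).map ι)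
            * (b⁻¹ • (((γ.2⁻¹ : GL (Fin n) F₀)) : Mn n F₀).map ι)) := by
          rw [h2, Matrix.mul_one]
      _ = _ := by rw [← Matrix.mul_assoc, h1, Matrix.one_mul]

theorem mem_ceG (ι : F₀ →+* F) (k : GL (Fin n) F) (γ : ↥(Cfsg.GU n F q) × GL (Fin n) F₀) :
    γ ∈ ceG ι k ↔ ∃ b : F, b ≠ 0 ∧
      ((k⁻¹ : GL (Fin n) F) : Mn n F) * ((γ.1 : GL (Fin n) F) : Mn n F) * (k : Mn n F)
        = b • ((γ.2 : GL (Fin n) F₀) : Mn n F₀).map ι := Iff.rfl

/-- first projection -/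
def ceU (ι : F₀ →+* F) (k : GL (Fin n) F) : ↥(ceG (q := q) ι k) →* ↥(Cfsg.GU n F q) :=
  (MonoidHom.fst _ _).comp (ceG ι k).subtype

/-- second projection -/
def ceL (ι : F₀ →+* F) (k : GL (Fin n) F) : ↥(ceG (q := q) ι k) →* GL (Fin n) F₀ :=
  (MonoidHom.snd _ _).comp (ceG ι k).subtype

/-- the pairs inducing the trivial automorphism -/
noncomputable def ceN (ι : F₀ →+* F) (k : GL (Fin n) F) : Subgroup ↥(ceG (q := q) ι k) :=
  ((uD : ↥(Cfsg.GU n F q) →* MulAut (Cfsg.PSU n F q)).comp (ceU ι k)).ker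

theorem ceN_normal (ι : F₀ →+* F) (k : GL (Fin n) F) : (ceN (q := q) ι k).Normal :=
  MonoidHom.normal_ker _

end Dict

section Main

variable {F₀ : Type v} [Field F₀] (hF : Fintype.card F = q ^ 2) (ι : F₀ →+* F)
  (hι : ∀ x, ulang_tau hF x = x ↔ x ∈ Set.range ι)

include hι

/-- the core computations: pairs `(h, x)` with `k⁻¹ h k = b ι(x)` centralise `ugr g` resp.
`grph B`, and every unitary matrix centralising `ugr g` is of this form -/
theorem ce_core (p : ℕ) [Fact p.Prime] [CharP F p] (hn : 3 ≤ n) (h32 : ¬ (n = 3 ∧ q = 2))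
    (g : ↥(Cfsg.GU n F q)) (k : GL (Fin n) F) (B : GL (Fin n) F₀) (hd : UDat hF ι g k B) :
    (∀ (h : ↥(Cfsg.GU n F q)) (x : Mn n F₀) (b : F), b ≠ 0 →
        ((k⁻¹ : GL (Fin n) F) : Mn n F) * ((h : GL (Fin n) F) : Mn n F) * (k : Mn n F)
          = b • x.map ι →
        h ∈ ulang_cGU (ugr hF g) ∧ ∃ c : F₀, xᵀ * (B : Mn n F₀) * x = c • (B : Mn n F₀)) ∧
    (∀ h ∈ ulang_cGU (ugr hF g), ∃ (x : GL (Fin n) F₀) (b : F), b ≠ 0 ∧
        ((k⁻¹ : GL (Fin n) F) : Mn n F) * ((h : GL (Fin n) F) : Mn n F) * (k : Mn n F)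
          = b • (x : Mn n F₀).map ι) := by
  have hne : Nonempty (Fin n) := ⟨⟨0, by omega⟩⟩
  obtain ⟨a, u, ha, hu, h1, h2⟩ := hd
  obtain ⟨K, hKdef⟩ : ∃ K : Mn n F, K = (k : Mn n F) := ⟨_, rfl⟩
  obtain ⟨K', hK'def⟩ : ∃ K' : Mn n F, K' = ((k⁻¹ : GL (Fin n) F) : Mn n F) := ⟨_, rfl⟩
  obtain ⟨G, hGdef⟩ : ∃ G : Mn n F, G = ((g : GL (Fin n) F) : Mn n F) := ⟨_, rfl⟩
  obtain ⟨Bm, hBmdef⟩ : ∃ Bm : Mn n F₀, Bm = (B : Mn n F₀) := ⟨_, rfl⟩
  rw [← hKdef, ← hGdef] at h1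
  rw [← hKdef, ← hBmdef] at h2
  have hKK' : K * K' = 1 := by rw [hKdef, hK'def]; exact ce_GL_mul_inv k
  have hK'K : K' * K = 1 := by rw [hKdef, hK'def]; exact ce_GL_inv_mul k
  have hKt : K.map (ulang_tau hF) * K'.map (ulang_tau hF) = 1 := by
    rw [← ug_map_mul, hKK', ug_map_one]
  have hKt' : K'.map (ulang_tau hF) * K.map (ulang_tau hF) = 1 := by
    rw [← ug_map_mul, hK'K, ug_map_one]
  have hKT : Kᵀ * K'ᵀ = 1 := by rw [← Matrix.transpose_mul, hK'K, Matrix.transpose_one]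
  have hKT' : K'ᵀ * Kᵀ = 1 := by rw [← Matrix.transpose_mul, hKK', Matrix.transpose_one]
  have hGK : G * K.map (ulang_tau hF) = a⁻¹ • K := by
    conv_rhs => rw [← h1]
    rw [Matrix.smul_mul, smul_smul, inv_mul_cancel₀ ha, one_smul]
  have hK'G : K' * G = a⁻¹ • K'.map (ulang_tau hF) := by
    calc K' * G = K' * (G * K.map (ulang_tau hF)) * K'.map (ulang_tau hF) := by
          rw [Matrix.mul_assoc, Matrix.mul_assoc, hKt, Matrix.mul_one]
      _ = _ := by rw [hGK, Matrix.mul_smul, hK'K, Matrix.smul_mul, Matrix.one_mul]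
  -- the two basic computations for a pair `(H, X)` with `K' H K = b X`
  have keyA : ∀ (H X : Mn n F) (b : F), b ≠ 0 → X.map (ulang_tau hF) = X →
      K' * H * K = b • X →
      H * G = (b * (ulang_tau hF b)⁻¹) • (G * H.map (ulang_tau hF)) := by
    intro H X b hb hX e
    have hH := ce_h_eq K K' H X hKK' b e
    have hHt : H.map (ulang_tau hF)
        = ulang_tau hF b • (K.map (ulang_tau hF) * X * K'.map (ulang_tau hF)) := by
      rw [hH, ug_map_smul, ug_map_mul, ug_map_mul, hX]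
    have hb' : ulang_tau hF b ≠ 0 := (map_ne_zero _).mpr hb
    have e1 : H * G = (b * a⁻¹) • (K * X * K'.map (ulang_tau hF)) := by
      rw [hH, Matrix.smul_mul, Matrix.mul_assoc, hK'G, Matrix.mul_smul, smul_smul]
    have e2 : G * H.map (ulang_tau hF)
        = (ulang_tau hF b * a⁻¹) • (K * X * K'.map (ulang_tau hF)) := by
      rw [hHt, Matrix.mul_smul, ← Matrix.mul_assoc, ← Matrix.mul_assoc, hGK, Matrix.smul_mul,
        Matrix.smul_mul, smul_smul]
    rw [e1, e2, smul_smul]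
    congr 1
    field_simp
  have keyB : ∀ (H : Mn n F) (x : Mn n F₀) (b : F), b ≠ 0 →
      K' * H * K = b • x.map ι → Hᵀ * H.map (ulang_tau hF) = 1 →
      ∃ c : F₀, xᵀ * Bm * x = c • Bm := by
    intro H x b hb e hU
    have hH := ce_h_eq K K' H (x.map ι) hKK' b e
    have hHt : H.map (ulang_tau hF)
        = ulang_tau hF b • (K.map (ulang_tau hF) * x.map ι * K'.map (ulang_tau hF)) := by
      rw [hH, ug_map_smul, ug_map_mul, ug_map_mul, ug_iota_fixed hF ι hι]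
    have hHT : Hᵀ = b • (K'ᵀ * (x.map ι)ᵀ * Kᵀ) := by
      rw [hH, Matrix.transpose_smul, Matrix.transpose_mul, Matrix.transpose_mul, Matrix.mul_assoc]
    have e1 : Hᵀ * H.map (ulang_tau hF) = (b * ulang_tau hF b * u) •
        (K'ᵀ * ((x.map ι)ᵀ * Bm.map ι * x.map ι) * K'.map (ulang_tau hF)) := by
      rw [hHT, hHt, Matrix.smul_mul, Matrix.mul_smul, smul_smul]
      have e0 : K'ᵀ * (x.map ι)ᵀ * Kᵀ * (K.map (ulang_tau hF) * x.map ι * K'.map (ulang_tau hF))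
          = K'ᵀ * ((x.map ι)ᵀ * (Kᵀ * K.map (ulang_tau hF)) * x.map ι)
            * K'.map (ulang_tau hF) := by simp only [Matrix.mul_assoc]
      rw [e0, h2, Matrix.mul_smul, Matrix.smul_mul, Matrix.mul_smul, Matrix.smul_mul, smul_smul]
    have e2 : (b * ulang_tau hF b * u) • ((x.map ι)ᵀ * Bm.map ι * x.map ι) = u • Bm.map ι := by
      have e3 : Kᵀ * (Hᵀ * H.map (ulang_tau hF)) * K.map (ulang_tau hF)
          = Kᵀ * K.map (ulang_tau hF) := by rw [hU, Matrix.mul_one]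
      rw [e1, Matrix.mul_smul, Matrix.smul_mul, h2] at e3
      have e4 : Kᵀ * (K'ᵀ * ((x.map ι)ᵀ * Bm.map ι * x.map ι) * K'.map (ulang_tau hF))
          * K.map (ulang_tau hF) = (x.map ι)ᵀ * Bm.map ι * x.map ι := by
        calc _ = (Kᵀ * K'ᵀ) * ((x.map ι)ᵀ * Bm.map ι * x.map ι)
              * (K'.map (ulang_tau hF) * K.map (ulang_tau hF)) := by simp only [Matrix.mul_assoc]
          _ = _ := by rw [hKT, hKt', Matrix.one_mul, Matrix.mul_one]
      rw [e4] at e3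
      exact e3
    have hfix : ulang_tau hF (b * ulang_tau hF b) = b * ulang_tau hF b := by
      rw [map_mul, ulang_tau_tau, mul_comm]
    obtain ⟨s, hs⟩ := (hι _).mp hfix
    have hs0 : s ≠ 0 := by
      rintro rfl
      rw [map_zero] at hs
      exact mul_ne_zero hb ((map_ne_zero _).mpr hb) hs.symm
    have e5 : (s • (xᵀ * Bm * x)).map ι = Bm.map ι := by
      rw [ug_iota_smul, ug_iota_mul, ug_iota_mul, ug_iota_transpose, hs]
      have e6 : u • ((b * ulang_tau hF b) • ((x.map ι)ᵀ * Bm.map ι * x.map ι)) = u • Bm.map ι := by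
        rw [smul_smul, mul_comm u]
        exact e2
      exact smul_right_injective _ hu e6
    have e7 := ug_iota_inj ι e5
    refine ⟨s⁻¹, ?_⟩
    conv_rhs => rw [← e7]
    rw [smul_smul, inv_mul_cancel₀ hs0, one_smul]
  refine ⟨?_, ?_⟩
  · intro h x b hb0 e
    rw [← hK'def, ← hKdef] at e
    refine ⟨?_, ?_⟩
    · rw [ug_mem_cGU hF p hn h32]
      refine ⟨b * (ulang_tau hF b)⁻¹, ?_⟩
      rw [← hGdef]
      exact keyA _ _ b hb0 (ug_iota_fixed hF ι hι _) e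
    · have e1 := keyB _ _ b hb0 e (ug_GU hF h)
      rw [← hBmdef]
      exact e1
  · 
      intro h hh
      obtain ⟨c, hc⟩ := (ug_mem_cGU hF p hn h32 g h).mp hh
      rw [← hGdef] at hc
      obtain ⟨H, hHdef⟩ : ∃ H : Mn n F, H = ((h : GL (Fin n) F) : Mn n F) := ⟨_, rfl⟩
      obtain ⟨H', hH'def⟩ : ∃ H' : Mn n F, H' = (((h : GL (Fin n) F)⁻¹ : GL (Fin n) F) : Mn n F) :=
        ⟨_, rfl⟩
      have hHH' : H * H' = 1 := by rw [hHdef, hH'def]; exact ce_GL_mul_inv _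
      rw [← hHdef] at hc
      obtain ⟨H0, hH0def⟩ : ∃ H0 : Mn n F, H0 = K' * H * K := ⟨_, rfl⟩
      have hH0t : H0.map (ulang_tau hF)
          = K'.map (ulang_tau hF) * H.map (ulang_tau hF) * K.map (ulang_tau hF) := by
        rw [hH0def, ug_map_mul, ug_map_mul]
      have e1 : H0 = c • H0.map (ulang_tau hF) := by
        have e2 : K' * (H * G) * K.map (ulang_tau hF) = a⁻¹ • H0 := by
          rw [Matrix.mul_assoc, Matrix.mul_assoc, hGK, Matrix.mul_smul, Matrix.mul_smul,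
            ← Matrix.mul_assoc, hH0def]
        have e3 : K' * (c • (G * H.map (ulang_tau hF))) * K.map (ulang_tau hF)
            = (c * a⁻¹) • H0.map (ulang_tau hF) := by
          rw [Matrix.mul_smul, Matrix.smul_mul, ← Matrix.mul_assoc, hK'G, Matrix.smul_mul,
            Matrix.smul_mul, smul_smul, hH0t]
        rw [hc, e3] at e2
        have e4 : a⁻¹ • (c • H0.map (ulang_tau hF)) = a⁻¹ • H0 := by
          rw [smul_smul, mul_comm]
          exact e2
        exact (smul_right_injective _ (inv_ne_zero ha) e4).symm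
      have hH0u : H0 * (K' * H' * K) = 1 := by
        rw [hH0def]
        calc K' * H * K * (K' * H' * K) = K' * (H * (K * K') * H') * K := by
              simp only [Matrix.mul_assoc]
          _ = 1 := by rw [hKK', Matrix.mul_one, hHH', Matrix.mul_one, hK'K]
      have hH0ne : H0 ≠ 0 := by
        intro h0
        rw [h0, Matrix.zero_mul] at hH0u
        exact zero_ne_one hH0u
      have hc0 : c ≠ 0 := by
        rintro rfl
        rw [zero_smul] at e1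
        exact hH0ne e1
      have hcc : c * ulang_tau hF c = 1 := by
        have e5 : H0.map (ulang_tau hF) = ulang_tau hF c • H0 := by
          conv_lhs => rw [e1]
          rw [ug_map_smul, ug_map_map]
        have e6 : (c * ulang_tau hF c) • H0 = (1 : F) • H0 := by
          rw [one_smul, ← smul_smul, ← e5, ← e1]
        exact smul_left_injective F hH0ne e6
      have htw : twR ((ulang_tau hF : RingAut F) : F →+* F) c 2 = 1 := by
        rw [twR_succ, twR_succ, twR_zero, map_one, mul_one]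
        exact hcc
      obtain ⟨b, hb0, hb⟩ := lang_h90_scalar (ulang_tau hF) 2 (ug_tau_order hF) (by norm_num) c htw
      have hYfix : (b⁻¹ • H0).map (ulang_tau hF) = b⁻¹ • H0 := by
        rw [ug_map_smul, map_inv₀]
        conv_rhs => rw [e1]
        rw [smul_smul]
        congr 1
        have hb' : ulang_tau hF b ≠ 0 := (map_ne_zero _).mpr hb0
        have hb2 : b = c * ulang_tau hF b := hb.symm
        field_simp
        rw [mul_comm]
        exact hb2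
      obtain ⟨X0, hX0⟩ := ug_iota_pullback hF ι hι _ hYfix
      have hX0det : X0.det ≠ 0 := by
        intro h0
        have e7 : (X0.map ι).det = 0 := by rw [ug_iota_det, h0, map_zero]
        rw [hX0] at e7
        have e8 : (b⁻¹ • H0) * (b • (K' * H' * K)) = 1 := by
          rw [Matrix.smul_mul, Matrix.mul_smul, smul_smul, inv_mul_cancel₀ hb0, one_smul, hH0u]
        have e9 := congrArg Matrix.det e8
        rw [Matrix.det_mul, e7, zero_mul, Matrix.det_one] at e9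
        exact zero_ne_one e9
      obtain ⟨x, hx⟩ := (Matrix.isUnit_iff_isUnit_det X0).mpr (IsUnit.mk0 _ hX0det)
      refine ⟨x, b, hb0, ?_⟩
      rw [hx, hX0, smul_smul, mul_inv_cancel₀ hb0, one_smul, ← hKdef, ← hK'def, ← hHdef, hH0def]

/-- **the centraliser of `ugr g` in `GU_n(q)`**: the matrices `k (b ι(x)) k⁻¹` with `x` a
similitude of `B` over the fixed field -/
theorem ug_cGU_desc (p : ℕ) [Fact p.Prime] [CharP F p] (hn : 3 ≤ n) (h32 : ¬ (n = 3 ∧ q = 2))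
    (g : ↥(Cfsg.GU n F q)) (k : GL (Fin n) F) (B : GL (Fin n) F₀) (hd : UDat hF ι g k B)
    (h : ↥(Cfsg.GU n F q)) :
    h ∈ ulang_cGU (ugr hF g) ↔ ∃ (x : GL (Fin n) F₀) (b : F), b ≠ 0 ∧
      (∃ c : F₀, (x : Mn n F₀)ᵀ * (B : Mn n F₀) * (x : Mn n F₀) = c • (B : Mn n F₀)) ∧
      ((h : GL (Fin n) F) : Mn n F) * (k : Mn n F) = (k : Mn n F) * (b • (x : Mn n F₀).map ι) := by
  obtain ⟨hc1, hc2⟩ := ce_core hF ι hι p hn h32 g k B hd
  constructor
  · intro hh
    obtain ⟨x, b, hb0, e⟩ := hc2 h hh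
    refine ⟨x, b, hb0, (hc1 h _ b hb0 e).2, ?_⟩
    rw [← e, ← Matrix.mul_assoc, ← Matrix.mul_assoc, ce_GL_mul_inv, Matrix.one_mul]
  · rintro ⟨x, b, hb0, -, e⟩
    refine (hc1 h (x : Mn n F₀) b hb0 ?_).1
    rw [Matrix.mul_assoc, e, ← Matrix.mul_assoc, ce_GL_inv_mul, Matrix.one_mul]

/-- **CE**: the centraliser of `ugr g` in `Inndiag(PSU_n(q))` is the centraliser of `grph B`
in `Inndiag(PSL_n(F₀))` -/
theorem ug_cent (p : ℕ) [Fact p.Prime] [CharP F p] (hn : 3 ≤ n) (h32 : ¬ (n = 3 ∧ q = 2))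
    (g : ↥(Cfsg.GU n F q)) (k : GL (Fin n) F) (B : GL (Fin n) F₀) (hd : UDat hF ι g k B) :
    Nonempty (↥(Cfsg.inndiagPSU n F q ⊓ Subgroup.centralizer {ugr hF g}) ≃*
      ↥(Cfsg.inndiagPSL n F₀ ⊓ Subgroup.centralizer {(grph B : MulAut (PSLn n F₀))})) := by
  have hne : Nonempty (Fin n) := ⟨⟨0, by omega⟩⟩
  obtain ⟨a, u, ha, hu, h1, h2⟩ := hd
  obtain ⟨K, hKdef⟩ : ∃ K : Mn n F, K = (k : Mn n F) := ⟨_, rfl⟩
  obtain ⟨K', hK'def⟩ : ∃ K' : Mn n F, K' = ((k⁻¹ : GL (Fin n) F) : Mn n F) := ⟨_, rfl⟩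
  obtain ⟨G, hGdef⟩ : ∃ G : Mn n F, G = ((g : GL (Fin n) F) : Mn n F) := ⟨_, rfl⟩
  obtain ⟨Bm, hBmdef⟩ : ∃ Bm : Mn n F₀, Bm = (B : Mn n F₀) := ⟨_, rfl⟩
  rw [← hKdef, ← hGdef] at h1
  rw [← hKdef, ← hBmdef] at h2
  have hKK' : K * K' = 1 := by rw [hKdef, hK'def]; exact ce_GL_mul_inv k
  have hK'K : K' * K = 1 := by rw [hKdef, hK'def]; exact ce_GL_inv_mul k
  have hKt : K.map (ulang_tau hF) * K'.map (ulang_tau hF) = 1 := by
    rw [← ug_map_mul, hKK', ug_map_one]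
  have hKt' : K'.map (ulang_tau hF) * K.map (ulang_tau hF) = 1 := by
    rw [← ug_map_mul, hK'K, ug_map_one]
  have hKT : Kᵀ * K'ᵀ = 1 := by rw [← Matrix.transpose_mul, hK'K, Matrix.transpose_one]
  have hKT' : K'ᵀ * Kᵀ = 1 := by rw [← Matrix.transpose_mul, hKK', Matrix.transpose_one]
  have hGK : G * K.map (ulang_tau hF) = a⁻¹ • K := by
    conv_rhs => rw [← h1]
    rw [Matrix.smul_mul, smul_smul, inv_mul_cancel₀ ha, one_smul]
  have hK'G : K' * G = a⁻¹ • K'.map (ulang_tau hF) := by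
    calc K' * G = K' * (G * K.map (ulang_tau hF)) * K'.map (ulang_tau hF) := by
          rw [Matrix.mul_assoc, Matrix.mul_assoc, hKt, Matrix.mul_one]
      _ = _ := by rw [hGK, Matrix.mul_smul, hK'K, Matrix.smul_mul, Matrix.one_mul]
  obtain ⟨hc1, hc2⟩ := ce_core hF ι hι p hn h32 g k B ⟨a, u, ha, hu, by rw [← hKdef, ← hGdef]; exact h1, by rw [← hKdef, ← hBmdef]; exact h2⟩
  have hNn : (ceN (q := q) ι k).Normal := ceN_normal ι k
  -- the unitary side
  have haU : ∀ γ : ↥(ceG (q := q) ι k), ceU ι k γ ∈ ulang_cGU (ugr hF g) := by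
    intro γ
    obtain ⟨b, hb0, e⟩ := γ.2
    exact (hc1 γ.1.1 _ b hb0 e).1
  have hbU : ∀ h ∈ ulang_cGU (ugr hF g), ∃ γ : ↥(ceG (q := q) ι k),
      (uD h : MulAut (Cfsg.PSU n F q)) = uD (ceU ι k γ) := by
    intro h hh
    obtain ⟨x, b, hb0, e⟩ := hc2 h hh
    exact ⟨⟨(h, x), ⟨b, hb0, e⟩⟩, rfl⟩
  have hNU : ∀ γ : ↥(ceG (q := q) ι k), γ ∈ ceN ι k ↔
      (uD (ceU ι k γ) : MulAut (Cfsg.PSU n F q)) = 1 := fun γ => Iff.rfl
  -- the linear side
  have haL : ∀ γ : ↥(ceG (q := q) ι k), ceL ι k γ ∈ lang_cGL (grph B) := by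
    intro γ
    rw [mem_cGL_grph (by omega : 2 ≤ n)]
    obtain ⟨b, hb0, e⟩ := γ.2
    exact (hc1 γ.1.1 _ b hb0 e).2
  have hbL : ∀ x ∈ lang_cGL (grph B), ∃ (γ : ↥(ceG (q := q) ι k)) (c : F₀),
      (x : Mn n F₀) = c • (ceL ι k γ : Mn n F₀) := by
    intro x hx
    obtain ⟨c₀, hc₀⟩ := (mem_cGL_grph (by omega : 2 ≤ n) B x).mp hx
    rw [← hBmdef] at hc₀
    have hc₀0 : c₀ ≠ 0 := by
      rintro rfl
      rw [zero_smul] at hc₀
      have e1 := congrArg Matrix.det hc₀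
      rw [Matrix.det_mul, Matrix.det_mul, Matrix.det_transpose, Matrix.det_zero] at e1
      have hx0 : (x : Mn n F₀).det ≠ 0 := ((Matrix.isUnit_iff_isUnit_det _).mp x.isUnit).ne_zero
      have hB0 : Bm.det ≠ 0 := by
        rw [hBmdef]
        exact ((Matrix.isUnit_iff_isUnit_det _).mp B.isUnit).ne_zero
      exact mul_ne_zero (mul_ne_zero hx0 hB0) hx0 e1
    have hw0 : (ι c₀)⁻¹ ≠ 0 := inv_ne_zero ((map_ne_zero ι).mpr hc₀0)
    have hwt : ulang_tau hF (ι c₀)⁻¹ = (ι c₀)⁻¹ := by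
      rw [map_inv₀, (hι _).mpr ⟨c₀, rfl⟩]
    obtain ⟨μ, hμ0, hμ⟩ := lang_norm_surj (ulang_tau hF) 2 (ug_tau_order hF) (by norm_num)
      (ι c₀)⁻¹ hw0 hwt
    rw [twR_succ, twR_succ, twR_zero, map_one, mul_one] at hμ
    have hμ' : μ * ulang_tau hF μ = (ι c₀)⁻¹ := hμ
    obtain ⟨X, hXdef⟩ : ∃ X : Mn n F, X = (x : Mn n F₀).map ι := ⟨_, rfl⟩
    obtain ⟨X', hX'def⟩ : ∃ X' : Mn n F, X' = ((x⁻¹ : GL (Fin n) F₀) : Mn n F₀).map ι := ⟨_, rfl⟩
    have hXX' : X * X' = 1 := by rw [hXdef, hX'def, ← ug_iota_mul, ce_GL_mul_inv, ug_iota_one]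
    have hXt : X.map (ulang_tau hF) = X := by rw [hXdef]; exact ug_iota_fixed hF ι hι _
    have hXB : Xᵀ * Bm.map ι * X = ι c₀ • Bm.map ι := by
      rw [hXdef, ← ug_iota_transpose, ← ug_iota_mul, ← ug_iota_mul, hc₀, ug_iota_smul]
    have hHinv : (μ • (K * X * K')) * (μ⁻¹ • (K * X' * K')) = 1 := by
      rw [Matrix.smul_mul, Matrix.mul_smul, smul_smul, mul_inv_cancel₀ hμ0, one_smul]
      calc K * X * K' * (K * X' * K') = K * (X * (K' * K) * X') * K' := by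
            simp only [Matrix.mul_assoc]
        _ = 1 := by rw [hK'K, Matrix.mul_one, hXX', Matrix.mul_one, hKK']
    obtain ⟨hG, hhG⟩ := IsUnit.of_mul_eq_one _ hHinv
    have hGU : hG ∈ Cfsg.GU n F q := by
      rw [ug_mem_GU hF, hhG, Matrix.transpose_smul, ug_map_smul, Matrix.smul_mul, Matrix.mul_smul,
        smul_smul, Matrix.transpose_mul, Matrix.transpose_mul, ug_map_mul, ug_map_mul, hXt]
      have e0 : K'ᵀ * (Xᵀ * Kᵀ) * (K.map (ulang_tau hF) * X * K'.map (ulang_tau hF))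
          = K'ᵀ * (Xᵀ * (Kᵀ * K.map (ulang_tau hF)) * X) * K'.map (ulang_tau hF) := by
        simp only [Matrix.mul_assoc]
      rw [e0, h2, Matrix.mul_smul, Matrix.smul_mul, hXB, smul_smul]
      have e1 : K'ᵀ * ((u * ι c₀) • Bm.map ι) * K'.map (ulang_tau hF)
          = ι c₀ • (K'ᵀ * (Kᵀ * K.map (ulang_tau hF)) * K'.map (ulang_tau hF)) := by
        rw [h2, Matrix.mul_smul, Matrix.smul_mul, Matrix.mul_smul, Matrix.smul_mul, smul_smul,
          mul_comm]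
      have e2 : K'ᵀ * (Kᵀ * K.map (ulang_tau hF)) * K'.map (ulang_tau hF) = 1 := by
        calc _ = (K'ᵀ * Kᵀ) * (K.map (ulang_tau hF) * K'.map (ulang_tau hF)) := by
              simp only [Matrix.mul_assoc]
          _ = 1 := by rw [hKT', hKt, Matrix.one_mul]
      rw [e1, e2, smul_smul, hμ', inv_mul_cancel₀ ((map_ne_zero ι).mpr hc₀0), one_smul]
    have e : K' * (hG : Mn n F) * K = μ • X := by
      rw [hhG, Matrix.mul_smul, Matrix.smul_mul]
      congr 1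
      calc K' * (K * X * K') * K = (K' * K) * X * (K' * K) := by simp only [Matrix.mul_assoc]
        _ = X := by rw [hK'K, Matrix.one_mul, Matrix.mul_one]
    refine ⟨⟨(⟨hG, hGU⟩, x), ⟨μ, hμ0, ?_⟩⟩, 1, ?_⟩
    · show ((k⁻¹ : GL (Fin n) F) : Mn n F) * (hG : Mn n F) * (k : Mn n F)
        = μ • ((x : GL (Fin n) F₀) : Mn n F₀).map ι
      rw [← hKdef, ← hK'def, ← hXdef]
      exact e
    · rw [one_smul]
      rfl
  have hNL : ∀ γ : ↥(ceG (q := q) ι k), γ ∈ ceN ι k ↔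
      ∃ c : F₀, (ceL ι k γ : Mn n F₀) = c • (1 : Mn n F₀) := by
    intro γ
    rw [hNU, ulang_uD_eq_one_iff hF p hn h32]
    obtain ⟨b, hb0, e⟩ := γ.2
    rw [← hK'def, ← hKdef] at e
    constructor
    · rintro ⟨c, hc⟩
      have hc' : ((γ.1.1 : GL (Fin n) F) : Mn n F) = c • 1 := hc
      rw [hc', Matrix.mul_smul, Matrix.mul_one, Matrix.smul_mul, hK'K] at e
      have e1 : ((γ.1.2 : GL (Fin n) F₀) : Mn n F₀).map ι = (b⁻¹ * c) • (1 : Mn n F) := by
        rw [← smul_smul, e, smul_smul, inv_mul_cancel₀ hb0, one_smul]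
      refine ⟨((γ.1.2 : GL (Fin n) F₀) : Mn n F₀) ⟨0, by omega⟩ ⟨0, by omega⟩, ?_⟩
      show ((γ.1.2 : GL (Fin n) F₀) : Mn n F₀) = _
      ext i j
      have e2 := congrFun (congrFun e1 i) j
      have e3 := congrFun (congrFun e1 ⟨0, by omega⟩) ⟨0, by omega⟩
      rw [Matrix.map_apply, Matrix.smul_apply, Matrix.one_apply] at e2 e3
      rw [if_pos rfl] at e3
      rw [Matrix.smul_apply, Matrix.one_apply]
      by_cases hij : i = j
      · rw [if_pos hij] at e2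
        rw [if_pos hij, smul_eq_mul, mul_one]
        exact ι.injective (e2.trans e3.symm)
      · rw [if_neg hij, smul_zero] at e2
        rw [if_neg hij, smul_zero]
        exact ι.injective (e2.trans (map_zero ι).symm)
    · rintro ⟨c, hc⟩
      have hc' : ((γ.1.2 : GL (Fin n) F₀) : Mn n F₀) = c • 1 := hc
      rw [hc', ug_iota_smul, ug_iota_one, smul_smul] at e
      refine ⟨b * ι c, ?_⟩
      show ((γ.1.1 : GL (Fin n) F) : Mn n F) = _
      have e1 := ce_h_eq K K' _ _ hKK' _ e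
      rw [Matrix.mul_one, hKK'] at e1
      exact e1
  have keyU := ulang_centralizer_iso (ceU ι k) (ugr hF g) 1 haU hbU (ceN ι k) hNU
  have keyL := lang_centralizer_iso (by omega : 2 ≤ n) (ceL ι k) (grph B) 1 haL hbL (ceN ι k) hNL
  rw [map_one, one_mul, inv_one, mul_one] at keyU keyL
  obtain ⟨φU⟩ := keyU
  obtain ⟨φL⟩ := keyL
  exact ⟨φU.trans φL.symm⟩

end Main

end Cfsg.Agent.Helper30.UGCE
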