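import Mathlib
import Cfsg.Agent.Helper30.UGDefs
import Cfsg.Agent.Helper30.UGCE
import Cfsg.Agent.Helper30.GA2Asm
import Cfsg.Agent.Helper42.UGA2
import Cfsg.Agent.Helper46.UGA3
import Cfsg.Agent.Helper31.UGA8
import Cfsg.Agent.Helper37.UGIOTA
import Cfsg.Agent.Helper37.UGDS
import Cfsg.Agent.Helper37.UGES
import Cfsg.Agent.Helper47.UGCJ1
import Cfsg.Agent.Helper47.UGCJ2

set_option autoImplicit false

/-!
Helper library (helper30): assembly of S2708 (`PSU_n(q)`, `n = 2m ≥ 4`, `q` even: two classes of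
involutory graph automorphisms, centralisers `Sp_n(q)` and the centraliser of a transvection)
from the PSU graph dictionary (CALL S2708: `Helper30/UGDefs`, `Helper30/UGCE` and the pieces of
helper31, helper37, helper42, helper46, helper47) and the `PSL_n(F₀)` facts of `Helper30/GA2Asm`.
-/

namespace Cfsg.Agent.Helper30.UG2

open Matrix Cfsg.Agent.Helper44.PSLn Cfsg.Agent.Helper44.PSUn Cfsg.Agent.Helper43.GraphAut
open Cfsg.Agent.Helper30.UG Cfsg.Agent.Helper30.GA2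
open Cfsg.Agent.Helper42.UGA2 Cfsg.Agent.Helper46.UGA3 Cfsg.Agent.Helper31.UGA8
open Cfsg.Agent.Helper37.UGIOTA Cfsg.Agent.Helper37.UGDS Cfsg.Agent.Helper37.UGES
open Cfsg.Agent.Helper47.UGCJ1 Cfsg.Agent.Helper47.UGCJ2 Cfsg.Agent.Helper30.UGCE

universe u v

theorem ug2_main {F : Type u} [Field F] [Fintype F] [CharP F 2] {q : ℕ}
    (hF : Fintype.card F = q ^ 2) {n m : ℕ} (hm : 2 ≤ m) (hnm : n = 2 * m)
    (F₀ : Type v) [Field F₀] [Fintype F₀] (hF₀ : Fintype.card F₀ = q) :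
    ∃ (γ₁ γ₃ : MulAut (Cfsg.PSU n F q)) (t : ↥(Matrix.symplecticGroup (Fin m) F₀)),
      Cfsg.IsTransvection (t : Matrix (Fin m ⊕ Fin m) (Fin m ⊕ Fin m) F₀) ∧
      Cfsg.IsGraphAutClassPSU γ₁ ∧ orderOf γ₁ = 2 ∧ Cfsg.IsGraphAutClassPSU γ₃ ∧ orderOf γ₃ = 2 ∧
      ¬ Cfsg.IsConjUnder (Cfsg.inndiagPSU n F q) γ₁ γ₃ ∧
      (∀ γ : MulAut (Cfsg.PSU n F q), Cfsg.IsGraphAutClassPSU γ → orderOf γ = 2 →
        Cfsg.IsConjUnder (Cfsg.inndiagPSU n F q) γ₁ γ ∨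
          Cfsg.IsConjUnder (Cfsg.inndiagPSU n F q) γ₃ γ) ∧
      Nonempty (↥(Cfsg.inndiagPSU n F q ⊓ Subgroup.centralizer {γ₁}) ≃*
        ↥(Matrix.symplecticGroup (Fin m) F₀)) ∧
      Nonempty (↥(Cfsg.inndiagPSU n F q ⊓ Subgroup.centralizer {γ₃}) ≃*
        ↥(Subgroup.centralizer ({t} : Set ↥(Matrix.symplecticGroup (Fin m) F₀)))) := by
  have hn : 3 ≤ n := by omega
  have h32 : ¬ (n = 3 ∧ q = 2) := by omega
  obtain ⟨ι, hι⟩ := ug_iota hF hF₀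
  have hch : CharP F₀ 2 := RingHom.charP ι ι.injective 2
  obtain ⟨e⟩ : Nonempty (Fin m ⊕ Fin m ≃ Fin n) :=
    ⟨finSumFinEquiv.trans (finCongr (by omega))⟩
  have hJs : ((JG e F₀ : GL (Fin n) F₀) : Mn n F₀)ᵀ = ((JG e F₀ : GL (Fin n) F₀) : Mn n F₀) := by
    rw [JG_coe, Jn_transpose, ga2_neg]
  obtain ⟨g₁, k₁, hd₁, hs₁⟩ := ug_exists_sym hF ι hι (JG e F₀) hJs
  obtain ⟨g₃, k₃, hd₃, hs₃⟩ := ug_exists_sym hF ι hι (1 : GL (Fin n) F₀)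
    (by rw [Units.val_one, Matrix.transpose_one])
  obtain ⟨t, ht, hc3⟩ := ga2_cent_three (F := F₀) (by omega) (by omega) hnm e
  refine ⟨ugr hF g₁, ugr hF g₃, t, ht, ug_isGraph hF hn g₁,
    (ug_orderOf hF 2 hn h32 g₁).mpr (Or.inl hs₁), ug_isGraph hF hn g₃,
    (ug_orderOf hF 2 hn h32 g₃).mpr (Or.inl hs₃), ?_, ?_, ?_, ?_⟩
  · intro hc
    exact ga2_not_conj (by omega) e (ug_conj_mp hF ι hι 2 hn h32 g₁ g₃ k₁ k₃ _ _ hd₁ hd₃ hc)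
  · intro γ hγ h2
    obtain ⟨g, rfl⟩ := ug_exists hF 2 hn h32 γ hγ h2
    have hs : ((g : GL (Fin n) F) : Mn n F)ᵀ = ((g : GL (Fin n) F) : Mn n F) := by
      rcases (ug_orderOf hF 2 hn h32 g).mp h2 with h | h
      · exact h
      · rw [h, ga2_neg]
    obtain ⟨k, B, hd, hB⟩ := ug_descent_sym hF ι hι g hs
    rcases ga2_classify hn e (grph B) (isGraph_grph hn B)
      ((orderOf_grph hn B).mpr (Or.inl hB)) with h | h
    · left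
      exact ug_conj_mpr hF ι hι 2 hn h32 g₁ g k₁ k _ _ hd₁ hd h
    · right
      exact ug_conj_mpr hF ι hι 2 hn h32 g₃ g k₃ k _ _ hd₃ hd h
  · obtain ⟨φ⟩ := ug_cent hF ι hι 2 hn h32 g₁ k₁ _ hd₁
    obtain ⟨ψ⟩ := ga2_cent_one (F := F₀) (by omega) (by omega) e
    exact ⟨φ.trans ψ⟩
  · obtain ⟨φ⟩ := ug_cent hF ι hι 2 hn h32 g₃ k₃ _ hd₃
    obtain ⟨ψ⟩ := hc3
    exact ⟨φ.trans ψ⟩

end Cfsg.Agent.Helper30.UG2
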