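import Mathlib
import Cfsg.Agent.Helper30.UGCE

set_option autoImplicit false

/-!
Helper library (helper30): piece DM1 of CALL S2709 (helper43).  A unitary matrix `h` centralising
the graph automorphism `ugr g` of `PSU_n(q)` is `k (b ι(x)) k⁻¹` with `x` a similitude of `B` of
multiplier `c`, `b τ(b) ι(c) = 1` and `det h = b ^ n ι(det x)`.
-/

namespace Cfsg.Agent.Helper30.UGDM1

open Matrix Cfsg.Agent.Helper44.PSLn Cfsg.Agent.Helper44.PSUn Cfsg.Agent.Helper43.GraphAut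
open Cfsg.Agent.Helper30.UG Cfsg.Agent.Helper30.UGCE

universe u v

variable {F : Type u} [Field F] [Fintype F] {q n : ℕ}

section Dict

variable {F₀ : Type v} [Field F₀] (hF : Fintype.card F = q ^ 2) (ι : F₀ →+* F)
  (hι : ∀ x, ulang_tau hF x = x ↔ x ∈ Set.range ι)

include hι

/-- DM1 -/
theorem ug_det_mp (p : ℕ) [Fact p.Prime] [CharP F p] (hn : 3 ≤ n) (h32 : ¬ (n = 3 ∧ q = 2))
    (g : ↥(Cfsg.GU n F q)) (k : GL (Fin n) F) (B : GL (Fin n) F₀) (hd : UDat hF ι g k B)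
    (h : ↥(Cfsg.GU n F q)) (hh : h ∈ ulang_cGU (ugr hF g)) :
    ∃ (x : GL (Fin n) F₀) (b : F) (c : F₀),
      (x : Mn n F₀)ᵀ * (B : Mn n F₀) * (x : Mn n F₀) = c • (B : Mn n F₀) ∧
      b * ulang_tau hF b * ι c = 1 ∧
      ((h : GL (Fin n) F) : Mn n F).det = b ^ n * ι ((x : Mn n F₀).det) := by
  have hne : Nonempty (Fin n) := ⟨⟨0, by omega⟩⟩
  obtain ⟨x, b, hb0, ⟨c, hc⟩, E⟩ := (ug_cGU_desc hF ι hι p hn h32 g k B hd h).mp hh
  obtain ⟨a, u, ha, hu, h1, h2⟩ := hd
  obtain ⟨K, hKdef⟩ : ∃ K : Mn n F, K = (k : Mn n F) := ⟨_, rfl⟩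
  obtain ⟨H, hHdef⟩ : ∃ H : Mn n F, H = ((h : GL (Fin n) F) : Mn n F) := ⟨_, rfl⟩
  obtain ⟨X, hXdef⟩ : ∃ X : Mn n F, X = (x : Mn n F₀).map ι := ⟨_, rfl⟩
  obtain ⟨Bi, hBidef⟩ : ∃ Bi : Mn n F, Bi = (B : Mn n F₀).map ι := ⟨_, rfl⟩
  rw [← hKdef, ← hBidef] at h2
  rw [← hKdef, ← hHdef, ← hXdef] at E
  have hXt : X.map (ulang_tau hF) = X := by rw [hXdef]; exact ug_iota_fixed hF ι hι _
  have hU : Hᵀ * H.map (ulang_tau hF) = 1 := by rw [hHdef]; exact ug_GU hF h
  have hXB : Xᵀ * Bi * X = ι c • Bi := by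
    rw [hXdef, hBidef, ← ug_iota_transpose, ← ug_iota_mul, ← ug_iota_mul, hc, ug_iota_smul]
  refine ⟨x, b, c, hc, ?_, ?_⟩
  · have e1 : (H * K)ᵀ * (H * K).map (ulang_tau hF) = u • Bi := by
      rw [Matrix.transpose_mul, ug_map_mul]
      calc Kᵀ * Hᵀ * (H.map (ulang_tau hF) * K.map (ulang_tau hF))
          = Kᵀ * (Hᵀ * H.map (ulang_tau hF)) * K.map (ulang_tau hF) := by
            simp only [Matrix.mul_assoc]
        _ = u • Bi := by rw [hU, Matrix.mul_one, h2]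
    have e2 : (K * (b • X))ᵀ * (K * (b • X)).map (ulang_tau hF)
        = (b * ulang_tau hF b * ι c * u) • Bi := by
      rw [Matrix.transpose_mul, ug_map_mul, ug_map_smul, hXt, Matrix.transpose_smul]
      calc b • Xᵀ * Kᵀ * (K.map (ulang_tau hF) * ulang_tau hF b • X)
          = (b * ulang_tau hF b) • (Xᵀ * (Kᵀ * K.map (ulang_tau hF)) * X) := by
            simp only [Matrix.smul_mul, Matrix.mul_smul, smul_smul, Matrix.mul_assoc]
            rw [mul_comm]
        _ = _ := by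
            rw [h2, Matrix.mul_smul, Matrix.smul_mul, hXB, smul_smul, smul_smul]
            congr 1
            ring
    rw [E, e2] at e1
    have hBi0 : Bi ≠ 0 := by
      intro h0
      have h3 : (B : Mn n F₀).map ι = (0 : Mn n F₀).map ι := by
        rw [← hBidef, h0]
        ext i j
        simp
      exact B.ne_zero (ug_iota_inj ι h3)
    have e3 : b * ulang_tau hF b * ι c * u = u := smul_left_injective F hBi0 e1
    have e4 : (b * ulang_tau hF b * ι c) * u = 1 * u := by rw [one_mul]; exact e3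
    exact mul_right_cancel₀ hu e4
  · have e5 := congrArg Matrix.det E
    rw [Matrix.det_mul, Matrix.det_mul, Matrix.det_smul, Fintype.card_fin, hXdef, ug_iota_det] at e5
    have hK0 : K.det ≠ 0 := by
      rw [hKdef]
      exact ((Matrix.isUnit_iff_isUnit_det _).mp k.isUnit).ne_zero
    rw [← hHdef]
    have e6 : K.det * H.det = K.det * (b ^ n * ι ((x : Mn n F₀).det)) := by
      rw [mul_comm]
      exact e5
    exact mul_left_cancel₀ hK0 e6

end Dict

end Cfsg.Agent.Helper30.UGDM1
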