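import Mathlib
import Cfsg.Agent.Helper30.UGCE

set_option autoImplicit false

/-!
Helper library (helper30): piece DM2 of CALL S2709 (helper43).  For a similitude `x` of `B` of
multiplier `c` and `b` with `b τ(b) ι(c) = 1` the matrix `k (b ι(x)) k⁻¹` is unitary, centralises
the graph automorphism `ugr g` of `PSU_n(q)` and has determinant `b ^ n ι(det x)`.
-/

namespace Cfsg.Agent.Helper30.UGDM2

open Matrix Cfsg.Agent.Helper44.PSLn Cfsg.Agent.Helper44.PSUn Cfsg.Agent.Helper43.GraphAut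
open Cfsg.Agent.Helper30.UG Cfsg.Agent.Helper30.UGCE

universe u v

variable {F : Type u} [Field F] [Fintype F] {q n : ℕ}

section Dict

variable {F₀ : Type v} [Field F₀] (hF : Fintype.card F = q ^ 2) (ι : F₀ →+* F)
  (hι : ∀ x, ulang_tau hF x = x ↔ x ∈ Set.range ι)

include hι

/-- DM2 -/
theorem ug_det_mpr (p : ℕ) [Fact p.Prime] [CharP F p] (hn : 3 ≤ n) (h32 : ¬ (n = 3 ∧ q = 2))
    (g : ↥(Cfsg.GU n F q)) (k : GL (Fin n) F) (B : GL (Fin n) F₀) (hd : UDat hF ι g k B)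
    (x : GL (Fin n) F₀) (b : F) (c : F₀)
    (hx : (x : Mn n F₀)ᵀ * (B : Mn n F₀) * (x : Mn n F₀) = c • (B : Mn n F₀))
    (hb : b * ulang_tau hF b * ι c = 1) :
    ∃ h : ↥(Cfsg.GU n F q), h ∈ ulang_cGU (ugr hF g) ∧
      ((h : GL (Fin n) F) : Mn n F).det = b ^ n * ι ((x : Mn n F₀).det) := by
  have hne : Nonempty (Fin n) := ⟨⟨0, by omega⟩⟩
  have hcore := (ce_core hF ι hι p hn h32 g k B hd).1
  obtain ⟨a, u, ha, hu, h1, h2⟩ := hd
  have hb0 : b ≠ 0 := by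
    rintro rfl
    rw [zero_mul, zero_mul] at hb
    exact zero_ne_one hb
  have hc0 : ι c ≠ 0 := by
    intro h0
    rw [h0, mul_zero] at hb
    exact zero_ne_one hb
  obtain ⟨K, hKdef⟩ : ∃ K : Mn n F, K = (k : Mn n F) := ⟨_, rfl⟩
  obtain ⟨K', hK'def⟩ : ∃ K' : Mn n F, K' = ((k⁻¹ : GL (Fin n) F) : Mn n F) := ⟨_, rfl⟩
  obtain ⟨Bm, hBmdef⟩ : ∃ Bm : Mn n F₀, Bm = (B : Mn n F₀) := ⟨_, rfl⟩
  rw [← hKdef, ← hBmdef] at h2
  rw [← hBmdef] at hx
  have hKK' : K * K' = 1 := by rw [hKdef, hK'def]; exact ce_GL_mul_inv k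
  have hK'K : K' * K = 1 := by rw [hKdef, hK'def]; exact ce_GL_inv_mul k
  have hKt : K.map (ulang_tau hF) * K'.map (ulang_tau hF) = 1 := by
    rw [← ug_map_mul, hKK', ug_map_one]
  have hKT' : K'ᵀ * Kᵀ = 1 := by rw [← Matrix.transpose_mul, hKK', Matrix.transpose_one]
  obtain ⟨X, hXdef⟩ : ∃ X : Mn n F, X = (x : Mn n F₀).map ι := ⟨_, rfl⟩
  obtain ⟨X', hX'def⟩ : ∃ X' : Mn n F, X' = ((x⁻¹ : GL (Fin n) F₀) : Mn n F₀).map ι := ⟨_, rfl⟩
  have hXX' : X * X' = 1 := by rw [hXdef, hX'def, ← ug_iota_mul, ce_GL_mul_inv, ug_iota_one]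
  have hXt : X.map (ulang_tau hF) = X := by rw [hXdef]; exact ug_iota_fixed hF ι hι _
  have hXB : Xᵀ * Bm.map ι * X = ι c • Bm.map ι := by
    rw [hXdef, ← ug_iota_transpose, ← ug_iota_mul, ← ug_iota_mul, hx, ug_iota_smul]
  have hHinv : (b • (K * X * K')) * (b⁻¹ • (K * X' * K')) = 1 := by
    rw [Matrix.smul_mul, Matrix.mul_smul, smul_smul, mul_inv_cancel₀ hb0, one_smul]
    calc K * X * K' * (K * X' * K') = K * (X * (K' * K) * X') * K' := by
          simp only [Matrix.mul_assoc]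
      _ = 1 := by rw [hK'K, Matrix.mul_one, hXX', Matrix.mul_one, hKK']
  obtain ⟨hG, hhG⟩ := IsUnit.of_mul_eq_one _ hHinv
  have hGU : hG ∈ Cfsg.GU n F q := by
    rw [ug_mem_GU hF, hhG, Matrix.transpose_smul, ug_map_smul, Matrix.smul_mul, Matrix.mul_smul,
      smul_smul, Matrix.transpose_mul, Matrix.transpose_mul, ug_map_mul, ug_map_mul, hXt]
    have e0 : K'ᵀ * (Xᵀ * Kᵀ) * (K.map (ulang_tau hF) * X * K'.map (ulang_tau hF))
        = K'ᵀ * (Xᵀ * (Kᵀ * K.map (ulang_tau hF)) * X) * K'.map (ulang_tau hF) := by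
      simp only [Matrix.mul_assoc]
    rw [e0, h2, Matrix.mul_smul, Matrix.smul_mul, hXB, smul_smul]
    have e1 : K'ᵀ * ((u * ι c) • Bm.map ι) * K'.map (ulang_tau hF)
        = ι c • (K'ᵀ * (Kᵀ * K.map (ulang_tau hF)) * K'.map (ulang_tau hF)) := by
      rw [h2, Matrix.mul_smul, Matrix.smul_mul, Matrix.mul_smul, Matrix.smul_mul, smul_smul,
        mul_comm]
    have e2 : K'ᵀ * (Kᵀ * K.map (ulang_tau hF)) * K'.map (ulang_tau hF) = 1 := by
      calc _ = (K'ᵀ * Kᵀ) * (K.map (ulang_tau hF) * K'.map (ulang_tau hF)) := by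
            simp only [Matrix.mul_assoc]
        _ = 1 := by rw [hKT', hKt, Matrix.one_mul]
    rw [e1, e2, smul_smul, hb, one_smul]
  have e : K' * (hG : Mn n F) * K = b • X := by
    rw [hhG, Matrix.mul_smul, Matrix.smul_mul]
    congr 1
    calc K' * (K * X * K') * K = (K' * K) * X * (K' * K) := by simp only [Matrix.mul_assoc]
      _ = X := by rw [hK'K, Matrix.one_mul, Matrix.mul_one]
  refine ⟨⟨hG, hGU⟩, ?_, ?_⟩
  · refine (hcore ⟨hG, hGU⟩ (x : Mn n F₀) b hb0 ?_).1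
    show ((k⁻¹ : GL (Fin n) F) : Mn n F) * (hG : Mn n F) * (k : Mn n F)
      = b • ((x : GL (Fin n) F₀) : Mn n F₀).map ι
    rw [← hKdef, ← hK'def, ← hXdef]
    exact e
  · show (hG : Mn n F).det = _
    have hdK : K.det * K'.det = 1 := by rw [← Matrix.det_mul, hKK', Matrix.det_one]
    rw [hhG, Matrix.det_smul, Fintype.card_fin, Matrix.det_mul, Matrix.det_mul, hXdef, ug_iota_det]
    have e3 : K.det * ι ((x : Mn n F₀).det) * K'.det = ι ((x : Mn n F₀).det) := by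
      calc K.det * ι ((x : Mn n F₀).det) * K'.det
          = (K.det * K'.det) * ι ((x : Mn n F₀).det) := by ring
        _ = _ := by rw [hdK, one_mul]
    rw [e3]

end Dict

end Cfsg.Agent.Helper30.UGDM2
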